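/-
Project O8 (helper41): groups whose element orders are at most 8 (S3432).
Part B: the frames of the nonsolvable 2-local subgroups and the statements of the global steps.
The proofs of the steps are described in the jobs O8-* of the team database.
-/
import Cfsg.Agent.O8.A
import Cfsg.Agent.Even.Bau

set_option autoImplicit false
set_option linter.unusedVariables false

open Cfsg Subgroup CL.Grp CL.Even CL.Loc CL.NGrp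
open scoped commutatorElement

namespace CL.O8

universe u

section Defs

variable {G : Type*} [Group G]

/-- `M = N(Q)` is a nonsolvable maximal 2-local subgroup with `O₂(M) = Q` -/
structure Lc (M Q : Subgroup G) : Prop extends Lc0 M Q where
  eq : 𝒩(Q) = M
  max : ∀ R : Subgroup G, IsPGroup 2 R → R ≠ ⊥ → M ≤ 𝒩(R) → 𝒩(R) = M
  cV : 𝒞(𝛀[2] Q) ≤ Q

theorem Lc.cQ {M Q : Subgroup G} (h : Lc M Q) : 𝒞(Q) ≤ Q := fun g hg =>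
  h.chr ⟨h.eq ▸ centralizer_le_normalizer (Q : Set G) hg, hg⟩

/-- no involution centralises `M` -/
theorem Lc.nz [Finite G] {M Q : Subgroup G} (h : Lc M Q) (h8 : Ord8 G) {z : G} (h1 : z * z = 1)
    (h2 : ∀ g ∈ M, Commute g z) : z = 1 := by
  by_contra h3
  exact h.ns (h8.solv_of_cent h1 h3 h2)

/-- an element of order 5 or 7 forces the order of a normalised 2-subgroup -/
theorem Ord8.card_mod [Finite G] (h : Ord8 G) {x : G} (hx : orderOf x = 5 ∨ orderOf x = 7) {R : Subgroup G}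
    (hR : IsPGroup 2 R) (hn : x ∈ 𝒩(R)) : Nat.card R % orderOf x = 1 := by
  have hp : (orderOf x).Prime := by rcases hx with e | e <;> rw [e] <;> decide
  have := Fact.mk hp
  have hle : zpowers x ≤ 𝒩(R) := zpowers_le.2 hn
  letI := conjAction hle
  have hP : IsPGroup (orderOf x) (zpowers x) := IsPGroup.of_card (n := 1) (by rw [Nat.card_zpowers, pow_one])
  have h1 := hP.card_modEq_card_fixedPoints R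
  have h2 : Nat.card (MulAction.fixedPoints (zpowers x) R) = 1 := by
    rw [Nat.card_eq_one_iff_exists]
    refine ⟨⟨1, fun a => smul_one a⟩, fun r => Subtype.ext (Subtype.ext ?_)⟩
    have h3 := congrArg Subtype.val (r.2 ⟨x, mem_zpowers x⟩)
    rw [conjAction_smul_coe] at h3
    exact h.fpf2 hx hR r.1.2 (mul_inv_eq_iff_eq_mul.1 h3)
  rw [h2] at h1
  rw [h1, Nat.mod_eq_of_lt hp.one_lt]

/-- the preimage of `Y` in `G` -/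
def prm {X : Type*} [Group X] {M : Subgroup G} (π : M →* X) (Y : Subgroup X) : Subgroup G :=
  (Y.comap π).map M.subtype

theorem mem_prm {X : Type*} [Group X] {M : Subgroup G} {π : M →* X} {Y : Subgroup X} {m : M} :
    (m : G) ∈ prm π Y ↔ π m ∈ Y := by
  simp [prm]

theorem prm_le {X : Type*} [Group X] {M : Subgroup G} {π : M →* X} {Y : Subgroup X} : prm π Y ≤ M :=
  map_subtype_le _

/-- the two ways out -/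
def Exit (G : Type*) [Group G] : Prop := SectionalPRankLE 2 4 G ∨
  ∃ T R : Subgroup G, IsSylowIn 2 T ⊤ ∧ IsPGroup 2 R ∧ R ≠ ⊥ ∧ cStarOf 2 T ≤ 𝒩(R)

/-- one of the two parabolic subgroups `T⟨y⟩` of `M`, `M / Q ≅ A₆` or `L₃(2)` -/
structure Side (p : ℕ) (M Q T U0 U : Subgroup G) (y : G) : Prop where
  par : Par T U y
  yM : y ∈ M
  le0 : U0 ≤ U
  card : Nat.card U = 2 * Nat.card U0
  sq : ∀ u ∈ U, u * u ∈ Q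
  fp : ∀ u ∈ U, ⁅u, y⁆ ∈ Q → u ∈ Q
  cnj : ∀ u ∈ U, u ∉ Q → u ∈ U0 ∨ y * u * y⁻¹ ∈ U0 ∨ y⁻¹ * u * y ∈ U0
  nrm : ∀ Y, Q ≤ Y → Y ≤ U → T ≤ 𝒩(Y) → Y = Q ∨ Y = U0 ∨ Y = U
  e5 : p = 5 → ∃ e ∈ M, Nine y e
  f7 : p = 7 → ∀ D : Subgroup G, IsPGroup 2 D → M ≤ 𝒩(D) → Nat.card D = Nat.card (fx D y) ^ 3

/-- the frame of `M` when `M / Q ≅ A₆` or `L₃(2)`: `T / Q ≅ D₈` with centre `U0 / Q` and four-groups `Uᵢ / Q` -/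
structure DT0 (p : ℕ) (M Q T U0 U1 U2 : Subgroup G) (y1 y2 : G) : Prop where
  hp : p = 5 ∨ p = 7
  lc : Lc M Q
  syl : IsSylowIn 2 T M
  le0 : Q ≤ U0
  card0 : Nat.card U0 = 2 * Nat.card Q
  s1 : Side p M Q T U0 U1 y1
  s2 : Side p M Q T U0 U2 y2
  inf : U1 ⊓ U2 = U0
  sup : U1 ⊔ U2 = T
  inv : ∀ t ∈ T, t * t ∈ Q → t ∈ U1 ∨ t ∈ U2
  four : ∀ A : Subgroup G, A ≤ T → (∀ a ∈ A, a * a ∈ Q) → A ≤ U1 ∨ A ≤ U2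
  der : ∀ Y, Q ≤ Y → Y ≤ T → Nat.card T ≤ 2 * Nat.card Y → U0 ≤ Y
  ovr : ∀ Y, T ≤ Y → Y ≤ M → Y = T ∨ Y = T ⊔ zpowers y1 ∨ Y = T ⊔ zpowers y2 ∨ Y = M
  gen : T ⊔ zpowers y1 ⊔ zpowers y2 = M
  ex : ∃ x ∈ M, orderOf x = p
  idx : ∀ D : Subgroup G, IsPGroup 2 D → M ≤ 𝒩(D) → ∀ t ∈ T, t ∉ Q → t * t ∈ Q →
    (p = 5 → Nat.card D ≤ ix D t ^ 2) ∧ (p = 7 → Nat.card D ≤ ix D t ^ 3)

/-- `w` does not act on `Q` as a transvection with centre `z` and a `T`-invariant axis -/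
def NoTv (Q T : Subgroup G) (z : G) : Prop :=
  ∀ w ∈ Q, (∀ q ∈ Q, ⁅w, q⁆ = 1 ∨ ⁅w, q⁆ = z) → T ≤ 𝒩(fx Q w) → w ∈ 𝒞(Q)

/-- the conclusion of the step `PW` for `L₃(2)` -/
def PW7 (Q T : Subgroup G) (y1 y2 : G) : Prop :=
  ∀ z ∈ 𝛀[2] T, z ≠ 1 → Commute z y1 → z * (y2 * z * y2⁻¹) * (y2⁻¹ * z * y2) = 1 → NoTv Q T z

structure DT (p : ℕ) (M Q T U0 U1 U2 : Subgroup G) (y1 y2 : G) : Prop extends DT0 p M Q T U0 U1 U2 y1 y2 where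
  hw : ∃ z ∈ 𝛀[2] T, z ≠ 1 ∧ (Commute z y1 ∨ Commute z y2)
  pw : p = 7 → PW7 Q T y1 y2 ∧ PW7 Q T y2 y1

theorem DT0.symm {p : ℕ} {M Q T U0 U1 U2 : Subgroup G} {y1 y2 : G} (h : DT0 p M Q T U0 U1 U2 y1 y2) :
    DT0 p M Q T U0 U2 U1 y2 y1 :=
  { h with
    s1 := h.s2
    s2 := h.s1
    inf := inf_comm U1 U2 ▸ h.inf
    sup := sup_comm U1 U2 ▸ h.sup
    inv := fun t h1 h2 => (h.inv t h1 h2).symm
    four := fun A h1 h2 => (h.four A h1 h2).symm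
    ovr := fun Y h1 h2 => by rcases h.ovr Y h1 h2 with e | e | e | e <;> simp [e]
    gen := sup_right_comm T _ _ ▸ h.gen }

theorem DT.symm {p : ℕ} {M Q T U0 U1 U2 : Subgroup G} {y1 y2 : G} (h : DT p M Q T U0 U1 U2 y1 y2) :
    DT p M Q T U0 U2 U1 y2 y1 :=
  { h.toDT0.symm with
    hw := let ⟨z, h1, h2, h3⟩ := h.hw; ⟨z, h1, h2, h3.symm⟩
    pw := fun e => (h.pw e).symm }

/-- the case `J(T) ≰ Q` -/
structure FF (p : ℕ) (M Q T U0 U1 U2 : Subgroup G) (y1 y2 : G) : Prop extends DT p M Q T U0 U1 U2 y1 y2 where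
  om2 : ∀ t ∈ U0, t ∉ Q → fx (𝛀[2] Q) t = 𝛀[2] U2
  om1 : 𝛀[2] U1 = 𝛀[2] T
  c1 : y1 ∈ 𝒞(𝛀[2] T)
  f2 : fx (𝛀[2] U2) y2 = ⊥
  zt : ∀ t ∈ T, t ∉ U2 → fx (𝛀[2] U2) t = 𝛀[2] T
  sz : (p = 5 ∧ Nat.card (𝛀[2] Q) = 16 ∧ Nat.card (𝛀[2] U2) = 4 ∧ Nat.card (𝛀[2] T) = 2) ∨
    (p = 7 ∧ Nat.card (𝛀[2] Q) = 8 ∧ Nat.card (𝛀[2] U2) = 4 ∧ Nat.card (𝛀[2] T) = 2) ∨
    (p = 7 ∧ Nat.card (𝛀[2] Q) = 64 ∧ Nat.card (𝛀[2] U2) = 16 ∧ Nat.card (𝛀[2] T) = 4)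
  jj : 𝐉[2] T ≤ U2 ∨ Nat.card (𝛀[2] Q) = 8
  ntv : ∀ z ∈ 𝛀[2] T, z ≠ 1 → NoTv Q T z

/-- all nonsolvable maximal 2-locals containing `T` are of type `A₆` or `L₃(2)` -/
def AllD (T : Subgroup G) : Prop := ∀ M Q : Subgroup G, Lc M Q → T ≤ M →
  ∃ p U0 U1 U2 y1 y2, DT p M Q T U0 U1 U2 y1 y2

/-- the frame of `M` when `M / Q ≅ A₅`; `B = T⟨y⟩` -/
structure AT (M Q T : Subgroup G) (y : G) : Prop where
  lc : Lc M Q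
  syl : IsSylowIn 2 T M
  le : Q ≤ T
  card : Nat.card T = 4 * Nat.card Q
  sq : ∀ t ∈ T, t * t ∈ Q
  yM : y ∈ M
  ord : orderOf y = 3
  yT : y ∈ 𝒩(T)
  fp : ∀ t ∈ T, ⁅t, y⁆ ∈ Q → t ∈ Q
  irr : ∀ Y, Q ≤ Y → Y ≤ T → y ∈ 𝒩(Y) → Y = Q ∨ Y = T
  nT : M ⊓ 𝒩(T) = T ⊔ zpowers y
  mem : ∀ g ∈ T ⊔ zpowers y, ∃ t ∈ T, g = t ∨ g = y * t ∨ g = y⁻¹ * t
  max : ∀ Y, T ⊔ zpowers y ≤ Y → Y ≤ M → Y = T ⊔ zpowers y ∨ Y = M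
  ti : ∀ m ∈ M, m ∉ 𝒩(T) → T ⊔ cj m T = M
  inv : ∃ u ∈ M, u ∉ 𝒩(T) ∧ u * y * u⁻¹ = y⁻¹
  idx : ∀ D : Subgroup G, IsPGroup 2 D → M ≤ 𝒩(D) → ∀ t ∈ T, t ∉ Q → Nat.card D ≤ ix D t ^ 2
  five : ∀ x ∈ M, orderOf x = 5 → x ∉ 𝒩(T)
  thr : ∃ x ∈ M, ∃ t ∈ T, orderOf x = 5 ∧ orderOf (x * t) = 5 ∧ ∀ i j, (i = 2 ∧ j = 4) ∨ (i = 3 ∧ j = 3) ∨
    (i = 4 ∧ j = 2) → (x ^ i)⁻¹ * (x * t) ^ j ∈ 𝒩(T) ∧ (x ^ i)⁻¹ * (x * t) ^ j ∉ T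

/-- the case `J(T) ≰ Q` -/
structure AF (M Q T : Subgroup G) (y : G) : Prop extends AT M Q T y where
  cV16 : Nat.card (𝛀[2] Q) = 16
  cZ : Nat.card (𝛀[2] T) = 4
  zt : ∀ t ∈ T, t ∉ Q → fx (𝛀[2] Q) t = 𝛀[2] T
  fy : ∀ v ∈ 𝛀[2] Q, ⁅v, y⁆ ∈ 𝛀[2] T → v ∈ 𝛀[2] T

/-- the frame of `M` when `M / Q ≅ S₅` -/
structure ST (M Q T : Subgroup G) : Prop where
  lc : Lc M Q
  syl : IsSylowIn 2 T M
  le : Q ≤ T
  el : IsElementaryAbelian 2 Q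
  free : ∀ t ∈ T, t ∉ Q → t * t ∈ Q → Nat.card Q ≤ ix Q t ^ 2
  four : ∀ A : Subgroup G, A ≤ T → IsElementaryAbelian 2 A → Q.relIndex A ≤ 4
  sz : Nat.card Q = 16 ∨ 256 ≤ Nat.card Q
  sn : M ⊓ 𝒩(T) ≤ T
  ex8 : Nat.card Q = 16 → ∃ F : Subgroup G, F ≤ T ∧ IsElementaryAbelian 2 F ∧ Nat.card F = 8 ∧ T ⊓ 𝒞(F) ≤ F

end Defs

/-! ### General steps -/

def MXThm : Prop := ∀ (G : Type u) [Group G] [Finite G], Ord8 G → LC2 G → ∀ R : Subgroup G, IsPGroup 2 R → R ≠ ⊥ →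
  ¬ Group.IsSolvable ↥(𝒩(R)) → ∃ M Q : Subgroup G, Lc M Q ∧ 𝒩(R) ≤ M

def RKThm : Prop := ∀ (G : Type u) [Group G] [Finite G] (T F : Subgroup G), IsSylowIn 2 T ⊤ → F ≤ T →
  IsElementaryAbelian 2 F → Nat.card F = 8 → T ⊓ 𝒞(F) ≤ F → SectionalPRankLE 2 4 G

/-- the case `J(T) ≤ Q` -/
def JQThm : Prop := ∀ (G : Type u) [Group G] [Finite G] (M Q T : Subgroup G), Lc M Q → IsSylowIn 2 T M →
  𝐉[2] T ≤ Q → 𝒩(𝐉[2] T) = M ∧ 𝒩(T) ≤ M ∧ IsSylowIn 2 T ⊤ ∧ (𝒞(𝛀[2] T) ≤ M → Exit G)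

/-- an offender -/
def OFThm : Prop := ∀ (G : Type u) [Group G] [Finite G] (M Q T A : Subgroup G), Lc M Q → Q ≤ T → T ≤ M →
  A ∈ meaIn 2 T → (𝒞(A)).relIndex (𝛀[2] Q) ≤ Q.relIndex A

def S90Thm : Prop := ∀ (G : Type u) [Group G] [Finite G], IsCharacteristicTwoType G → ∀ M Q T : Subgroup G, Lc M Q →
  TyA M Q ∨ TyS M Q → IsSylowIn 2 T M → 𝒩(T) ≤ M ∨ SectionalPRankLE 2 4 G

/-! ### The types `A₆` and `L₃(2)` -/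

def LFThm : Prop := ∀ (G : Type u) [Group G] [Finite G], Ord8 G → ∀ (p : ℕ) (M Q : Subgroup G) (X : Type u) [Group X]
  (π : M →* X) (z a b c d : X) (y1 y2 : M), Lc M Q → Quo M Q π → DX p z a b c d → π y1 = c → π y2 = d →
  orderOf (y1 : G) = 3 → orderOf (y2 : G) = 3 →
  DT0 p M Q (prm π (closure {a, b})) (prm π (closure {z})) (prm π (closure {z, a})) (prm π (closure {z, b})) y1 y2

/-- the part `Side` of `LFThm` -/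
def SDThm : Prop := ∀ (G : Type u) [Group G] [Finite G], Ord8 G → ∀ (p : ℕ) (M Q : Subgroup G) (X : Type u) [Group X]
  (π : M →* X) (z a b c d : X) (y1 y2 : M), Lc M Q → Quo M Q π → DX p z a b c d → π y1 = c → π y2 = d →
  orderOf (y1 : G) = 3 → orderOf (y2 : G) = 3 →
  Side p M Q (prm π (closure {a, b})) (prm π (closure {z})) (prm π (closure {z, a})) y1 ∧
  Side p M Q (prm π (closure {a, b})) (prm π (closure {z})) (prm π (closure {z, b})) y2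

def HWThm : Prop := ∀ (G : Type u) [Group G] [Finite G], Ord8 G → ∀ (p : ℕ) (M Q : Subgroup G) (X : Type u) [Group X]
  (π : M →* X) (z a b c d : X) (y1 y2 : M), Lc M Q → Quo M Q π → DX p z a b c d → π y1 = c → π y2 = d →
  orderOf (y1 : G) = 3 → orderOf (y2 : G) = 3 →
  ∃ v ∈ 𝛀[2] (prm π (closure {a, b})), v ≠ 1 ∧ (Commute v y1 ∨ Commute v y2)

def PWThm : Prop := ∀ (G : Type u) [Group G] [Finite G], Ord8 G → ∀ (M Q U : Subgroup G) (X : Type u) [Group X]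
  (π : M →* X) (a b c d : X) (y1 y2 : M), Lc M Q → Quo M Q π → PWc a b c d → π y1 = c → π y2 = d →
  orderOf (y2 : G) = 3 → Par (prm π (closure {a, b})) U y1 → PW7 Q (prm π (closure {a, b})) y1 y2

def PW5Thm : Prop := ∀ (G : Type u) [Group G] [Finite G], Ord8 G → ∀ (Q T : Subgroup G) (x z : G), IsPGroup 2 Q →
  x ∈ 𝒩(Q) → orderOf x = 5 → Nat.card (𝛀[2] Q) = 16 → z ∈ 𝛀[2] Q → z ≠ 1 → NoTv Q T z

def FFThm : Prop := ∀ (G : Type u) [Group G] [Finite G], Ord8 G → ∀ (p : ℕ) (M Q T U0 U1 U2 : Subgroup G) (y1 y2 : G),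
  DT p M Q T U0 U1 U2 y1 y2 → ¬ 𝐉[2] T ≤ Q → FF p M Q T U0 U1 U2 y1 y2 ∨ FF p M Q T U0 U2 U1 y2 y1

/-- the first half of `FFThm` -/
def FF0Thm : Prop := ∀ (G : Type u) [Group G] [Finite G], Ord8 G → ∀ (p : ℕ) (M Q T U0 U1 U2 : Subgroup G) (y1 y2 : G),
  DT0 p M Q T U0 U1 U2 y1 y2 → ¬ 𝐉[2] T ≤ Q → ∃ U, (U = U1 ∨ U = U2) ∧
  (∀ t ∈ U0, t ∉ Q → fx (𝛀[2] Q) t = 𝛀[2] U) ∧ (𝐉[2] T ≤ U ∨ Nat.card (𝛀[2] Q) = 8) ∧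
  ((p = 5 ∧ Nat.card (𝛀[2] Q) = 16 ∧ Nat.card (𝛀[2] U) = 4) ∨ (p = 7 ∧ Nat.card (𝛀[2] Q) = 8 ∧ Nat.card (𝛀[2] U) = 4) ∨
    (p = 7 ∧ Nat.card (𝛀[2] Q) = 64 ∧ Nat.card (𝛀[2] U) = 16))

def GD1Thm : Prop := ∀ (G : Type u) [Group G] [Finite G], Ord8 G → LC2 G →
  ∀ (p : ℕ) (M Q T U0 U1 U2 : Subgroup G) (y1 y2 : G), DT p M Q T U0 U1 U2 y1 y2 → 𝐉[2] T ≤ Q → Exit G

def GDBThm : Prop := ∀ (G : Type u) [Group G] [Finite G], Ord8 G → LC2 G →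
  ∀ (p : ℕ) (M Q T U0 U1 U2 : Subgroup G) (y1 y2 : G), FF p M Q T U0 U1 U2 y1 y2 → ¬ IsSylowIn 2 T ⊤ → Nat.card Q = 8

def P2NThm : Prop := ∀ (G : Type u) [Group G] [Finite G], Ord8 G → LC2 G →
  ∀ (p : ℕ) (M Q T U0 U1 U2 : Subgroup G) (y1 y2 : G), FF p M Q T U0 U1 U2 y1 y2 → IsSylowIn 2 T ⊤ → AllD T →
  𝒞(𝛀[2] T) = T ⊔ zpowers y1 ∧ (∀ M' Q' : Subgroup G, Lc M' Q' → T ⊔ zpowers y2 ≤ M' → M' = M) ∧
  (Nat.card (𝛀[2] T) = 2 → ∀ M' Q' : Subgroup G, Lc M' Q' → T ≤ M' → M' = M ∨ ∃ U y, Par T U y ∧ y ∉ M)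

/-- solvable overgroups of `T⟨y₂⟩` with `O₂(H) < U₂` -/
def P2AThm : Prop := ∀ (G : Type u) [Group G] [Finite G], Ord8 G →
  ∀ (p : ℕ) (M Q T U0 U1 U2 : Subgroup G) (y1 y2 : G), FF p M Q T U0 U1 U2 y1 y2 →
  ∀ H R O : Subgroup G, Fit3 H R O → T ⊔ zpowers y2 ≤ H → R ≤ U2 → U2 ≠ R → Nat.card Q = 8

/-- solvable overgroups of `T⟨y₂⟩` with `O₂(H) = U₂` -/
def P2BThm : Prop := ∀ (G : Type u) [Group G] [Finite G], Ord8 G → LC2 G →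
  ∀ (p : ℕ) (M Q T U0 U1 U2 : Subgroup G) (y1 y2 : G), FF p M Q T U0 U1 U2 y1 y2 → IsSylowIn 2 T ⊤ →
  𝒞(𝛀[2] T) = T ⊔ zpowers y1 → ∀ H O : Subgroup G, Fit3 H U2 O → T ⊔ zpowers y2 ≤ H → H ≤ M

/-- 2-locals containing `T⟨y₂⟩` -/
def P2UThm : Prop := ∀ (G : Type u) [Group G] [Finite G], Ord8 G → LC2 G →
  ∀ (p : ℕ) (M Q T U0 U1 U2 : Subgroup G) (y1 y2 : G), FF p M Q T U0 U1 U2 y1 y2 → IsSylowIn 2 T ⊤ → AllD T →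
  Nat.card Q ≠ 8 → ∀ R : Subgroup G, IsPGroup 2 R → R ≠ ⊥ → T ⊔ zpowers y2 ≤ 𝒩(R) → 𝒩(R) ≤ M

def GA8Thm : Prop := ∀ (G : Type u) [Group G] [Finite G], Ord8 G → LC2 G →
  ∀ (p : ℕ) (M Q T U0 U1 U2 : Subgroup G) (y1 y2 : G), FF p M Q T U0 U1 U2 y1 y2 → IsSylowIn 2 T ⊤ →
  𝒞(𝛀[2] T) = T ⊔ zpowers y1 → Nat.card (𝛀[2] T) = 2 → Nat.card Q ≠ 8 → ¬ 𝐉[2] T ≤ U2 →
  ∀ H : Subgroup G, Group.IsSolvable H → IsCharP 2 H → T ≤ H → H ≤ M ∨ ∃ U y, Par T U y ∧ y ∉ M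

def GDAThm : Prop := ∀ (G : Type u) [Group G] [Finite G], Ord8 G → LC2 G →
  ∀ (p : ℕ) (M Q T U0 U1 U2 : Subgroup G) (y1 y2 : G), FF p M Q T U0 U1 U2 y1 y2 → IsSylowIn 2 T ⊤ → AllD T →
  Nat.card Q ≠ 8 → Exit G

/-! ### The type `A₅` -/

def ATThm : Prop := ∀ (G : Type u) [Group G] [Finite G], Ord8 G → ∀ M Q T : Subgroup G, Lc M Q → TyA M Q →
  IsSylowIn 2 T M → (∃ y ∈ M, y ∈ 𝒩(T) ∧ orderOf y = 3) ∧ ∀ y ∈ M, y ∈ 𝒩(T) → orderOf y = 3 → AT M Q T y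

def A5TThm : Prop := ∀ (G : Type u) [Group G] [Finite G], Ord8 G → LC2 G → ∀ (M Q T R : Subgroup G) (y e q d : G),
  AT M Q T y → IsSylowIn 2 T ⊤ → R ≤ T → Nat.card T = 2 * Nat.card R → y ∈ 𝒩(R) → e ∈ 𝒩(R) → Nine y e →
  q ∈ 𝛀[2] Q → q ∉ R → q * e * q⁻¹ * e ∈ R → 𝛀[2] T ≤ R → d ∈ 𝛀[2] T → d ≠ 1 → Commute d y →
  (∀ r ∈ R, Commute r y → Commute r e) → False

def A5SThm : Prop := ∀ (G : Type u) [Group G] [Finite G], Ord8 G → LC2 G → ∀ (M Q T : Subgroup G) (y : G),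
  AT M Q T y → IsSylowIn 2 T ⊤ → ∀ H : Subgroup G, Group.IsSolvable H → IsCharP 2 H → T ⊔ zpowers y ≤ H → H ≤ 𝒩(T)

def AFThm : Prop := ∀ (G : Type u) [Group G] [Finite G], Ord8 G → ∀ (M Q T : Subgroup G) (y : G),
  AT M Q T y → ¬ 𝐉[2] T ≤ Q → AF M Q T y

def G5AThm : Prop := ∀ (G : Type u) [Group G] [Finite G], Ord8 G → ∀ (M Q M' Q' T : Subgroup G) (y : G),
  AF M Q T y → AF M' Q' T y → M ≠ M' → IsSylowIn 2 T ⊤ → ¬ 𝛀[2] Q' ≤ Q → SectionalPRankLE 2 4 G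

def G5BThm : Prop := ∀ (G : Type u) [Group G] [Finite G], Ord8 G → ∀ (M Q M' Q' T : Subgroup G) (y : G),
  AF M Q T y → AF M' Q' T y → M ≠ M' → 𝛀[2] Q' ≤ Q → False

def GA5Thm : Prop := ∀ (G : Type u) [Group G] [Finite G], Ord8 G → LC2 G → ∀ (M Q T : Subgroup G) (y : G),
  AT M Q T y → 𝒩(T) ≤ M → (∀ M' Q' : Subgroup G, Lc M' Q' → T ⊔ zpowers y ≤ M' → IsSylowIn 2 T M' → AT M' Q' T y) →
  Exit G

/-! ### The type `S₅` -/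

def S5EThm : Prop := ∀ (G : Type u) [Group G] [Finite G], Ord8 G → ∀ M Q : Subgroup G, Lc M Q → TyS M Q →
  (∀ y ∈ M, orderOf y = 3 → fx Q y = ⊥) ∧ IsElementaryAbelian 2 Q ∧
    ∀ t ∈ M, t ∉ Q → t * t ∈ Q → Nat.card Q ≤ ix Q t ^ 2

def STThm : Prop := ∀ (G : Type u) [Group G] [Finite G], Ord8 G → ∀ M Q T : Subgroup G, Lc M Q → TyS M Q →
  IsSylowIn 2 T M → ST M Q T

def GS5Thm : Prop := ∀ (G : Type u) [Group G] [Finite G], Ord8 G → LC2 G → ∀ M Q T : Subgroup G, ST M Q T →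
  𝒩(T) ≤ M → Exit G

end CL.O8
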