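/-
Project O8 (S3432): the type `A₅`; solvable overgroups of `T⟨y⟩` and the case `J(T) ≰ Q`.
-/
import Cfsg.Agent.O8.B
import Cfsg.Agent.Grp.Coprime2

set_option autoImplicit false
set_option linter.unusedVariables false

open Cfsg Subgroup CL.Grp CL.Even CL.Loc CL.NGrp
open scoped commutatorElement

namespace CL.O8

universe u

namespace A5S

variable {G : Type*} [Group G] {M Q T R : Subgroup G} {y u z s t : G}

theorem ex_sq (hT : IsPGroup 2 T) (ht : t ∈ T) (hn : t ∉ R) : ∃ q ∈ T, q ∉ R ∧ q * q ∈ R := by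
  obtain ⟨k, hk⟩ := isPGroup_iff_forall.1 hT t ht
  replace hk : t ^ 2 ^ k ∈ R := hk ▸ one_mem R
  induction k with
  | zero => exact (hn (by simpa using hk)).elim
  | succ k ih =>
    by_cases h : t ^ 2 ^ k ∈ R
    · exact ih h
    · exact ⟨_, pow_mem ht _, h, by rwa [← pow_add, ← mul_two, ← pow_succ]⟩

theorem mulm (h : R.relIndex T = 2) (hs : s ∈ T) (ht : t ∈ T) (sR : s ∉ R) (tR : t ∉ R) : s * t ∈ R :=
  (mul_mem_iff_of_index_two h (a := ⟨s, hs⟩) (b := ⟨t, ht⟩)).2 (iff_of_false sR tR)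

theorem rel_card (H K : Subgroup G) : H.relIndex K * Nat.card (K ⊓ H : Subgroup G) = Nat.card K := by
  have h := (H.subgroupOf K).index_mul_card
  rwa [← inf_subgroupOf_left, Nat.card_congr (subgroupOfEquivOfLe (inf_le_left : K ⊓ H ≤ K)).toEquiv,
    inf_subgroupOf_left] at h

variable [Finite G]

theorem rel_of_card (h : R ≤ T) {n : ℕ} (e : Nat.card T = n * Nat.card R) : R.relIndex T = n := by
  have := rel_card R T
  rw [inf_eq_right.2 h, e] at this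
  exact Nat.eq_of_mul_eq_mul_right Nat.card_pos this

theorem rel_ne (H K : Subgroup G) : H.relIndex K ≠ 0 := index_ne_zero_of_finite

variable (h8 : Ord8 G) (h : AT M Q T y)
include h

theorem ZV : 𝛀[2] T ≤ 𝛀[2] Q := fun _ hz =>
  have c := cent_mono h.le (ozc_le_cent T hz)
  mem_ozc.2 ⟨h.lc.cQ c, c, (mem_ozc.1 hz).2.2⟩

include h8

theorem cenM (hu : u ∈ M) (un : u ∉ 𝒩(T)) (zz : z * z = 1) (h1 : z ∈ 𝒞(T)) (h2 : u * z * u⁻¹ ∈ 𝒞(T)) : z = 1 := by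
  have h3 : z ∈ 𝒞(cj u⁻¹ T) := by rwa [← cj_cent, mem_cj, inv_inv]
  have h4 : z ∈ 𝒞(M) := by
    rw [← h.ti u⁻¹ (inv_mem hu) fun e => un (inv_mem_iff.1 e), cent_sup]
    exact ⟨h1, h3⟩
  exact h.lc.nz h8 zz fun g hg => comm_of_mem h4 hg

theorem mod5 {D : Subgroup G} (hD : IsPGroup 2 D) (hn : M ≤ 𝒩(D)) : Nat.card D % 5 = 1 :=
  have ⟨_, hx, _, _, h5, _⟩ := h.thr
  h5 ▸ h8.card_mod (.inl h5) hD (hn hx)

theorem noD (hle : R ≤ T) (h2 : R.relIndex T = 2) (hn : T ⊔ zpowers y ≤ 𝒩(R)) {q : G} (hq : q ∈ Q) (qR : q ∉ R)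
    (hD : ∀ d ∈ R, Commute d y → d = 1) : False := by
  obtain ⟨u, hu, un, uy⟩ := h.inv
  have hB : T ⊔ zpowers y ≤ M := sup_le h.syl.le (zpowers_le.2 h.yM)
  have nB : T ⊔ zpowers y ≤ 𝒩(Q ⊓ R) := le_norm_inf (hB.trans h.lc.nQ) hn
  have pQ : IsPGroup 2 (Q ⊓ R : Subgroup G) := h.lc.two.to_inf_left
  have e : Q ⊓ R = ⁅Q, zpowers y⁆ := le_antisymm (by
    have := Fact.mk Nat.prime_two
    obtain ⟨k, hk⟩ := IsPGroup.iff_card.1 pQ
    rw [← commutator_sup_centralizer_eq (le_sup_right.trans nB)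
      (by rw [Nat.card_zpowers, h.ord, hk]; exact Nat.Coprime.pow_right _ (by decide)) (.inl inferInstance)]
    exact sup_le (commutator_mono inf_le_left le_rfl) fun d hd =>
      hD d hd.1.2 (comm_of_mem hd.2 (mem_zpowers y)).symm ▸ one_mem _) (commutator_le.2 fun t ht a ha => by
    have aR := hn (mem_sup_right ha)
    have h3 : a * t⁻¹ * a⁻¹ ∈ Q := conj_mem (h.lc.nQ (hB (mem_sup_right ha))) (inv_mem ht)
    rw [commutatorElement_def, mul_assoc, mul_assoc, ← mul_assoc a]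
    refine ⟨Q.mul_mem ht h3, ?_⟩
    by_cases tR : t ∈ R
    · exact R.mul_mem tR (conj_mem aR (inv_mem tR))
    · exact mulm h2 (h.le ht) (h.le h3) tR fun m => tR (inv_mem_iff.1 ((mem_normalizer_iff.1 aR _).2 m)))
  have uN : u ∈ 𝒩(Q ⊓ R) := by
    rw [e, ← cj_eq_iff_mem, cj_commutator, cj_eq (h.lc.nQ hu), MonoidHom.map_zpowers]
    change ⁅Q, zpowers (u * y * u⁻¹)⁆ = _
    rw [uy, zpowers_inv]
  rcases h.max (M ⊓ 𝒩(Q ⊓ R)) (le_inf hB nB) inf_le_left with m | m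
  · exact un (h.nT.ge (m.le ⟨hu, uN⟩)).2
  have h3 := mod5 h8 h pQ (m.ge.trans inf_le_right)
  have h4 := mod5 h8 h h.lc.two h.lc.nQ
  have h5 := rel_card R Q
  rw [relIndex_eq_two_iff.2 ⟨q, hq, fun b hb => by
    by_cases bR : b ∈ R
    · exact .inr ⟨bR, fun m => qR ((mul_mem_cancel_left bR).1 m)⟩
    · exact .inl ⟨mulm h2 (h.le hb) (h.le hq) bR qR, bR⟩⟩] at h5
  omega

theorem fy (h16 : Nat.card (𝛀[2] Q) = 16) (h4 : Nat.card (𝛀[2] T) = 4) {v : G} (hv : v ∈ 𝛀[2] Q)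
    (hc : ⁅v, y⁆ ∈ 𝛀[2] T) : v ∈ 𝛀[2] T := by
  by_contra hn
  have yZ : y ∈ 𝒩(𝛀[2] T) := norm_le_norm_ozc T h.yT
  have nV : M ≤ 𝒩(𝛀[2] Q) := le_norm_ozc h.lc.nQ
  have VZ : 𝛀[2] Q ≤ 𝒩(𝛀[2] T) := ((ozc_le Q).trans h.le).trans (le_norm_ozc le_normalizer)
  have sq : ∀ w ∈ 𝛀[2] Q, w⁻¹ = w := fun w hw => inv_eq_of_mul_eq_one_left (by rw [← pow_two, (mem_ozc.1 hw).2.2])
  let W : Subgroup G :=
    { carrier := {w | w ∈ 𝛀[2] Q ∧ ⁅w, y⁆ ∈ 𝛀[2] T}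
      one_mem' := ⟨one_mem _, by simp [one_mem]⟩
      mul_mem' := fun {a b} ha hb => ⟨mul_mem ha.1 hb.1, by
        rw [show ⁅a * b, y⁆ = a * ⁅b, y⁆ * a⁻¹ * ⁅a, y⁆ by simp only [commutatorElement_def]; group]
        exact mul_mem (conj_mem (VZ ha.1) hb.2) ha.2⟩
      inv_mem' := fun {a} ha => by rwa [sq a ha.1] }
  have ZW : 𝛀[2] T ≤ W := fun z hz => ⟨ZV h hz, by
    rw [commutatorElement_def, mul_assoc, mul_assoc, ← mul_assoc y]
    exact mul_mem hz (conj_mem yZ (inv_mem hz))⟩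
  have WV : W ≤ 𝛀[2] Q := fun _ hw => hw.1
  have all : 𝛀[2] Q ≤ W := by
    by_contra hW
    obtain ⟨w, hw, wW⟩ := SetLike.not_le_iff_exists.1 hW
    have c1 := rel_card W (𝛀[2] Q)
    rw [inf_eq_right.2 WV, h16] at c1
    have c2 : 4 < Nat.card W := lt_of_le_of_ne (h4 ▸ card_le_of_le ZW) fun e =>
      hn ((eq_of_le_of_card_ge ZW (by omega)).ge (show v ∈ W from ⟨hv, hc⟩))
    have c3 : W.relIndex (𝛀[2] Q) ≠ 1 := fun e => hW (relIndex_eq_one.1 e)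
    have c4 : W.relIndex (𝛀[2] Q) = 2 := by
      generalize W.relIndex (𝛀[2] Q) = n at c1 c3
      have : n < 4 := by nlinarith
      interval_cases n <;> omega
    have yW : y ∈ 𝒩(W) := mem_norm_of_cj_le (by
      rintro _ ⟨a, ha, rfl⟩
      have : y * a * y⁻¹ = a * ⁅a, y⁆ := by rw [commutatorElement_def, sq a ha.1, ← mul_assoc, ← mul_assoc,
        ← mul_assoc, ← pow_two, (mem_ozc.1 ha.1).2.2, one_mul]
      change y * a * y⁻¹ ∈ W
      rw [this]; exact W.mul_mem ha (ZW ha.2))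
    have c5 : ⁅w, y⁆ ∈ W := by
      rw [commutatorElement_def, mul_assoc, mul_assoc, ← mul_assoc y]
      exact mulm c4 hw (conj_mem (nV h.yM) (inv_mem hw)) wW
        fun m => wW (inv_mem_iff.1 ((mem_normalizer_iff.1 yW _).2 m))
    have y3 : y * y * y = 1 := by rw [← pow_three', ← h.ord, pow_orderOf_eq_one]
    have c6 : ⁅⁅w, y⁆, y⁆ * (y * (y * ⁅w, y⁆ * y⁻¹) * y⁻¹) = 1 := by
      rw [commutatorElement_def ⁅w, y⁆, sq _ c5.1]
      calc _ = w * (y * y * y) * w⁻¹ * (y * y * y)⁻¹ := by simp only [commutatorElement_def]; group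
        _ = 1 := by rw [y3]; group
    have c7 : y * (y * ⁅w, y⁆ * y⁻¹) * y⁻¹ ∈ 𝛀[2] T := (mul_mem_cancel_left c5.2).1 (c6 ▸ one_mem _)
    exact wW ⟨hw, (mem_normalizer_iff.1 yZ _).2 ((mem_normalizer_iff.1 yZ _).2 c7)⟩
  obtain ⟨u, hu, un, uy⟩ := h.inv
  have yQ : y ∈ Q := h.lc.cV fun w hw => commutatorElement_eq_one_iff_mul_comm.1 (cenM h8 h hu un
    (by rw [← pow_two, (mem_ozc.1 (all hw).2).2.2]) (ozc_le_cent T (all hw).2) (ozc_le_cent T (by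
      rw [show u * ⁅w, y⁆ * u⁻¹ = y⁻¹ * ⁅u * w * u⁻¹, y⁆⁻¹ * y by
        rw [conjugate_commutatorElement, uy]; simp only [commutatorElement_def]; group]
      exact conj_mem' yZ (inv_mem (all (conj_mem (nV hu) hw)).2))))
  have := eq_one_of_coprime_of_mem h.lc.two (by rw [h.ord]; decide) yQ
  have h3 := h.ord
  rw [this, orderOf_one] at h3
  omega

end A5S

open A5S in
theorem a5sThm (hF : FSThm.{u}) (h2 : LY2Thm.{u}) (hT : A5TThm.{u}) : A5SThm.{u} :=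
  fun G _ _ h8 lc M Q T y h hS H hs hc hB => by
  have := Fact.mk Nat.prime_two
  have TH : T ≤ H := le_sup_left.trans hB
  have yH : y ∈ H := hB (mem_sup_right (mem_zpowers y))
  have RT : pCoreOf 2 H ≤ T := (hS.of_le TH le_top).le_of_normalized (core_isP H) (core_le H) (self_le_norm_core H)
  by_cases e : T = pCoreOf 2 H
  · exact e ▸ self_le_norm_core H
  exfalso
  obtain ⟨t, ht, tR⟩ := SetLike.not_le_iff_exists.1 fun m => e (le_antisymm m RT)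
  obtain ⟨O, hO⟩ := (hF G h8 H hs hc).resolve_right fun ⟨_, _, _, _, _, m⟩ =>
    have ⟨q, hq, q1, q2⟩ := ex_sq hS.isPGroup ht tR
    m ⟨y, yH, q, TH hq, h.ord, q1, q2⟩
  generalize pCoreOf 2 H = R at RT e hO
  obtain ⟨c1, -, -, c4, c5, q, qT, qR, qq, qy, f, fO, n9, qf⟩ := h2 G h8 H R O T y hO hS.isPGroup RT TH e yH h.ord h.yT
  have i2 := rel_of_card RT c1
  have qQ : q ∈ Q := h.fp q qT (by rw [commutatorElement_eq_one_iff_commute.2 qy]; exact one_mem _)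
  have DZ : ∀ d ∈ R, Commute d y → d ∈ 𝛀[2] T := fun d hd c =>
    mem_ozc.2 ⟨RT hd, c5 d hd c, by rw [pow_two, h8.sq h.ord hO.two hd c]⟩
  by_cases hD : ∀ d ∈ R, Commute d y → d = 1
  · exact noD h8 h RT i2 (hB.trans hO.nR) qQ qR hD
  push Not at hD
  obtain ⟨d, dR, dy, d1⟩ := hD
  obtain ⟨u, hu, un, uy⟩ := h.inv
  have dV : u * d * u⁻¹ ∈ 𝛀[2] Q := conj_mem (le_norm_ozc h.lc.nQ hu) (ZV h (DZ d dR dy))
  have dy' : Commute (u * d * u⁻¹) y := by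
    have : Commute (u * d * u⁻¹) (u * y * u⁻¹) := by rw [commute_iff_eq, conj_mul, conj_mul, dy.eq]
    exact Commute.inv_right_iff.1 (uy ▸ this)
  have dR' : u * d * u⁻¹ ∉ R := fun m => d1 (cenM h8 h hu un (h8.sq h.ord hO.two dR dy) (c5 d dR dy) (c5 _ m dy'))
  have qV : q ∈ 𝛀[2] Q := (mul_mem_cancel_left dV).1
    (ZV h (DZ _ (mulm i2 (h.le (ozc_le Q dV)) qT dR' qR) (dy'.mul_left qy)))
  exact hT G h8 lc M Q T R y f q d h hS RT c1 (hO.nR yH) (hO.nR (hO.OH fO)) n9 qV qR qf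
    (fun z hz => hO.chr ⟨TH (ozc_le T hz), cent_mono RT (ozc_le_cent T hz)⟩) (DZ d dR dy) d1 dy
    fun r hr c => c4 f fO n9.comm.symm n9.of r hr c

open A5S in
theorem afThm (hO : OFThm.{u}) : AFThm.{u} := fun G _ _ h8 M Q T y h hJ => by
  have := Fact.mk Nat.prime_two
  rw [thompsonSubgroupOf_eq_sSup, sSup_le_iff] at hJ
  push Not at hJ
  obtain ⟨A, hA, AQ⟩ := hJ
  obtain ⟨a, ha, aQ⟩ := SetLike.not_le_iff_exists.1 AQ
  have AT' := meaIn_le hA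
  have nV : M ≤ 𝒩(𝛀[2] Q) := le_norm_ozc h.lc.nQ
  have i1 := hO G M Q T A h.lc h.le h.syl.le hA
  have i2 : Q.relIndex A ≤ 4 := rel_of_card h.le h.card ▸ relIndex_le_of_le_right AT' (rel_ne _ _)
  have i3 : ix (𝛀[2] Q) a ≤ (𝒞(A)).relIndex (𝛀[2] Q) :=
    relIndex_le_of_le_left (centralizer_le (Set.singleton_subset_iff.2 ha)) (rel_ne _ _)
  have i4 := h.idx _ (ozc_isP Q) nV
  have h16 : Nat.card (𝛀[2] Q) = 16 := by
    have h1 := (i4 a (AT' ha) aQ).trans (Nat.pow_le_pow_left (i3.trans (i1.trans i2)) 2)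
    have h2 := mod5 h8 h (ozc_isP Q) nV
    have h3 : Nat.card (𝛀[2] Q) ≠ 1 := fun e => ozc_ne_bot h.lc.two h.lc.ne (card_eq_one.1 e)
    have h4 : 2 ∣ Nat.card (𝛀[2] Q) := by
      obtain ⟨k, hk⟩ := IsPGroup.iff_card.1 (ozc_isP (p := 2) Q)
      rw [hk] at h3 ⊢
      exact dvd_pow_self 2 fun e => h3 (by rw [e, pow_zero])
    have h5 : ¬ 3 ∣ Nat.card (𝛀[2] Q) := by
      obtain ⟨k, hk⟩ := IsPGroup.iff_card.1 (ozc_isP (p := 2) Q)
      rw [hk]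
      exact fun m => absurd (Nat.prime_three.dvd_of_dvd_pow m) (by decide)
    omega
  have i5 : ∀ t ∈ T, t ∉ Q → 4 ≤ ix (𝛀[2] Q) t := fun t ht tQ => by
    have := i4 t ht tQ
    rw [h16] at this
    nlinarith
  have i6 := i5 a (AT' ha) aQ
  have AQT : A ⊔ Q = T := eq_of_le_of_card_ge (sup_le AT' h.le) (by
    have h1 := rel_card Q (A ⊔ Q)
    have h2 : Q.relIndex A ≤ Q.relIndex (A ⊔ Q) := relIndex_le_of_le_right le_sup_left (rel_ne _ _)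
    rw [inf_eq_right.2 le_sup_right] at h1
    rw [h.card, ← h1]
    exact Nat.mul_le_mul_right _ (by omega))
  have i7 : 4 ≤ Nat.card (𝛀[2] T) := by
    have h1 := rel_card 𝒞(A) (𝛀[2] Q)
    have h2 : 𝛀[2] Q ⊓ 𝒞(A) ≤ 𝛀[2] T := fun v hv => mem_ozc.2 ⟨h.le (ozc_le Q hv.1), by
      rw [← AQT, cent_sup]
      exact ⟨hv.2, ozc_le_cent Q hv.1⟩, (mem_ozc.1 hv.1).2.2⟩
    have h3 := card_le_of_le h2
    rw [h16] at h1
    nlinarith
  have i8 : ∀ t ∈ T, t ∉ Q → 𝛀[2] T ≤ fx (𝛀[2] Q) t ∧ Nat.card (fx (𝛀[2] Q) t) ≤ 4 := fun t ht tQ =>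
    ⟨fun z hz => mem_fx.2 ⟨ZV h hz, (comm_of_mem (ozc_le_cent T hz) ht).symm⟩, by
      have h1 := ix_mul_card (𝛀[2] Q) t
      have h2 := i5 t ht tQ
      rw [h16] at h1
      nlinarith⟩
  have h4 : Nat.card (𝛀[2] T) = 4 :=
    le_antisymm ((card_le_of_le (i8 a (AT' ha) aQ).1).trans (i8 a (AT' ha) aQ).2) i7
  exact ⟨h, h16, h4, fun t ht tQ => (eq_of_le_of_card_ge (i8 t ht tQ).1 ((i8 t ht tQ).2.trans i7)).symm,
    fun v => fy h8 h h16 h4⟩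

end CL.O8
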