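/-
Project O8 (S3432), job A5T: a configuration in the type `A₅` that does not occur.
-/
import Cfsg.Agent.O8.B
import Cfsg.Agent.Grp.Primitive
import Cfsg.Agent.Grp.Coprime

set_option autoImplicit false
set_option linter.unusedVariables false

open Cfsg Subgroup CL.Grp CL.Even CL.Loc CL.NGrp
open scoped commutatorElement

namespace CL.O8

universe u

namespace A5T

variable {G : Type*} [Group G] [Finite G]

theorem idx_le {A B C : Subgroup G} {n : ℕ} (hA : A ≤ B) (hC : C ≤ B) (h : Nat.card B ≤ n * Nat.card C) :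
    Nat.card A ≤ n * Nat.card (C ⊓ A : Subgroup G) := by
  have h1 : C.relIndex B ≤ n :=
    Nat.le_of_mul_le_mul_left (by rw [card_mul_relIndex hC, mul_comm]; exact h) (Nat.card_pos (α := C))
  rw [← card_inf_mul_relIndex C A, mul_comm n]
  exact Nat.mul_le_mul_left _ ((relIndex_le_of_le_right hA FiniteIndex.index_ne_zero).trans h1)

theorem sq_le {V W : Subgroup G} {t : G} (h : Nat.card V ≤ ix V t ^ 2) (hW : W ≤ fx V t) :
    Nat.card W ^ 2 ≤ Nat.card V := by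
  have h1 := ix_mul_card V t
  have h2 := card_le_of_le hW
  have h3 : Nat.card V * Nat.card (fx V t) ^ 2 ≤ Nat.card V * Nat.card V :=
    (Nat.mul_le_mul_right _ h).trans (by rw [← mul_pow, h1, sq])
  exact (Nat.pow_le_pow_left h2 2).trans (Nat.le_of_mul_le_mul_left h3 Nat.card_pos)

theorem cent_small {Z : Subgroup G} {y d : G} (hy : orderOf y = 3) (hn : y ∈ 𝒩(Z)) (hZ : Nat.card Z ≤ 4)
    (hd : d ∈ Z) (d1 : d ≠ 1) (hc : Commute d y) : ∀ z ∈ Z, Commute z y := by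
  have := Fact.mk Nat.prime_three
  have h1 := card_modEq_card_inf_centralizer (q := 3) (Q := zpowers y) (K := Z)
    (IsPGroup.of_card (n := 1) (by rw [Nat.card_zpowers, hy, pow_one])) (zpowers_le.2 hn)
  have h2 : 1 < Nat.card (Z ⊓ 𝒞(zpowers y) : Subgroup G) := (one_lt_card_iff_ne_bot _).2 fun e =>
    d1 (mem_bot.1 (e ▸ ⟨hd, fun a ha => by
      obtain ⟨i, rfl⟩ := mem_zpowers_iff.1 ha
      exact (hc.zpow_right i).eq.symm⟩))
  have h3 := card_le_of_le (inf_le_left : Z ⊓ 𝒞(zpowers y) ≤ Z)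
  have h4 := eq_of_le_of_card_ge (inf_le_left : Z ⊓ 𝒞(zpowers y) ≤ Z) (by unfold Nat.ModEq at h1; omega)
  exact fun z hz => (comm_of_mem (h4.ge hz).2 (mem_zpowers y)).symm

end A5T

theorem a5tThm (hA : LAThm.{u}) : A5TThm.{u} := by
  intro G _ _ h8 hL M Q T R y e q d h hT hRT hcT hyR heR h9 hq hqR hqe hZR hd d1 hdy hlast
  have := Fact.mk Nat.prime_two
  have hT2 := hT.isPGroup
  have hR2 := hT2.to_le hRT
  have hV2 : IsPGroup 2 (𝛀[2] Q) := ozc_isP Q
  have hVT : 𝛀[2] Q ≤ T := (ozc_le Q).trans h.le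
  have hMV : M ≤ 𝒩(𝛀[2] Q) := le_norm_ozc h.lc.nQ
  have hTR : T ≤ 𝒩(R) := (normal_subgroupOf_iff_le_normalizer hRT).1 (normal_of_index_eq_two
    (Nat.eq_of_mul_eq_mul_left (Nat.card_pos (α := R)) (by
      rw [show (R.subgroupOf T).index = R.relIndex T from rfl, card_mul_relIndex hRT, hcT, mul_comm])))
  have hV5 : Nat.card (𝛀[2] Q) % 5 = 1 := by
    obtain ⟨x, hx, -, -, h5, -⟩ := h.thr
    simpa only [h5] using h8.card_mod (.inl h5) hV2 (hMV hx)
  have hV1 : 1 < Nat.card (𝛀[2] Q) := (one_lt_card_iff_ne_bot _).2 fun e0 => hqR (by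
    rw [e0, mem_bot] at hq; rw [hq]; exact one_mem R)
  set V0 := R ⊓ 𝛀[2] Q with hV0
  have hc0 : Nat.card (𝛀[2] Q) ≤ 2 * Nat.card V0 := A5T.idx_le hVT hRT hcT.le
  have hC0 : ∀ t ∈ T, t ∈ 𝒞(V0) → t ∈ Q := fun t ht hc => by
    by_contra tQ
    have := A5T.sq_le (W := V0) (h.idx _ hV2 hMV t ht tQ) fun v hv => mem_fx.2 ⟨hv.2, comm_of_mem hc hv⟩
    have h2 : Nat.card V0 ≤ 2 := by nlinarith
    omega
  have hcQ := h.card
  have hQp : 0 < Nat.card Q := Nat.card_pos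
  have hRQ : ¬ R ≤ Q := fun k => by have := card_le_of_le k; omega
  have hTV0 : T ≤ 𝒩(V0) := le_norm_inf hTR (h.syl.le.trans hMV)
  have hV1R : cj e V0 ≤ R := cj_le_of_le inf_le_left heR
  have e3 : e ^ 3 = 1 := by rw [← h9.of, pow_orderOf_eq_one]
  by_cases hV1Q : cj e V0 ≤ Q
  · have q2 : q⁻¹ = q := inv_eq_of_mul_eq_one_right (by rw [← pow_two]; exact (mem_ozc.1 hq).2.2)
    have hqc : q ∈ 𝒞(Q) := ozc_le_cent Q hq
    have hg : q * (e⁻¹ * q * e) ∈ 𝒞(V0) := mul_mem (cent_mono (inf_le_right.trans (ozc_le Q)) hqc) (by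
      have := cent_mono hV1Q hqc
      rwa [← cj_cent, mem_cj] at this)
    have hgN : q * (e⁻¹ * q * e) ∈ 𝒩(R) :=
      mul_mem (hTR (hVT hq)) (mul_mem (mul_mem (inv_mem heR) (hTR (hVT hq))) heR)
    have hge : q * (e⁻¹ * q * e) = e ^ 2 * (e⁻¹ * (q * e * q⁻¹ * e)⁻¹ * e) := by
      calc q * (e⁻¹ * q * e) = q * (e⁻¹ * q⁻¹ * e) := by rw [q2]
        _ = _ := by group
    set g := q * (e⁻¹ * q * e) with hgd
    have hk := conj_mem' heR (inv_mem hqe)
    obtain ⟨k3, hk3, h3⟩ := exists_mul_pow_eq (pow_mem heR 2) hk 3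
    obtain ⟨k8, hk8, h8'⟩ := exists_mul_pow_eq (pow_mem heR 2) hk 8
    rw [← hge, ← pow_mul, show 2 * 3 = 3 * 2 from rfl, pow_mul, e3, one_pow, one_mul] at h3
    rw [← hge, ← pow_mul, show 2 * 8 = 3 * 5 + 1 from rfl, pow_succ e, pow_mul, e3, one_pow, one_mul] at h8'
    have ho : orderOf (g ^ 8) = 3 := by
      have := Fact.mk Nat.prime_three
      refine orderOf_eq_prime ?_ fun e1 => ?_
      · obtain ⟨j, hj⟩ := hR2 ⟨k3, hk3⟩
        rw [← pow_mul, mul_comm, pow_mul, h3]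
        exact h8.two_el (congrArg Subtype.val hj)
      · have heR' : e ∈ R := by
          rw [e1, eq_comm, mul_eq_one_iff_eq_inv] at h8'
          rw [h8']; exact inv_mem hk8
        have := h9.of
        rw [eq_one_of_coprime_of_mem hR2 (by rw [h9.of]; norm_num) heR', orderOf_one] at this
        omega
    have hAN : zpowers (g ^ 8) ≤ 𝒩(R) := zpowers_le.2 (pow_mem hgN 8)
    have hAC : zpowers (g ^ 8) ≤ 𝒞(V0) := zpowers_le.2 (pow_mem hg 8)
    have hs := commutator_sup_centralizer_eq hAN (by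
      obtain ⟨j, hj⟩ := IsPGroup.iff_card.1 hR2
      rw [Nat.card_zpowers, ho, hj]; exact Nat.Coprime.pow_right _ (by norm_num)) (.inl inferInstance)
    refine hRQ (hs.ge.trans (sup_le (fun r hr => hC0 r (hRT (commutator_le_of_le_norm hAN hr)) ?_)
      fun r hr => hC0 r (hRT hr.1) fun v hv => ?_))
    · exact ((commutator_mono le_rfl hAC).trans (commutator_le_of_le_norm' (le_norm_cent (hRT.trans hTV0)))) hr
    · exact (h8.comm ho hR2 hv.1 hr.1 (comm_of_mem (pow_mem hg 8) hv)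
        (comm_of_mem hr.2 (mem_zpowers _)).symm).eq
  have hyV1 : y ∈ 𝒩(cj e V0) := cj_eq_iff_mem.1 (by
    rw [← cj_mul, h9.comm.eq, cj_mul, cj_eq (le_norm_inf (L := zpowers y) (zpowers_le.2 hyR)
      (zpowers_le.2 (hMV h.yM)) (mem_zpowers y))])
  have hsup : Q ⊔ cj e V0 = T := (h.irr _ le_sup_left (sup_le h.le (hV1R.trans hRT))
    (le_norm_sup (L := zpowers y) (zpowers_le.2 (h.lc.nQ h.yM)) (zpowers_le.2 hyV1) (mem_zpowers y))).resolve_left
    fun e0 => hV1Q (le_sup_right.trans e0.le)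
  have hQ0 : Nat.card Q ≤ 2 * Nat.card (R ⊓ Q : Subgroup G) := A5T.idx_le h.le hRT hcT.le
  have hQ1 : Nat.card V0 ≤ 4 * Nat.card (cj e (R ⊓ Q) ⊓ V0 : Subgroup G) :=
    A5T.idx_le inf_le_left (cj_le_of_le inf_le_left heR) (by rw [card_cj]; omega)
  have hZ : cj e (R ⊓ Q) ⊓ V0 ≤ 𝛀[2] T := by
    refine le_ozc (elem_of_le (ozc_elem Q) (inf_le_right.trans inf_le_right))
      (inf_le_right.trans (inf_le_left.trans hRT)) ?_
    rw [← hsup, cent_sup, ← cj_cent]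
    exact le_inf (inf_le_right.trans (inf_le_right.trans (ozc_le_cent Q))) (inf_le_left.trans
      (cj_mono e (inf_le_right.trans ((le_cent_ozc Q).trans (cent_mono inf_le_right)))))
  have hZV : 𝛀[2] T ≤ 𝛀[2] Q := le_ozc (ozc_elem T)
    (fun z hz => h.lc.cQ (cent_mono h.le (ozc_le_cent T hz))) ((ozc_le_cent T).trans (cent_mono h.le))
  obtain ⟨t, ht, tQ⟩ := SetLike.not_le_iff_exists.1 hRQ
  have hZ2 := A5T.sq_le (W := 𝛀[2] T) (h.idx _ hV2 hMV t (hRT ht) tQ) fun z hz =>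
    mem_fx.2 ⟨hZV hz, (comm_of_mem (ozc_le_cent T hz) (hRT ht)).symm⟩
  have hZc := card_le_of_le hZ
  have hZ4 : Nat.card (𝛀[2] T) ≤ 4 := by
    have h1 : Nat.card (𝛀[2] T) ≤ 8 := by nlinarith
    have h2 : Nat.card (𝛀[2] Q) ≤ 64 := by omega
    obtain ⟨j, hj⟩ := IsPGroup.iff_card.1 hV2
    have h3 : j ≤ 6 := (Nat.pow_le_pow_iff_right (a := 2) (by norm_num)).1 (by omega)
    have h4 : Nat.card (𝛀[2] Q) ≤ 16 := by interval_cases j <;> omega
    nlinarith
  have hcy := A5T.cent_small h.ord (le_norm_ozc (L := zpowers y) (zpowers_le.2 h.yT) (mem_zpowers y)) hZ4 hd d1 hdy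
  exact (hA G h8 hL T hT fun e0 => d1 (mem_bot.1 (e0 ▸ ozc_le T hd))).1 y (fun z hz => (hcy z hz).eq) e
    (fun z hz => (hlast z (hZR hz) (hcy z hz)).eq) h9

end CL.O8
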