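/-
Project O8 (S3432): the steps `S5K` and `K62`.
-/
import Cfsg.Agent.O8.A

set_option autoImplicit false
set_option linter.unusedVariables false

open Cfsg Subgroup CL.Grp CL.Even CL.Loc CL.NGrp
open scoped commutatorElement

namespace CL.O8

universe u

namespace S5K

section

variable {G H : Type*} [Group G] [Group H]

theorem cmm {V : Subgroup G} {c v : G} (hc : c ∈ 𝒞(V)) (hv : v ∈ V) : Commute v c := comm_of_mem hc hv

theorem fx_congr {V : Subgroup G} {a b : G} (h : a * b⁻¹ ∈ 𝒞(V)) : fx V a = fx V b := by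
  ext v
  rw [mem_fx, mem_fx]
  refine and_congr_right fun hv => ⟨fun k => ?_, fun k => ?_⟩
  · simpa using (cmm h hv).inv_right.mul_right k
  · simpa using (cmm h hv).mul_right k

theorem card_fx_conj {V : Subgroup G} {g : G} (hg : g ∈ 𝒩(V)) (a : G) :
    Nat.card (fx V (g * a * g⁻¹)) = Nat.card (fx V a) := by
  rw [← card_cj g (fx V a)]
  congr 2
  ext v
  rw [mem_cj, mem_fx, mem_fx]
  refine ⟨fun k => ⟨conj_mem' hg k.1, ?_⟩, fun k => ⟨?_, ?_⟩⟩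
  · simpa [mul_assoc] using k.2.conj g⁻¹
  · simpa [mul_assoc] using CL.Even.conj_mem hg k.1
  · simpa [mul_assoc] using k.2.conj g

variable [Finite G]

theorem ix_conj {V : Subgroup G} {g : G} (hg : g ∈ 𝒩(V)) (a : G) : ix V (g * a * g⁻¹) = ix V a :=
  Nat.eq_of_mul_eq_mul_right (Nat.card_pos (α := fx V a)) (by
    rw [ix_mul_card, ← card_fx_conj hg, ix_mul_card])

/-- an element inverting a fixed point free element of order 5 acts freely -/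
theorem free {V : Subgroup G} {x t : G} (hx : orderOf x = 5) (hn : x ∈ 𝒩(V)) (hf : fx V x = ⊥)
    (ht : t * x * t⁻¹ * x ∈ 𝒞(V)) : Nat.card V ≤ ix V t ^ 2 := by
  have h : fx V t ⊓ fx V (x * t * x⁻¹) = ⊥ := by
    rw [eq_bot_iff, ← hf]
    rintro v ⟨h1, h2⟩
    obtain ⟨hv, h1⟩ := mem_fx.1 h1
    have h3 := ((mem_fx.1 h2).2.mul_right h1.inv_right).mul_right (cmm ht hv)
    rw [show x * t * x⁻¹ * t⁻¹ * (t * x * t⁻¹ * x) = x * (t * (x⁻¹ * x) * t⁻¹) * x by group, inv_mul_cancel, mul_one,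
      mul_inv_cancel, mul_one] at h3
    have h4 := h3.pow_right 3
    rw [← sq, ← pow_mul, show 2 * 3 = 5 + 1 from rfl, pow_succ, ← hx, pow_orderOf_eq_one, one_mul] at h4
    exact mem_fx.2 ⟨hv, h4⟩
  have := card_le_ix2 h
  rwa [ix_conj hn, ← sq] at this

omit [Finite G] in
theorem ord_map {f : G →* H} {V : Subgroup G} (hV : IsPGroup 2 V) (hf : ∀ a, f a = 1 → a ∈ V) {y : G} {p : ℕ}
    (hp : p.Prime) (h2 : p ≠ 2) (hy : orderOf y = p) : orderOf (f y) = p := by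
  have := Fact.mk hp
  refine orderOf_eq_prime (by rw [← map_pow, ← hy, pow_orderOf_eq_one, map_one]) fun h => h2 ?_
  obtain ⟨k, hk⟩ := hV ⟨y, hf y h⟩
  have h1 : orderOf y ∣ 2 ^ k := orderOf_dvd_of_pow_eq_one (congrArg Subtype.val hk)
  exact (Nat.prime_dvd_prime_iff_eq hp Nat.prime_two).1 (hp.dvd_of_dvd_pow (hy ▸ h1))

omit [Finite G] in
theorem nine_mul {e f : G} (h : Nine e f) : orderOf (e * f) = 3 ∧ orderOf (e * f⁻¹) = 3 := by
  have := Fact.mk Nat.prime_three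
  have he : e ^ 3 = 1 := h.oe ▸ pow_orderOf_eq_one e
  have hf : f ^ 3 = 1 := h.of ▸ pow_orderOf_eq_one f
  refine ⟨orderOf_eq_prime (by rw [h.comm.mul_pow, he, hf, one_mul]) fun k => h.nm ?_,
    orderOf_eq_prime (by rw [h.comm.inv_right.mul_pow, inv_pow, he, hf, inv_one, one_mul]) fun k => h.nm ?_⟩
  · rw [eq_inv_of_mul_eq_one_right k]; exact inv_mem (mem_zpowers e)
  · rw [← mul_inv_eq_one.1 k]; exact mem_zpowers e

end

theorem top (hCl : ClThm.{u}) (hC : CyThm.{u}) (n : ℕ) : ∀ (G : Type u) [Group G] [Finite G], Nat.card G = n →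
    Ord8 G → ∀ (Q : Subgroup G) [Q.Normal] (y τ σ g x : G), IsPGroup 2 Q → orderOf y = 3 → τ * τ ∈ Q → σ * σ ∈ Q →
    ⁅τ, y⁆ ∈ Q → ⁅σ, τ⁆ ∈ Q → σ * y * σ⁻¹ * y ∈ Q → g * τ * g⁻¹ * σ⁻¹ ∈ Q → orderOf x = 5 →
    σ * τ * x * (σ * τ)⁻¹ * x ∈ Q → fx Q y = ⊥ := by
  induction n using Nat.strong_induction_on with
  | _ n ih =>
  intro G _ _ hn h Q _ y τ σ g x hQ hy h1 h2 h3 h4 h5 h6 hx h7
  have := Fact.mk Nat.prime_two
  by_cases hb : Q = ⊥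
  · rw [hb]; exact bot_inf_eq _
  have nQ : ∀ a : G, a ∈ 𝒩(Q) := fun a => (normalizer_eq_top Q).ge (mem_top a)
  have nV : ∀ a : G, a ∈ 𝒩(𝛀[2] Q) := fun a => norm_le_norm_ozc Q (nQ a)
  have cV : Q ≤ 𝒞(𝛀[2] Q) := le_cent_ozc Q
  have hV : fx (𝛀[2] Q) y = ⊥ := by
    obtain ⟨r, hr, -, -, k⟩ := hCl G h Q y τ hQ hy (nQ y) (nQ τ) h1 h3
    refine (hC G _ (ozc_elem Q)).1 y τ hy (nV y) (nV τ) (cV h1) (cV h3) (fun w hw hc => ?_) |>.2 σ (nV σ) (cV h2)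
      (cV h4) (cV h5) ?_ (free hx (nV x) (h.fx_eq_bot (.inl hx) (ozc_isP Q)) (cV h7))
    · simpa using (k w (ozc_le Q hw) hc).mul_right (cmm (cV hr) hw).inv_right
    · rw [← fx_congr (cV h6), card_fx_conj (nV g)]
  have : (𝛀[2] Q).Normal := normalizer_eq_top_iff.1 (eq_top_iff.2 fun a _ => nV a)
  let π := QuotientGroup.mk' (𝛀[2] Q)
  have hπ : ∀ a, π a = 1 → a ∈ 𝛀[2] Q := fun a k => (QuotientGroup.eq_one_iff a).1 k
  have : (Q.map π).Normal := Normal.map inferInstance π (QuotientGroup.mk'_surjective _)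
  have hlt : Nat.card (G ⧸ 𝛀[2] Q) < n := by
    rw [← hn, card_eq_card_quotient_mul_card_subgroup (𝛀[2] Q)]
    exact lt_mul_of_one_lt_right Nat.card_pos ((one_lt_card_iff_ne_bot _).2 (ozc_ne_bot hQ hb))
  have k := ih _ hlt (G ⧸ 𝛀[2] Q) rfl (h.quot _) (Q.map π) (π y) (π τ) (π σ) (π g) (π x) (hQ.map π)
    (ord_map (ozc_isP Q) hπ Nat.prime_three (by decide) hy) (mem_map_of_mem π h1) (mem_map_of_mem π h2)
    (mem_map_of_mem π h3) (mem_map_of_mem π h4) (mem_map_of_mem π h5) (mem_map_of_mem π h6)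
    (ord_map (ozc_isP Q) hπ Nat.prime_five (by decide) hx) (mem_map_of_mem π h7)
  rw [eq_bot_iff, ← hV]
  intro v hv
  obtain ⟨a, b⟩ := mem_fx.1 hv
  exact mem_fx.2 ⟨hπ v (mem_bot.1 (k.le (mem_fx.2 ⟨mem_map_of_mem π a, b.map π⟩))), b⟩

end S5K

open S5K

theorem s5kThm (hCl : ClThm.{u}) (hC : CyThm.{u}) : S5KThm.{u} := by
  intro G _ _ h L Q y τ σ g x hQ hL hn hy hτ hσ hg hx oy h1 h2 h3 h4 h5 h6 ox h7
  have := normal_subgroupOf_of_le_normalizer hn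
  have k := top hCl hC _ L rfl (h.sub L) (Q.subgroupOf L) ⟨y, hy⟩ ⟨τ, hτ⟩ ⟨σ, hσ⟩ ⟨g, hg⟩ ⟨x, hx⟩
    hQ.comap_subtype (by rw [← orderOf_coe]; exact oy) h1 h2 h3 h4 h5 h6 (by rw [← orderOf_coe]; exact ox) h7
  rw [eq_bot_iff_forall] at k ⊢
  intro v hv
  obtain ⟨a, b⟩ := mem_fx.1 hv
  exact congrArg Subtype.val (k ⟨v, hL a⟩ (mem_fx.2 ⟨a, Subtype.ext b.eq⟩))

theorem k62Thm (hCl : ClThm.{u}) (hC : CyThm.{u}) (h9 : L9Thm.{u}) (hE : E9Thm.{u}) : K62Thm.{u} := by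
  intro G _ _ h L Q X _ π hc hq
  have := Fact.mk Nat.prime_two
  have p1 : ∀ y : L, orderOf (y : G) = 3 → K5c (π y) → fx Q y = ⊥ := by
    rintro y oy ⟨τ, σ, g, x, h1, h2, h3, h4, h5, h6, ox, h7⟩
    obtain ⟨τ, rfl⟩ := hq.surj τ
    obtain ⟨σ, rfl⟩ := hq.surj σ
    obtain ⟨g, rfl⟩ := hq.surj g
    obtain ⟨x, rfl, ox'⟩ := hq.lift_odd hc.two (x := x) (by rw [ox]; decide)
    refine s5kThm hCl hC G h L Q y τ σ g x hc.two hc.le hc.nQ y.2 τ.2 σ.2 g.2 x.2 oy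
      ((hq.ker (τ * τ)).1 (by rw [map_mul, h1])) ((hq.ker (σ * σ)).1 (by rw [map_mul, h2]))
      ((hq.ker ⁅τ, y⁆).1 (by rw [map_commutatorElement, h3.commutator_eq]))
      ((hq.ker ⁅σ, τ⁆).1 (by rw [map_commutatorElement, h4.commutator_eq]))
      ((hq.ker (σ * y * σ⁻¹ * y)).1 ?_) ((hq.ker (g * τ * g⁻¹ * σ⁻¹)).1 ?_) (ox'.trans ox)
      ((hq.ker (σ * τ * x * (σ * τ)⁻¹ * x)).1 ?_)
    · simp only [map_mul, map_inv, h5, inv_mul_cancel]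
    · simp only [map_mul, map_inv, h6, mul_inv_cancel]
    · simp only [map_mul, map_inv, h7, inv_mul_cancel]
  refine ⟨p1, ?_⟩
  rintro (⟨s, x, os, ox, hs⟩ | ⟨e, f, hn, k1, k2, k3, k4⟩)
  · obtain ⟨s, rfl⟩ := hq.surj s
    obtain ⟨x, rfl, ox'⟩ := hq.lift_odd hc.two (x := x) (by rw [ox]; decide)
    have nV : L ≤ 𝒩(𝛀[2] Q) := le_norm_ozc hc.nQ
    have o8 : ∀ m : L, π m = π s → (m : G) ^ 8 = 1 := fun m hm => by
      rw [← h.eq_of_dvd (x := m) (p := 8) (by decide) (by rw [orderOf_coe, ← os, ← hm]; exact orderOf_map_dvd π m)]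
      exact pow_orderOf_eq_one _
    refine ozc_ne_bot hc.two hc.ne ((hC G _ (ozc_elem Q)).2 s (nV s.2) (o8 s rfl) (fun v hv => ?_)
      (free (ox'.trans ox) (nV x.2) (h.fx_eq_bot (.inl (ox'.trans ox)) (ozc_isP Q))
        (le_cent_ozc Q ((hq.ker (s ^ 4 * x * (s ^ 4)⁻¹ * x)).1 ?_))))
    · exact o8 (s * ⟨v, hc.le (ozc_le Q hv)⟩) (by rw [map_mul, (hq.ker ⟨v, _⟩).2 (ozc_le Q hv), mul_one])
    · simp only [map_mul, map_inv, map_pow, hs, inv_mul_cancel]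
  · obtain ⟨e, rfl, oe⟩ := hq.lift_odd hc.two (x := e) (by rw [hn.oe]; decide)
    obtain ⟨f, rfl⟩ := hq.surj f
    obtain ⟨r, hr, n9⟩ := h9 G h Q e f hc.two (oe.trans hn.oe) (hc.nQ e.2) (hc.nQ f.2)
      ((hq.ker (f ^ 3)).1 (by rw [map_pow, ← hn.of, pow_orderOf_eq_one]))
      ((hq.ker ⁅f, e⁆).1 (by rw [map_commutatorElement, hn.comm.symm.commutator_eq])) (fun k => by
        obtain ⟨_, ⟨i, rfl⟩, b, hb, e1⟩ := (mem_sup_nr (zpowers_le.2 (hc.nQ e.2))).1 k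
        refine hn.nm ⟨i, ?_⟩
        have e2 : e ^ i * ⟨b, hc.le hb⟩ = f := Subtype.ext e1
        rw [← e2, map_mul, (hq.ker ⟨b, _⟩).2 hb, mul_one, map_zpow])
    let f' : L := f * ⟨r, hc.le hr⟩
    have e1 : π f' = π f := by rw [map_mul, (hq.ker ⟨r, _⟩).2 hr, mul_one]
    have k := (hE G h Q e (f * r) hc.two n9 (hc.nQ e.2) (hc.nQ f'.2)).1
    have b1 := p1 e n9.oe k1
    have b2 : fx Q (f * r) = ⊥ := p1 f' n9.of (e1 ▸ k2)
    have b3 : fx Q (e * (f * r)) = ⊥ := p1 (e * f') (nine_mul n9).1 (by rwa [map_mul, e1])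
    have b4 : fx Q (e * (f * r)⁻¹) = ⊥ := p1 (e * f'⁻¹) (nine_mul n9).2 (by rwa [map_mul, map_inv, e1])
    rw [b1, b2, b3, b4] at k
    exact hc.ne (by simpa using k)

end CL.O8
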