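/-
Project O8: the frame of a 2-local subgroup of type `A₅`.
-/
import Cfsg.Agent.O8.B
import Cfsg.Agent.O8.S5K

set_option autoImplicit false

open Cfsg Subgroup CL.Grp CL.Even CL.Loc CL.NGrp
open scoped commutatorElement

namespace CL.O8

universe u

namespace ATJ

abbrev X := alternatingGroup (Fin 5)

abbrev a4 (x : X) : Prop := x.1 4 = 4
abbrev v4 (x : X) : Prop := a4 x ∧ x * x = 1
abbrev c3 (x : X) : Prop := a4 x ∧ x * x * x = 1 ∧ x ≠ 1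

def el (f g : Fin 5 → Fin 5) (h : (∀ i, g (f i) = i) ∧ ∀ i, f (g i) = i)
    (s : Equiv.Perm.sign (⟨f, g, h.1, h.2⟩ : Equiv.Perm (Fin 5)) = 1) : X := ⟨⟨f, g, h.1, h.2⟩, s⟩

def i1 : X := el ![1, 0, 3, 2, 4] ![1, 0, 3, 2, 4] (by decide) (by decide +kernel)
def i2 : X := el ![2, 3, 0, 1, 4] ![2, 3, 0, 1, 4] (by decide) (by decide +kernel)
def r3 : X := el ![1, 2, 0, 3, 4] ![2, 0, 1, 3, 4] (by decide) (by decide +kernel)
def r5 : X := el ![1, 2, 3, 4, 0] ![4, 0, 1, 2, 3] (by decide) (by decide +kernel)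

set_option synthInstance.maxSize 2000 in
theorem f1 : ∀ x : X, x ^ 30 = 1 ∧ (x * x = 1 → x * i1 * (x * i1) = 1 → v4 x) ∧ (v4 (x * i1 * x⁻¹) → a4 x) ∧
    (a4 x → x ^ 5 = 1 → x = 1) ∧ (v4 x ↔ x ∈ [1, i1, i2, i1 * i2]) := by decide +kernel

theorem f2 : ∀ t ∈ [1, i1, i2, i1 * i2], (∀ s ∈ [1, i1, i2, i1 * i2], v4 (t * s)) ∧ (∀ g, a4 g → v4 (g * t * g⁻¹)) ∧
    (t ≠ 1 → ∃ s, (t * (s * t * s⁻¹)) ^ 5 = 1 ∧ t * (s * t * s⁻¹) ≠ 1) := by decide +kernel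

set_option synthInstance.maxSize 2000 in
theorem f3 : ∀ y, c3 y → (∀ t ∈ [1, i1, i2, i1 * i2], (t * y * t⁻¹ * y⁻¹ = 1 → t = 1) ∧ ∀ s ∈ [1, i1, i2, i1 * i2],
    s ≠ 1 → 1 = t ∨ s = t ∨ y * s * y⁻¹ = t ∨ y⁻¹ * s * y = t) ∧ (∀ g, a4 g → v4 g ∨ v4 (y⁻¹ * g) ∨ v4 (y * g)) ∧
    ∃ u, ¬ a4 u ∧ u * y * u⁻¹ = y⁻¹ := by decide +kernel

theorem f4 : ∀ i j : Fin 5, i ≠ 4 → j ≠ 4 → ∃ b : X, a4 b ∧ b.1 i = j := by decide +kernel

theorem f5 : ∀ g, ¬ a4 g → ∃ a ∈ [1, i1, i2, i1 * i2], ∃ b ∈ [1, i1, i2, i1 * i2], ∃ c ∈ [1, i1, i2, i1 * i2],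
    c3 (g * c * g⁻¹ * (a * (g * b * g⁻¹)) * (g * c * g⁻¹)⁻¹) ∧ ¬ a4 (g * c * g⁻¹) := by decide +kernel

theorem f6 : v4 i1 ∧ v4 i2 ∧ a4 r3 ∧ r3 ^ 3 = 1 ∧ r3 ≠ 1 ∧ r5 ^ 5 = 1 ∧ r5 ≠ 1 ∧ (r5 * i2) ^ 5 = 1 ∧ r5 * i2 ≠ 1 ∧
    ∀ p ∈ [(2, 4), (3, 3), (4, 2)], a4 ((r5 ^ p.1)⁻¹ * (r5 * i2) ^ p.2) ∧ ¬ v4 ((r5 ^ p.1)⁻¹ * (r5 * i2) ^ p.2) := by
  decide +kernel

theorem vl {x : X} : v4 x ↔ x ∈ [1, i1, i2, i1 * i2] := (f1 x).2.2.2.2

/-- the Klein four-group -/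
def V4 : Subgroup X where
  carrier := {x | v4 x}
  mul_mem' := fun a b => (f2 _ (vl.1 a)).1 _ (vl.1 b)
  one_mem' := ⟨rfl, mul_one _⟩
  inv_mem' := fun a => by rwa [inv_eq_of_mul_eq_one_right a.2]

theorem card_V4 : Nat.card V4 = 4 := by
  change Nat.card {x : X // v4 x} = 4
  rw [Nat.card_eq_fintype_card]
  decide +kernel

theorem sq2 {x : X} {k : ℕ} (h : x ^ 2 ^ k = 1) : x * x = 1 := by
  rw [← pow_two, ← orderOf_dvd_iff_pow_eq_one]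
  exact (Nat.Coprime.coprime_dvd_left (orderOf_dvd_of_pow_eq_one h) (Nat.Coprime.pow_left k (by norm_num : Nat.Coprime 2 15))
    ).dvd_of_dvd_mul_right (orderOf_dvd_of_pow_eq_one (f1 x).1)

variable {G : Type*} [Group G] [Finite G] {M Q T : Subgroup G}

theorem norm (lc : Lc M Q) (ty : TyA M Q) (hT : IsSylowIn 2 T M) :
    ∃ π : M →* X, Quo M Q π ∧ ∀ m : M, (m : G) ∈ T ↔ v4 (π m) := by
  have := Fact.mk Nat.prime_two
  obtain ⟨π, q⟩ := ty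
  have p2 : IsPGroup 2 (prm π V4) := by
    rintro ⟨_, m, hm, rfl⟩
    obtain ⟨k, hk⟩ := lc.two ⟨_, (q.ker (m * m)).1 (by rw [map_mul]; exact hm.2)⟩
    exact ⟨k + 1, Subtype.ext (by
      have := congrArg Subtype.val hk
      simp only [coe_mul, SubmonoidClass.mk_pow, OneMemClass.coe_one, coe_subtype, SubmonoidClass.coe_pow] at this ⊢
      rw [pow_succ', pow_mul, pow_two, this])⟩
  obtain ⟨h, hh, le⟩ := syl_conj_le hT p2 prm_le
  let π' : M →* X := π.comp (MulAut.conj (⟨h, hh⟩ : M)⁻¹).toMonoidHom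
  have q' : Quo M Q π' := ⟨q.surj.comp (MulAut.conj _).surjective, fun m => (q.ker _).trans
    ⟨fun e => by simpa [mul_assoc] using conj_mem (lc.nQ hh) e, fun e => by simpa using conj_mem' (lc.nQ hh) e⟩⟩
  have k : ∀ m : M, v4 (π' m) → (m : G) ∈ T := fun m e =>
    le (mem_cj.2 (by simpa using (mem_prm (π := π) (Y := V4) (m := MulAut.conj (⟨h, hh⟩ : M)⁻¹ m)).2 e))
  have s : ∀ m : M, (m : G) ∈ T → π' m * π' m = 1 := fun m e => by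
    obtain ⟨n, hn⟩ := hT.isPGroup ⟨m, e⟩
    exact sq2 (k := n) (by rw [← map_pow, show m ^ 2 ^ n = 1 from Subtype.ext (congrArg T.subtype hn), map_one])
  refine ⟨π', q', fun m => ⟨fun e => (f1 _).2.1 (s m e) ?_, k m⟩⟩
  obtain ⟨t, ht⟩ := q'.surj i1
  rw [← ht, ← map_mul]
  exact s _ (mul_mem e (k t (ht ▸ f6.1)))

omit [Finite G] in
theorem memY {π : M →* X} (q : Quo M Q π) {Y : Subgroup G} (h : Q ≤ Y) {a b : M} (e : π a = π b) (ha : (a : G) ∈ Y) :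
    (b : G) ∈ Y := by
  simpa using mul_mem (inv_mem (h (q.eq_iff.1 e))) ha

theorem ord5 (h8 : Ord8 G) (π : M →* X) {x : M} (h1 : π x ^ 5 = 1) (h2 : π x ≠ 1) : orderOf (x : G) = 5 := by
  have := Fact.mk Nat.prime_five
  refine h8.eq_of_dvd le_rfl ?_
  rw [orderOf_coe, ← orderOf_eq_prime h1 h2]
  exact orderOf_map_dvd π x

/-- elements of order 3 in the same coset of `Q` are conjugate under `Q` -/
theorem conj3 (hQ : IsPGroup 2 Q) {y w : G} (hy : orderOf y = 3) (hw : orderOf w = 3) (n : y ∈ 𝒩(Q)) (e : w * y ∈ Q) :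
    ∃ q ∈ Q, q * w * q⁻¹ = y⁻¹ := by
  have := Fact.mk Nat.prime_two
  have := Fact.mk Nat.prime_three
  have p : ∀ {x : G}, orderOf x = 3 → IsPGroup 3 (zpowers x) := fun h =>
    IsPGroup.of_card (n := 1) (by rw [Nat.card_zpowers, h, pow_one])
  have c : (Nat.card Q).Coprime 3 := by
    obtain ⟨k, hk⟩ := IsPGroup.iff_card.1 hQ
    rw [hk]; exact Nat.Coprime.pow_left k (by norm_num)
  obtain ⟨_, hh, le⟩ := syl_conj_le (CL.Loc.isSylowIn_sup_of_coprime (zpowers_le.2 n) (p hy) c) (p hw) (zpowers_le.2 (by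
    simpa using mul_mem (mem_sup_right e : _ ∈ zpowers y ⊔ Q) (mem_sup_left (inv_mem (mem_zpowers y)))))
  obtain ⟨a, ha, q, hq, rfl⟩ := (mem_sup_nr (zpowers_le.2 n)).1 hh
  refine ⟨q, hq, eq_inv_of_mul_eq_one_left (mem_bot.1 (CL.Loc.inf_eq_bot_of_isPGroup_of_coprime (p hy) c ▸ mem_inf.2 ⟨?_, ?_⟩))⟩
  · refine mul_mem ?_ (mem_zpowers y)
    convert mul_mem (mul_mem (inv_mem ha) (le (conj_mem_cj _ (mem_zpowers w)))) ha using 1
    group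
  · convert mul_mem (mul_mem hq e) (conj_mem' n (inv_mem hq)) using 1
    group

end ATJ

open ATJ in
theorem atThm : ATThm.{u} := by
  intro G _ _ h8 M Q T lc ty hT
  have := Fact.mk Nat.prime_two
  have := Fact.mk Nat.prime_three
  obtain ⟨π, q, mT⟩ := norm lc ty hT
  have QT : Q ≤ T := lc.core ▸ core_le_syl hT
  have mN : ∀ m : M, (m : G) ∈ 𝒩(T) ↔ a4 (π m) := fun m => ⟨fun e => by
      obtain ⟨t, ht⟩ := q.surj i1
      refine (f1 _).2.2.1 ?_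
      rw [← ht, ← map_inv, ← map_mul, ← map_mul]
      exact (mT _).1 (conj_mem e ((mT t).2 (ht ▸ f6.1))),
    fun e => mem_normalizer_fintype fun t ht => (mT (m * ⟨t, hT.le ht⟩ * m⁻¹)).2 (by
      rw [map_mul, map_mul, map_inv]; exact (f2 _ (vl.1 ((mT ⟨t, hT.le ht⟩).1 ht))).2.1 _ e)⟩
  have nq : ∀ (x : M) (p : ℕ), p.Prime → p ≠ 2 → orderOf (x : G) = p → π x ≠ 1 := fun x p hp h2 o e => by
    obtain ⟨k, hk⟩ := lc.two ⟨_, (q.ker x).1 e⟩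
    exact h2 ((Nat.prime_dvd_prime_iff_eq hp Nat.prime_two).1
      (hp.dvd_of_dvd_pow (o ▸ orderOf_dvd_of_pow_eq_one (congrArg Subtype.val hk))))
  have dec : ∀ w : M, c3 (π w) → ∀ g : M, a4 (π g) → ∃ t ∈ T, (g : G) = t ∨ (g : G) = w * t ∨ (g : G) = (w : G)⁻¹ * t :=
    fun w hw g hg => by
      rcases (f3 _ hw).2.1 _ hg with e | e | e
      · exact ⟨g, (mT g).2 e, .inl rfl⟩
      · exact ⟨_, (mT (w⁻¹ * g)).2 (by rwa [map_mul, map_inv]), .inr (.inl (by simp))⟩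
      · exact ⟨_, (mT (w * g)).2 (by rwa [map_mul]), .inr (.inr (by simp))⟩
  have sub : ∀ Y : Subgroup G, T ≤ Y → ∀ w : M, c3 (π w) → (w : G) ∈ Y → ∀ g : M, a4 (π g) → (g : G) ∈ Y :=
    fun Y h w hw wY g hg => by
      obtain ⟨t, ht, e | e | e⟩ := dec w hw g hg <;> rw [e]
      exacts [h ht, mul_mem wY (h ht), mul_mem (inv_mem wY) (h ht)]
  have full : ∀ Y : Subgroup G, T ≤ Y → Y ≤ M → ∀ w : M, c3 (π w) → (w : G) ∈ Y → ∀ g : M, ¬ a4 (π g) → (g : G) ∈ Y →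
      Y = M := fun Y h1 h2 w hw wY g hg gY => le_antisymm h2 fun m hm => by
    by_cases e : a4 (π ⟨m, hm⟩)
    · exact sub Y h1 w hw wY _ e
    obtain ⟨b, b1, b2⟩ := f4 _ _ hg e
    obtain ⟨b, rfl⟩ := q.surj b
    have := sub Y h1 w hw wY (g⁻¹ * b⁻¹ * ⟨m, hm⟩) (by
      simp only [a4, map_mul, map_inv, coe_mul, coe_inv, Equiv.Perm.mul_apply, ← b2, Equiv.Perm.coe_inv,
        Equiv.symm_apply_apply])
    simpa [mul_assoc] using mul_mem (mul_mem (sub Y h1 w hw wY b b1) gY) this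
  refine ⟨?_, fun y yM yT y3 => ?_⟩
  · have o : orderOf r3 = 3 := orderOf_eq_prime f6.2.2.2.1 f6.2.2.2.2.1
    obtain ⟨y, e, y3⟩ := q.lift_odd lc.two (x := r3) (by rw [o]; decide)
    exact ⟨y, y.2, (mN y).2 (e ▸ f6.2.2.1), y3.trans o⟩
  lift y to M using yM
  have hy : c3 (π y) := ⟨(mN y).1 yT, by
    rw [← pow_three', ← map_pow, ← y3, orderOf_coe, pow_orderOf_eq_one, map_one], nq y 3 Nat.prime_three (by decide) y3⟩
  have nT : M ⊓ 𝒩(T) = T ⊔ zpowers (y : G) :=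
    le_antisymm (fun g hg => sub _ le_sup_left y hy (mem_sup_right (mem_zpowers _)) ⟨g, hg.1⟩ ((mN _).1 hg.2))
      (sup_le (le_inf hT.le le_normalizer) (zpowers_le.2 ⟨y.2, yT⟩))
  refine ⟨lc, hT, QT, ?_, fun t ht => ?_, y.2, y3, yT, fun t ht e => ?_, fun Y h1 h2 hn => ?_, nT, fun g hg => ?_,
    fun Y h1 h2 => ?_, fun m hm n => ?_, ?_, fun D hD hn t ht n => ?_, fun x hx o n => ?_, ?_⟩
  · let f := π.comp (inclusion hT.le)
    have e1 : f.ker = Q.subgroupOf T := Subgroup.ext fun t => q.ker _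
    have e2 : f.range = V4 := Subgroup.ext fun x => ⟨by rintro ⟨t, rfl⟩; exact (mT _).1 t.2, fun hx => by
      obtain ⟨m, rfl⟩ := q.surj x
      exact ⟨⟨m, (mT m).2 hx⟩, rfl⟩⟩
    rw [← f.ker.index_mul_card, index_ker, e1, e2, card_V4, Nat.card_congr (subgroupOfEquivOfLe QT).toEquiv]
  · exact (q.ker (⟨t, hT.le ht⟩ * ⟨t, hT.le ht⟩)).1 (by rw [map_mul]; exact ((mT ⟨t, hT.le ht⟩).1 ht).2)
  · refine (q.ker ⟨t, hT.le ht⟩).1 (((f3 _ hy).1 _ (vl.1 ((mT _).1 ht))).1 ?_)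
    rw [← map_inv, ← map_inv, ← map_mul, ← map_mul, ← map_mul]
    exact (q.ker _).2 e
  · refine or_iff_not_imp_left.2 fun n => le_antisymm h2 fun t ht => ?_
    obtain ⟨s, s1, s2⟩ := SetLike.exists_of_lt (lt_of_le_of_ne h1 (Ne.symm n))
    lift s to M using hT.le (h2 s1)
    lift t to M using hT.le ht
    rcases ((f3 _ hy).1 _ (vl.1 ((mT t).1 ht))).2 _ (vl.1 ((mT s).1 (h2 s1))) (fun e => s2 ((q.ker s).1 e))
      with e | e | e | e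
    · exact h1 ((q.ker t).1 e.symm)
    · exact memY q h1 e s1
    · exact memY q h1 (a := y * s * y⁻¹) (by rwa [map_mul, map_mul, map_inv]) (conj_mem hn s1)
    · exact memY q h1 (a := y⁻¹ * s * y) (by rwa [map_mul, map_mul, map_inv]) (conj_mem' hn s1)
  · rw [← nT] at hg
    exact dec y hy ⟨g, hg.1⟩ ((mN _).1 hg.2)
  · refine or_iff_not_imp_left.2 fun n => ?_
    obtain ⟨g, g1, g2⟩ := SetLike.exists_of_lt (lt_of_le_of_ne h1 (Ne.symm n))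
    exact full Y (le_sup_left.trans h1) h2 y hy (h1 (mem_sup_right (mem_zpowers _))) ⟨g, h2 g1⟩
      (fun e => g2 (nT ▸ ⟨h2 g1, (mN _).2 e⟩)) g1
  · lift m to M using hm
    obtain ⟨a, ha, b, hb, c, hc, e1, e2⟩ := f5 _ (mt (mN m).2 n)
    obtain ⟨a, rfl⟩ := q.surj a
    obtain ⟨b, rfl⟩ := q.surj b
    obtain ⟨c, rfl⟩ := q.surj c
    have k : ∀ x : M, π x ∈ [1, i1, i2, i1 * i2] → (m : G) * x * (m : G)⁻¹ ∈ T ⊔ cj (m : G) T := fun x hx =>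
      mem_sup_right (conj_mem_cj _ ((mT x).2 (vl.2 hx)))
    refine full _ le_sup_left (sup_le hT.le (cj_le_of_mem hT.le m.2)) (m * c * m⁻¹ * (a * (m * b * m⁻¹)) * (m * c * m⁻¹)⁻¹)
      (by simpa only [map_mul, map_inv] using e1) ?_ (m * c * m⁻¹) (by simpa only [map_mul, map_inv] using e2) (k c hc)
    exact mul_mem (mul_mem (k c hc) (mul_mem (mem_sup_left ((mT a).2 (vl.2 ha))) (k b hb))) (inv_mem (k c hc))
  · obtain ⟨u, u1, u2⟩ := (f3 _ hy).2.2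
    obtain ⟨u, rfl⟩ := q.surj u
    obtain ⟨r, hr, e⟩ := conj3 lc.two y3 (w := u * y * (u : G)⁻¹) ((SemiconjBy.orderOf_eq (u : G)
      (SemiconjBy.conj_mk (u : G) (y : G))).symm.trans y3) (lc.nQ y.2) ((q.ker (u * y * u⁻¹ * y)).1 (by
        rw [map_mul, map_mul, map_mul, map_inv, u2, inv_mul_cancel]))
    exact ⟨r * u, mul_mem (lc.le hr) u.2, fun n => u1 ((mN u).1 ((mul_mem_cancel_left (le_normalizer (QT hr))).1 n)),
      by rw [← e]; group⟩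
  · lift t to M using hT.le ht
    obtain ⟨s, s1, s2⟩ := (f2 _ (vl.1 ((mT t).1 ht))).2.2 fun e => n ((q.ker t).1 e)
    obtain ⟨s, rfl⟩ := q.surj s
    have o := ord5 h8 π (x := t * (s * t * s⁻¹)) (by simpa only [map_mul, map_inv] using s1)
      (by simpa only [map_mul, map_inv] using s2)
    have := card_le_ix2 (V := D) (a := t) (b := s * t * (s : G)⁻¹) (le_bot_iff.1 (h8.fx_eq_bot (.inl o) hD ▸ fun v hv =>
      mem_fx.2 ⟨hv.1.1, (mem_fx.1 hv.1).2.mul_right (mem_fx.1 hv.2).2⟩))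
    rwa [S5K.ix_conj (hn s.2), ← pow_two] at this
  · lift x to M using hx
    exact nq x 5 Nat.prime_five (by decide) o ((f1 _).2.2.2.1 ((mN x).1 n)
      (by rw [← map_pow, orderOf_dvd_iff_pow_eq_one.1 ((orderOf_coe x).symm.trans o).dvd, map_one]))
  · obtain ⟨-, v2, -, -, -, p1, p2, p3, p4, p5⟩ := f6
    obtain ⟨x, ex⟩ := q.surj r5
    obtain ⟨t, et⟩ := q.surj i2
    refine ⟨x, x.2, t, (mT t).2 (et ▸ v2), ord5 h8 π (ex ▸ p1) (ex ▸ p2),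
      ord5 h8 π (x := x * t) (by rwa [map_mul, ex, et]) (by rwa [map_mul, ex, et]), fun i j h => ?_⟩
    have := p5 (i, j) (by simpa using h)
    rw [← ex, ← et, ← map_mul, ← map_pow, ← map_pow, ← map_inv, ← map_mul] at this
    exact ⟨(mN ((x ^ i)⁻¹ * (x * t) ^ j)).2 this.1, mt (mT ((x ^ i)⁻¹ * (x * t) ^ j)).1 this.2⟩

end CL.O8
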