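/-
Project O8: lifting to the centraliser of an element of order three.
-/
import Cfsg.Agent.O8.A

set_option autoImplicit false
set_option linter.unusedVariables false

open Cfsg Subgroup CL.Grp CL.Even CL.Loc CL.NGrp
open scoped commutatorElement

namespace CL.O8

universe u

namespace CLx

theorem fix {G : Type u} [Group G] [Finite G] {R : Subgroup G} {y τ : G} (hR : IsPGroup 2 R) (hy : orderOf y = 3)
    (hn : y ∈ 𝒩(R)) (hτ : τ ∈ 𝒩(R)) (hc : ⁅τ, y⁆ ∈ R) : ∃ r ∈ R, Commute (τ * r) y := by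
  have h1 : τ⁻¹ * (y * τ * y⁻¹) ∈ R := by
    convert conj_mem' hτ (R.inv_mem hc) using 1
    rw [commutatorElement_def]; group
  obtain ⟨m, hm⟩ := hR.exists_card_eq
  have : Group.IsNilpotent R := hR.isNilpotent
  obtain ⟨c, hc, h2⟩ := exists_centralizer_mem_leftCoset' (A := zpowers y) (K := ⊤) (N := R) (k := τ)
    (by rw [normalizer_eq_top]; exact le_top) le_top (zpowers_le.2 hn)
    (by rw [Nat.card_zpowers, hy, hm]; exact Nat.Coprime.pow_right _ (by decide)) (.inr inferInstance) trivial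
    fun a ha => by
      obtain ⟨k, rfl⟩ := mem_powers_iff_mem_zpowers.2 ha
      induction k with
      | zero => simp
      | succ k ih =>
        convert R.mul_mem h1 (conj_mem hn (ih (pow_mem (mem_zpowers y) k))) using 1
        simp only [pow_succ']; group
  exact ⟨_, h2, by rw [mul_inv_cancel_left]; exact (hc.2 y (mem_zpowers y)).symm⟩

end CLx

theorem clThm : ClThm.{u} := by
  intro G _ _ h R y τ hR hy hn hτ h2 hc
  obtain ⟨r, hr, c⟩ := CLx.fix hR hy hn hτ hc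
  obtain ⟨k, hk, e⟩ := exists_mul_pow_eq hτ hr 2
  obtain ⟨m, hm⟩ := isPGroup_iff_forall.1 hR ((τ * r) ^ 2) (by rw [e, pow_two]; exact R.mul_mem h2 hk)
  have hK : IsPGroup 2 (zpowers (τ * r) ⊔ R : Subgroup G) :=
    isPGroup_sup (isPGroup_zpowers (k := m + 1) (by rw [pow_succ', pow_mul, hm])) hR
      (zpowers_le.2 (mul_mem hτ (le_normalizer hr)))
  exact ⟨r, hr, c, h.sq hy hK (mem_sup_left (mem_zpowers _)) c, fun w hw hc =>
    h.comm hy hK (mem_sup_right hw) (mem_sup_left (mem_zpowers _)) hc c⟩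

theorem l9Thm : L9Thm.{u} := by
  intro G _ _ h R e f hR he hn hf h3 hc hm
  obtain ⟨r, hr, c⟩ := CLx.fix hR he hn hf hc
  obtain ⟨k, hk, e1⟩ := exists_mul_pow_eq hf hr 3
  have h4 : (f * r) ^ 3 ∈ R := by rw [e1]; exact R.mul_mem h3 hk
  obtain ⟨m, h5⟩ := isPGroup_iff_forall.1 hR _ h4
  have h6 := h.two_el h5
  have h7 : f * (r * ((f * r) ^ 3) ^ 5) = (f * r) ^ 16 := by rw [← mul_assoc, ← pow_mul, ← pow_succ']
  have hr' : r * ((f * r) ^ 3) ^ 5 ∈ R := R.mul_mem hr (R.pow_mem h4 5)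
  have nm : f * (r * ((f * r) ^ 3) ^ 5) ∉ zpowers e := fun k =>
    hm ((Subgroup.mul_mem_cancel_right _ (mem_sup_right hr')).1 (mem_sup_left k))
  refine ⟨_, hr', he, orderOf_eq_prime ?_ fun k => nm (k ▸ one_mem _), h7 ▸ (c.pow_left 16).symm, nm⟩
  rw [h7, ← pow_mul, show 16 * 3 = 3 * 8 * 2 from rfl, pow_mul, pow_mul, h6, one_pow]

end CL.O8
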