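/-
Project O8: involutions acting freely on an elementary abelian 2-group.
-/
import Cfsg.Agent.O8.A

set_option autoImplicit false
set_option linter.unusedVariables false
set_option linter.unusedSectionVars false
set_option linter.unusedSimpArgs false

open Cfsg Subgroup CL.Grp CL.Even CL.Loc CL.NGrp
open scoped commutatorElement IsMulCommutative

namespace CL.O8

universe u

namespace Cy

section Abs

variable {A : Type*} [CommGroup A] [Finite A] {f y τ σ : A →* A} {Y : Subgroup A} {v w : A}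

/-- `v ↦ f v * v` -/
def D (f : A →* A) : A →* A := f * MonoidHom.id A

theorem D_apply (f : A →* A) (v : A) : D f v = f v * v := rfl

variable (h2 : ∀ a : A, a * a = 1)
include h2

theorem c2 (a b : A) : a * (a * b) = b := by rw [← mul_assoc, h2, one_mul]

theorem D_eq_one : D f v = 1 ↔ f v = v := by
  rw [D_apply, mul_eq_one_iff_eq_inv, inv_eq_of_mul_eq_one_right (h2 v)]

theorem map_le (hf : ∀ v, f (f v) = v) (hY : ∀ u ∈ Y, f u ∈ Y) : Y.map (D f) ≤ (D f).ker ⊓ Y := by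
  rintro _ ⟨u, hu, rfl⟩
  exact ⟨(D_eq_one h2).2 (by rw [D_apply, map_mul, hf, mul_comm]), mul_mem (hY u hu) hu⟩

theorem sq_le (hf : ∀ v, f (f v) = v) (hY : ∀ u ∈ Y, f u ∈ Y) : Nat.card (Y.map (D f)) ^ 2 ≤ Nat.card Y := by
  rw [card_eq_card_inf_ker_mul_card_map (D f) Y, sq]
  exact Nat.mul_le_mul_right _ (card_le_of_le (map_le h2 hf hY))

theorem free (hf : ∀ v, f (f v) = v) (h : Nat.card A ≤ Nat.card (D f).range ^ 2) (hv : f v = v) :
    ∃ w, D f w = v := by
  rw [← card_top, card_eq_card_inf_ker_mul_card_map (D f) ⊤, MonoidHom.range_eq_map, sq] at h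
  obtain ⟨w, -, e⟩ := (eq_of_le_of_card_ge (map_le h2 hf fun _ _ => mem_top _)
    (Nat.le_of_mul_le_mul_right h Nat.card_pos)).ge ⟨(D_eq_one h2).2 hv, mem_top v⟩
  exact ⟨w, e⟩

theorem k8 (h8 : ∀ v, f (f (f (f (f (f (f (f v))))))) = v)
    (h7 : ∀ v, f v * f (f v) * f (f (f v)) * f (f (f (f v))) * f (f (f (f (f v)))) * f (f (f (f (f (f v))))) *
      f (f (f (f (f (f (f v)))))) * v = 1)
    (hτ : ∀ v, τ v = f (f (f (f v)))) (h : Nat.card A ≤ Nat.card (D τ).range ^ 2) (v : A) : v = 1 := by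
  have n2 : ∀ v, D f (D f v) = f (f v) * v := fun v => by
    simp only [D_apply, map_mul, mul_assoc, c2 h2]
  have n4 : ∀ v, D f (D f (D f (D f v))) = D τ v := fun v => by
    rw [n2, n2]; simp only [D_apply, hτ, map_mul, mul_assoc, c2 h2]
  have n7 : ∀ v, D f (D f (D f (D τ v))) = 1 := fun v => by
    rw [n2, ← h7 v]
    simp only [D_apply, hτ, map_mul, mul_assoc, mul_comm, mul_left_comm]
  have fr : ∀ v, D τ v = 1 → ∃ w, D τ w = v := fun v hv =>
    free h2 (fun v => by rw [hτ, hτ, h8]) h ((D_eq_one h2).1 hv)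
  have st : ∀ v, D f (D f (D f (D f v))) = 1 → D f (D f (D f v)) = 1 := fun v hv => by
    obtain ⟨w, rfl⟩ := fr v (n4 v ▸ hv)
    exact n7 w
  have n : ∀ v, D τ v = 1 := fun v => n4 v ▸ st _ (st _ (st _ (by rw [n4 v, n7 v])))
  obtain ⟨w, rfl⟩ := fr v (n v)
  exact n w

variable (hy : ∀ v, y (y (y v)) = v)
include hy

theorem disj (hw : y w = w) (h : w ∈ (D y).range) : w = 1 := by
  obtain ⟨v, rfl⟩ := h
  calc D y v = D y v * y (D y v) * y (y (D y v)) := by rw [hw, hw, h2, one_mul]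
    _ = 1 := by simp only [D_apply, map_mul, hy, mul_assoc, mul_comm, mul_left_comm, c2 h2, h2]

theorem range_le (hW : ∀ w, y w = w → f w = w) : (D f).range ≤ (D y).range.map (D f) := by
  rintro _ ⟨v, rfl⟩
  refine ⟨_, ⟨y v, rfl⟩, ?_⟩
  have e : v = v * y v * y (y v) * D y (y v) := by
    simp only [D_apply, mul_assoc, mul_comm, mul_left_comm, c2 h2, h2, mul_one]
  conv_rhs => rw [e, map_mul, (D_eq_one h2).2 (hW _ (by
    simp only [map_mul, hy, mul_assoc, mul_comm, mul_left_comm])), one_mul]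

theorem cy1 (hf : ∀ v, f (f v) = v) (hW : ∀ w, y w = w → f w = w) (hY : ∀ u ∈ (D y).range, f u ∈ (D y).range)
    (h : Nat.card A ≤ Nat.card (D f).range ^ 2) (hw : y w = w) : w = 1 :=
  disj h2 hy hw (map_le h2 hf hY (range_le h2 hy hW (free h2 hf h (hW w hw)))).2

omit h2 hy in
theorem inv1 (c : ∀ v, τ (y v) = y (τ v)) : ∀ u ∈ (D y).range, τ u ∈ (D y).range := by
  rintro _ ⟨v, rfl⟩
  exact ⟨τ v, by rw [D_apply, D_apply, map_mul, c]⟩

omit hy in
theorem inv2 (c : ∀ v, σ (y v) = y (y (σ v))) : ∀ u ∈ (D y).range, σ u ∈ (D y).range := by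
  rintro _ ⟨v, rfl⟩
  exact ⟨D y (σ v), by simp only [D_apply, map_mul, c, mul_assoc, c2 h2]⟩

theorem cy2 (hτ : ∀ v, τ (τ v) = v) (hW : ∀ w, y w = w → τ w = w) (c : ∀ v, τ (y v) = y (τ v))
    (c' : ∀ v, σ (y v) = y (y (σ v))) (h : Nat.card (D σ).range = Nat.card (D τ).range) (hw : y w = w) :
    σ w = w := by
  have h1 := sq_le h2 hτ (inv1 c)
  have h3 : Nat.card (D y).range ≤ Nat.card ((D y).range.map (D σ)) ^ 2 := by
    have my := inv1 (τ := y) (y := y) fun _ => rfl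
    rw [sq, ← Nat.card_prod]
    refine Nat.card_le_card_of_injective (fun u => (⟨_, mem_map_of_mem _ u.2⟩, ⟨_, mem_map_of_mem _ (my u u.2)⟩))
      fun a b e => ?_
    simp only [Prod.mk.injEq, Subtype.mk.injEq] at e
    have k : ∀ x x', D σ x = D σ x' → σ (x * x') = x * x' := fun x x' e =>
      (D_eq_one h2).1 (by rw [map_mul, e, h2])
    have e1 := k _ _ e.1
    have e2 := k _ _ e.2
    rw [← map_mul, c', e1] at e2
    have e3 := disj h2 hy e2 (my _ (mul_mem a.2 b.2))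
    have e4 := hy (a * b)
    rw [e3, map_one, map_one] at e4
    exact Subtype.ext (by rw [← c2 h2 a b, ← e4, mul_one])
  have h4 : Nat.card (D σ).range ≤ Nat.card ((D y).range.map (D σ)) :=
    h.le.trans ((card_le_of_le (range_le h2 hy hW)).trans
      ((Nat.pow_le_pow_iff_left two_ne_zero).1 (h1.trans h3)))
  obtain ⟨u, hu, e⟩ := (eq_of_le_of_card_ge (map_le_range _ _) h4).ge ⟨w, rfl⟩
  refine (D_eq_one h2).1 (disj h2 hy ?_ (e ▸ mul_mem (inv2 h2 c' u hu) hu))
  have e1 := c' w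
  rw [hw] at e1
  rw [D_apply, map_mul, hw]
  conv_lhs => rw [e1, hy]

end Abs

variable {G : Type*} [Group G] [Finite G] {V : Subgroup G} [IsMulCommutative V] {s : G} {f : V →* V}

theorem exists_cf (hs : s ∈ 𝒩(V)) : ∃ f : V →* V, ∀ v, (f v : G) = s * v * s⁻¹ :=
  ⟨(V.normalizerMonoidHom ⟨s, hs⟩).toMonoidHom, fun _ => rfl⟩

theorem fix_iff (hf : ∀ v, (f v : G) = s * v * s⁻¹) {v : V} : f v = v ↔ Commute (v : G) s := by
  rw [Subtype.ext_iff, hf, mul_inv_eq_iff_eq_mul, commute_iff_eq, eq_comm]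

theorem ix_eq (h2 : ∀ a : V, a * a = 1) (hf : ∀ v, (f v : G) = s * v * s⁻¹) : ix V s = Nat.card (D f).range := by
  rw [← index_ker]
  refine congrArg Subgroup.index (Subgroup.ext fun v => ?_)
  rw [mem_subgroupOf, MonoidHom.mem_ker, D_eq_one h2, fix_iff hf, mem_centralizer_singleton_iff, commute_iff_eq]

theorem act' {c a b : G} (hc : c ∈ 𝒞(V)) (hb : b ∈ 𝒩(V)) (e : a = c * b) (v : V) :
    a * v * a⁻¹ = b * v * b⁻¹ := by
  rw [e, ← conj_eq_of_mem hc (conj_mem hb v.2)]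
  group

theorem sq_id (hf : ∀ v, (f v : G) = s * v * s⁻¹) (h : s * s ∈ 𝒞(V)) (v : V) : f (f v) = v :=
  Subtype.ext (by
    rw [hf, hf]
    conv_rhs => rw [← conj_eq_of_mem h v.2]
    group)

end Cy

open Cy

theorem cyThm : CyThm.{u} := by
  intro G _ _ V hV
  have := hV.1
  have h2 : ∀ a : V, a * a = 1 := fun a => Subtype.ext (by simpa [sq] using hV.2 a a.2)
  refine ⟨fun y τ y3 ny nτ ττ τy hW => ?_, fun s ns s8 hs h => ?_⟩
  · obtain ⟨fy, ey⟩ := exists_cf ny
    obtain ⟨fτ, eτ⟩ := exists_cf nτ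
    have y3' : y * y * y = 1 := by rw [← pow_three', ← y3, pow_orderOf_eq_one]
    have hy : ∀ v, fy (fy (fy v)) = v := fun v => Subtype.ext (by
      rw [ey, ey, ey]
      calc _ = y * y * y * v * (y * y * y)⁻¹ := by group
        _ = _ := by rw [y3']; group)
    have hW' : ∀ w, fy w = w → fτ w = w := fun w hw => (fix_iff eτ).2 (hW w w.2 ((fix_iff ey).1 hw))
    have c : ∀ v, fτ (fy v) = fy (fτ v) := fun v => Subtype.ext (by
      have := act' τy (mul_mem ny nτ) (a := τ * y) (by rw [commutatorElement_def]; group) v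
      rw [eτ, ey, ey, eτ]
      simpa only [mul_inv_rev, mul_assoc] using this)
    have fin : (∀ w, fy w = w → w = 1) → fx V y = ⊥ := fun h => eq_bot_iff.2 fun w hw =>
      congrArg Subtype.val (h ⟨w, hw.1⟩ ((fix_iff ey).2 (mem_fx.1 hw).2))
    refine ⟨fun h => fin fun w => cy1 h2 hy (sq_id eτ ττ) hW' (inv1 c) (ix_eq h2 eτ ▸ h),
      fun σ nσ σσ στ σy e h => fin fun w => ?_⟩
    obtain ⟨fσ, eσ⟩ := exists_cf nσ
    have c' : ∀ v, fσ (fy v) = fy (fy (fσ v)) := fun v => Subtype.ext (by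
      have := act' σy (mul_mem (mul_mem ny ny) nσ) (a := σ * y) (by
        calc σ * y = σ * y * σ⁻¹ * (y * y * y) * σ := by rw [y3']; group
          _ = _ := by group) v
      rw [eσ, ey, ey, ey, eσ]
      simpa only [mul_inv_rev, mul_assoc] using this)
    have e' : Nat.card (D fσ).range = Nat.card (D fτ).range := by
      rw [← ix_eq h2 eσ, ← ix_eq h2 eτ]
      exact Nat.eq_of_mul_eq_mul_right (Nat.card_pos (α := fx V σ)) (by rw [ix_mul_card, e, ix_mul_card])
    have eρ : ∀ v, ((fσ.comp fτ) v : G) = σ * τ * v * (σ * τ)⁻¹ := fun v => by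
      rw [MonoidHom.comp_apply, eσ, eτ]; group
    refine cy1 h2 hy (sq_id eρ ?_) (fun w hw => ?_) (fun u hu => inv2 h2 c' _ (inv1 c u hu)) (ix_eq h2 eρ ▸ h)
    · have := mul_mem (mul_mem στ (conj_mem (norm_le_norm_cent V nτ) σσ)) ττ
      rwa [show ⁅σ, τ⁆ * (τ * (σ * σ) * τ⁻¹) * (τ * τ) = σ * τ * (σ * τ) by rw [commutatorElement_def]; group] at this
    · rw [MonoidHom.comp_apply, hW' w hw, cy2 h2 hy (sq_id eτ ττ) hW' c c' e' hw]
  · obtain ⟨f, ef⟩ := exists_cf ns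
    obtain ⟨g, eg⟩ := exists_cf (pow_mem ns 4)
    refine eq_bot_iff.2 fun v hv => congrArg Subtype.val (k8 h2 (f := f) (τ := g) (fun v => Subtype.ext ?_)
      (fun v => Subtype.ext ?_) (fun v => Subtype.ext ?_) (ix_eq h2 eg ▸ h) ⟨v, hv⟩)
    · simp only [ef]
      calc _ = s ^ 8 * v * (s ^ 8)⁻¹ := by simp only [pow_succ, pow_zero]; group
        _ = _ := by rw [s8]; group
    · simp only [Subgroup.coe_mul, ef, Subgroup.coe_one]
      rw [← hs v v.2]
      calc _ = (s * v) ^ 7 * s * (s ^ 8)⁻¹ * v := by simp only [pow_succ, pow_zero]; group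
        _ = _ := by rw [s8, inv_one, mul_one, mul_assoc, ← pow_succ]
    · simp only [ef, eg, pow_succ, pow_zero]; group

end CL.O8
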