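/-
Project O8: an elementary abelian group of order 9 acting on a 2-group.
-/
import Cfsg.Agent.O8.A

set_option autoImplicit false
set_option linter.unusedVariables false

open Cfsg Subgroup CL.Grp CL.Even CL.Loc CL.NGrp
open scoped commutatorElement

namespace CL.O8

universe u

namespace E9

variable {G : Type*} [Group G] [Finite G] {R K M : Subgroup G} {e f a b : G}

omit [Finite G] in
theorem czp (x : G) : 𝒞(zpowers x) = centralizer {x} := by rw [zpowers_eq_closure, centralizer_closure]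

omit [Finite G] in
theorem nr (n : Nine e f) : zpowers e ≤ 𝒩(zpowers f) :=
  zpowers_le.2 (cent_le_norm _ (by rw [czp]; exact mem_centralizer_singleton_iff.2 n.comm.eq))

theorem memE (n : Nine e f) (ha : a ∈ zpowers e ⊔ zpowers f) : ∃ i < 3, ∃ j < 3, e ^ i * f ^ j = a := by
  classical
  obtain ⟨x, hx, y, hy, rfl⟩ := (mem_sup_nr (nr n)).1 ha
  obtain ⟨i, hi, rfl⟩ := Finset.mem_image.1 (mem_zpowers_iff_mem_range_orderOf.1 hx)
  obtain ⟨j, hj, rfl⟩ := Finset.mem_image.1 (mem_zpowers_iff_mem_range_orderOf.1 hy)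
  exact ⟨i, n.oe ▸ Finset.mem_range.1 hi, j, n.of ▸ Finset.mem_range.1 hj, rfl⟩

omit [Finite G] in
theorem e3 (n : Nine e f) : e ^ 3 = 1 := n.oe ▸ pow_orderOf_eq_one e

omit [Finite G] in
theorem f3 (n : Nine e f) : f ^ 3 = 1 := n.of ▸ pow_orderOf_eq_one f

theorem ordE (n : Nine e f) (ha : a ∈ zpowers e ⊔ zpowers f) (h1 : a ≠ 1) : orderOf a = 3 := by
  obtain ⟨i, -, j, -, rfl⟩ := memE n ha
  refine orderOf_eq_prime ?_ h1
  rw [(n.comm.pow_pow i j).mul_pow, ← pow_mul, ← pow_mul, mul_comm i, mul_comm j, pow_mul, pow_mul, e3 n, f3 n]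
  simp

theorem commE (n : Nine e f) : IsMulCommutative ↥(zpowers e ⊔ zpowers f) := ⟨⟨fun ⟨a, ha⟩ ⟨b, hb⟩ => by
  obtain ⟨i, -, j, -, rfl⟩ := memE n ha
  obtain ⟨k, -, l, -, rfl⟩ := memE n hb
  exact Subtype.ext (((Commute.refl e).pow_pow i k).mul_right (n.comm.pow_pow i l) |>.mul_left
    ((n.comm.symm.pow_pow j k).mul_right ((Commute.refl f).pow_pow j l))).eq⟩⟩

theorem ncE (n : Nine e f) : ¬ IsCyclic ↥(zpowers e ⊔ zpowers f) := fun hc => by
  obtain ⟨⟨g, hg⟩, gen⟩ := hc.exists_generator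
  have k : ∀ x ∈ zpowers e ⊔ zpowers f, x ∈ zpowers g := fun x hx => by
    obtain ⟨m, hm⟩ := gen ⟨x, hx⟩
    exact ⟨m, congrArg Subtype.val hm⟩
  have he := k e (mem_sup_left (mem_zpowers e))
  have g1 : g ≠ 1 := by
    rintro rfl
    have := n.oe
    rw [zpowers_one_eq_bot, mem_bot] at he
    rw [he, orderOf_one] at this
    omega
  have : zpowers e = zpowers g := eq_of_le_of_card_ge (zpowers_le.2 he)
    (by rw [Nat.card_zpowers, Nat.card_zpowers, n.oe, ordE n hg g1])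
  exact n.nm (this ▸ k f (mem_sup_right (mem_zpowers f)))

theorem cop {A : Subgroup G} (hA : IsPGroup 3 A) (hK : IsPGroup 2 K) : (Nat.card A).Coprime (Nat.card K) :=
  IsPGroup.coprime_card_of_ne 3 2 (by decide) A K hA hK

theorem z3 (ha : orderOf a = 3) : IsPGroup 3 (zpowers a) :=
  isPGroup_zpowers (k := 1) (by rw [pow_one, ← ha, pow_orderOf_eq_one])

theorem pE (n : Nine e f) : IsPGroup 3 ↥(zpowers e ⊔ zpowers f) := isPGroup_sup (z3 n.oe) (z3 n.of) (nr n)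

omit [Finite G] in
theorem nE (he : e ∈ 𝒩(K)) (hf : f ∈ 𝒩(K)) : zpowers e ⊔ zpowers f ≤ 𝒩(K) :=
  sup_le (zpowers_le.2 he) (zpowers_le.2 hf)

theorem solv (hK : IsPGroup 2 K) : Group.IsSolvable K :=
  have := hK.isNilpotent
  inferInstance

theorem gen (n : Nine e f) (hK : IsPGroup 2 K) (he : e ∈ 𝒩(K)) (hf : f ∈ 𝒩(K))
    (hM : ∀ a ∈ zpowers e ⊔ zpowers f, a ≠ 1 → fx K a ≤ M) : K ≤ M :=
  have := commE n
  le_of_forall_centralizer_le (ncE n) (nE he hf) (cop (pE n) hK) hM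

theorem one (n : Nine e f) (hR : IsPGroup 2 R) (he : e ∈ 𝒩(R)) (hf : f ∈ 𝒩(R)) :
    R ≤ fx R e ⊔ fx R f ⊔ fx R (e * f) ⊔ fx R (e * f⁻¹) := by
  refine gen n hR he hf fun a ha h1 x hx => ?_
  obtain ⟨hx, c⟩ := mem_fx.1 hx
  have e2 : e ^ 2 = e⁻¹ := eq_inv_of_mul_eq_one_left (by rw [← pow_succ, e3 n])
  have f2 : f ^ 2 = f⁻¹ := eq_inv_of_mul_eq_one_left (by rw [← pow_succ, f3 n])
  have m1 : Commute x e → x ∈ fx R e ⊔ fx R f ⊔ fx R (e * f) ⊔ fx R (e * f⁻¹) := fun k =>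
    mem_sup_left (mem_sup_left (mem_sup_left (mem_fx.2 ⟨hx, k⟩)))
  have m2 : Commute x f → x ∈ fx R e ⊔ fx R f ⊔ fx R (e * f) ⊔ fx R (e * f⁻¹) := fun k =>
    mem_sup_left (mem_sup_left (mem_sup_right (mem_fx.2 ⟨hx, k⟩)))
  have m3 : Commute x (e * f) → x ∈ fx R e ⊔ fx R f ⊔ fx R (e * f) ⊔ fx R (e * f⁻¹) := fun k =>
    mem_sup_left (mem_sup_right (mem_fx.2 ⟨hx, k⟩))
  have m4 : Commute x (e * f⁻¹) → x ∈ fx R e ⊔ fx R f ⊔ fx R (e * f) ⊔ fx R (e * f⁻¹) := fun k =>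
    mem_sup_right (mem_fx.2 ⟨hx, k⟩)
  obtain ⟨i, hi, j, hj, rfl⟩ := memE n ha
  interval_cases i <;> interval_cases j <;> simp only [e2, f2, pow_zero, pow_one, one_mul, mul_one] at c h1
  · exact absurd rfl h1
  · exact m2 c
  · exact m2 (by simpa using c.inv_right)
  · exact m1 c
  · exact m3 c
  · exact m4 c
  · exact m1 (by simpa using c.inv_right)
  · exact m4 (by have := c.inv_right; rwa [mul_inv_rev, inv_inv, ← n.comm.inv_right.eq] at this)
  · exact m3 (by have := c.inv_right; rwa [mul_inv_rev, inv_inv, inv_inv, ← n.comm.eq] at this)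

theorem cE (n : Nine e f) {d : G} (c1 : Commute d e) (c2 : Commute d f) (ha : a ∈ zpowers e ⊔ zpowers f) :
    Commute d a := by
  obtain ⟨i, -, j, -, rfl⟩ := memE n ha
  exact (c1.pow_right i).mul_right (c2.pow_right j)

theorem two (h : Ord8 G) (n : Nine e f) (hR : IsPGroup 2 R) (he : e ∈ 𝒩(R)) (hf : f ∈ 𝒩(R)) {d : G} (hd : d ∈ R)
    (c1 : Commute d e) (c2 : Commute d f) : d ∈ 𝒞(R) := fun x hx =>
  mem_centralizer_singleton_iff.1 (gen (M := centralizer {d}) n hR he hf (fun a ha h1 y hy =>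
    mem_centralizer_singleton_iff.2
      (h.comm (ordE n ha h1) hR (mem_fx.1 hy).1 hd (mem_fx.1 hy).2 (cE n c1 c2 ha)).eq) hx)

theorem step (h : Ord8 G) (n : Nine e f) (hR : IsPGroup 2 R) (he : e ∈ 𝒩(R)) (hf : f ∈ 𝒩(R))
    (hv : ∀ v ∈ 𝛀[2] R, Commute v e ∧ Commute v f) (hK : K ≤ R) (ke : e ∈ 𝒩(K)) (kf : f ∈ 𝒩(K))
    (hc : ⁅K, R⁆ ≤ 𝒞(zpowers e ⊔ zpowers f)) : K ≤ 𝒞(zpowers e ⊔ zpowers f) := by
  refine gen n (hR.to_le hK) ke kf fun a ha h1 x hx => ?_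
  obtain ⟨hx, c⟩ := mem_fx.1 hx
  have o := ordE n ha h1
  have h2 : ⁅⁅zpowers a, R⁆, zpowers x⁆ = ⊥ := by
    refine commutator_commutator_eq_bot_of_rotate (commutator_eq_bot_iff_le_centralizer.2 ?_) ?_
    · rw [commutator_comm]
      exact ((commutator_mono (zpowers_le.2 hx) le_rfl).trans hc).trans (cent_mono (zpowers_le.2 ha))
    · rw [commutator_eq_bot_iff_le_centralizer.2 (zpowers_le.2 (by
        rw [czp]; exact mem_centralizer_singleton_iff.2 c.eq)), commutator_bot_left]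
  have h3 : R ≤ centralizer {x} := by
    rw [← commutator_sup_centralizer_eq (zpowers_le.2 (nE he hf ha)) (cop (z3 o) hR) (Or.inr (solv hR)), czp]
    refine sup_le ?_ fun y hy => mem_centralizer_singleton_iff.2
      (h.comm o hR (mem_fx.1 hy).1 (hK hx) (mem_fx.1 hy).2 c).eq
    rw [commutator_comm, ← czp]
    exact commutator_eq_bot_iff_le_centralizer.1 h2
  obtain ⟨c1, c2⟩ := hv x (mem_ozc.2 ⟨hK hx, fun y hy => mem_centralizer_singleton_iff.1 (h3 hy),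
    by rw [sq]; exact h.sq o hR (hK hx) c⟩)
  exact fun b hb => (cE n c1 c2 hb).symm.eq

theorem three (h : Ord8 G) (n : Nine e f) (hR : IsPGroup 2 R) (he : e ∈ 𝒩(R)) (hf : f ∈ 𝒩(R))
    (hv : ∀ v ∈ 𝛀[2] R, Commute v e ∧ Commute v f) : e ∈ 𝒞(R) ∧ f ∈ 𝒞(R) := by
  have k : R ≤ 𝒞(zpowers e ⊔ zpowers f) := by
    by_contra hn
    obtain ⟨i, h1, h2⟩ := exists_iter_not_le (exists_iter_eq_bot hR hR le_normalizer) hn
    have nn : ∀ g ∈ 𝒩(R), ∀ i, g ∈ 𝒩(iterCommutator R R i) := fun g hg i => by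
      induction i with
      | zero => exact hg
      | succ i ih => exact zpowers_le.1 (le_norm_commutator (zpowers_le.2 ih) (zpowers_le.2 hg))
    exact h1 (step h n hR he hf hv (iter_le le_normalizer i) (nn e he i) (nn f hf i) h2)
  have := le_centralizer_iff.1 k
  exact ⟨this (mem_sup_left (mem_zpowers e)), this (mem_sup_right (mem_zpowers f))⟩

theorem four (h : Ord8 G) (n : Nine e f) (hR : IsPGroup 2 R) (he : e ∈ 𝒩(R)) (hf : f ∈ 𝒩(R)) {q : G}
    (hq : q ∈ 𝒩(R)) (qq : q * q ∈ R) (qe : ⁅q, e⁆ ∈ R) (qf : ⁅q, f⁆ ∈ R) : ∃ r ∈ R, q * r ∈ 𝒞(R) := by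
  have k : ∀ a, ⁅q, a⁆ ∈ R → q⁻¹ * (a * q * a⁻¹) ∈ R := fun a ha => by
    have := conj_mem' hq (R.inv_mem ha)
    rwa [show q⁻¹ * ⁅q, a⁆⁻¹ * q = q⁻¹ * (a * q * a⁻¹) by rw [commutatorElement_def]; group] at this
  have pw : ∀ a ∈ 𝒩(R), q⁻¹ * (a * q * a⁻¹) ∈ R → ∀ i : ℕ, q⁻¹ * (a ^ i * q * (a ^ i)⁻¹) ∈ R := fun a ha h i => by
    induction i with
    | zero => simp
    | succ i ih =>
      have := R.mul_mem h (conj_mem ha ih)
      rwa [show q⁻¹ * (a * q * a⁻¹) * (a * (q⁻¹ * (a ^ i * q * (a ^ i)⁻¹)) * a⁻¹) =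
        q⁻¹ * (a ^ (i + 1) * q * (a ^ (i + 1))⁻¹) by group] at this
  obtain ⟨c, ⟨-, hc⟩, m⟩ := exists_centralizer_mem_leftCoset' (K := ⊤) (A := zpowers e ⊔ zpowers f)
    (by rw [normalizer_eq_top]; exact le_top) le_top (nE he hf) (cop (pE n) hR) (Or.inr (solv hR)) (mem_top q)
    fun a ha => by
      obtain ⟨i, -, j, -, rfl⟩ := memE n ha
      have := R.mul_mem (pw e he (k e qe) i) (conj_mem (pow_mem he i) (pw f hf (k f qf) j))
      rwa [show q⁻¹ * (e ^ i * q * (e ^ i)⁻¹) * (e ^ i * (q⁻¹ * (f ^ j * q * (f ^ j)⁻¹)) * (e ^ i)⁻¹) =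
        q⁻¹ * (e ^ i * f ^ j * q * (e ^ i * f ^ j)⁻¹) by group] at this
  refine ⟨_, m, ?_⟩
  rw [mul_inv_cancel_left]
  have c1 : Commute c e := (hc e (mem_sup_left (mem_zpowers e))).symm
  have c2 : Commute c f := (hc f (mem_sup_right (mem_zpowers f))).symm
  have cn : c ∈ 𝒩(R) := by simpa using mul_mem hq (le_normalizer m)
  have cc : c ^ 2 ∈ R := by
    have := R.mul_mem (R.mul_mem qq (conj_mem' hq m)) m
    rwa [show q * q * (q⁻¹ * (q⁻¹ * c) * q) * (q⁻¹ * c) = c ^ 2 by rw [sq]; group] at this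
  obtain ⟨j, hj⟩ := isPGroup_iff_forall.1 hR _ cc
  have hK : IsPGroup 2 ↥(zpowers c ⊔ R) :=
    isPGroup_sup (isPGroup_zpowers (k := j + 1) (by rw [pow_succ', pow_mul, hj])) hR (zpowers_le.2 cn)
  have nn : ∀ a ∈ 𝒩(R), Commute c a → a ∈ 𝒩(zpowers c ⊔ R) := fun a ha ca => zpowers_le.1 (le_norm_sup
    (zpowers_le.2 (cent_le_norm _ (by rw [czp]; exact mem_centralizer_singleton_iff.2 ca.symm.eq))) (zpowers_le.2 ha))
  exact cent_mono le_sup_right (two h n hK (nn e he c1) (nn f hf c2) (mem_sup_left (mem_zpowers c)) c1 c2)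

theorem le_comm (hR : IsPGroup 2 R) (o : orderOf a = 3) (ha : a ∈ 𝒩(R)) (c : Commute a b)
    (d : ∀ x ∈ R, Commute x a → Commute x b → x = 1) : fx R b ≤ ⁅R, zpowers a⁆ := by
  have n : zpowers a ≤ 𝒩(fx R b) := le_norm_inf (zpowers_le.2 ha)
    (le_norm_of_le (zpowers_le.2 (mem_centralizer_singleton_iff.2 c.eq)))
  have hK : IsPGroup 2 (fx R b) := hR.to_inf_left
  rw [← commutator_sup_centralizer_eq n (cop (z3 o) hK) (Or.inr (solv hK)), czp]
  refine sup_le (commutator_mono inf_le_left le_rfl) fun x hx => ?_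
  rw [d x hx.1.1 (mem_fx.1 hx).2 (mem_fx.1 hx.1).2]
  exact one_mem _

theorem card_step (hR : IsPGroup 2 R) (ab : R ≤ 𝒞(R)) (o : orderOf a = 3) (ha : a ∈ 𝒩(R))
    (hK : K ≤ ⁅R, zpowers a⁆) : Nat.card ↥(K ⊔ fx R a) = Nat.card K * Nat.card (fx R a) := by
  have : IsMulCommutative R := ⟨⟨fun x y => Subtype.ext (ab y.2 x x.2)⟩⟩
  have KR : K ≤ R := hK.trans (commutator_le_of_le_norm (zpowers_le.2 ha))
  refine card_sup_of_inf_eq_bot ((KR.trans ab).trans ((cent_mono inf_le_left).trans (cent_le_norm _))) ?_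
  rw [eq_bot_iff, ← inf_centralizer_inf_commutator_eq_bot (zpowers_le.2 ha) (cop (z3 o) hR), czp, inf_comm]
  exact inf_le_inf_left _ hK

theorem five (n : Nine e f) (hR : IsPGroup 2 R) (he : e ∈ 𝒩(R)) (hf : f ∈ 𝒩(R)) (ab : R ≤ 𝒞(R))
    (d : fx R e ⊓ fx R f = ⊥) :
    Nat.card R = Nat.card (fx R e) * Nat.card (fx R f) * Nat.card (fx R (e * f)) * Nat.card (fx R (e * f⁻¹)) := by
  have d0 : ∀ x ∈ R, Commute x e → Commute x f → x = 1 := fun x hx c1 c2 =>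
    mem_bot.1 (d ▸ mem_inf.2 ⟨mem_fx.2 ⟨hx, c1⟩, mem_fx.2 ⟨hx, c2⟩⟩)
  have me : e ∈ zpowers e ⊔ zpowers f := mem_sup_left (mem_zpowers e)
  have mf : f ∈ zpowers e ⊔ zpowers f := mem_sup_right (mem_zpowers f)
  have o3 : orderOf (e * f) = 3 := ordE n (mul_mem me mf) fun k => n.nm (by
    rw [eq_inv_of_mul_eq_one_right k]; exact inv_mem (mem_zpowers e))
  have o4 : orderOf (e * f⁻¹) = 3 := ordE n (mul_mem me (inv_mem mf)) fun k => n.nm (by
    rw [← mul_inv_eq_one.1 k]; exact mem_zpowers e)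
  have n3 := mul_mem he hf
  have n4 := mul_mem he (inv_mem hf)
  have ce : Commute e f := n.comm
  have ee := Commute.refl e
  have ff := Commute.refl f
  rw [← card_step hR ab n.of hf (le_comm hR n.of hf ce.symm fun x hx c1 c2 => d0 x hx c2 c1),
    ← card_step hR ab o3 n3 (sup_le
      (le_comm hR o3 n3 (ee.mul_left ce.symm) fun x hx c1 c2 => d0 x hx c2 (by simpa using c2.inv_right.mul_right c1))
      (le_comm hR o3 n3 (ce.mul_left ff) fun x hx c1 c2 => d0 x hx (by simpa using c1.mul_right c2.inv_right) c2)),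
    ← card_step hR ab o4 n4 (sup_le (sup_le
      (le_comm hR o4 n4 (ee.mul_left ce.symm.inv_left) fun x hx c1 c2 =>
        d0 x hx c2 (by simpa using c1.inv_right.mul_right c2))
      (le_comm hR o4 n4 (ce.mul_left ff.inv_left) fun x hx c1 c2 => d0 x hx (by simpa using c1.mul_right c2) c2))
      (le_comm hR o4 n4 ((ee.mul_right ce).mul_left (ce.symm.mul_right ff).inv_left) fun x hx c1 c2 => by
        have c3 : Commute x f := by
          have := (c1.inv_right.mul_right c2).pow_right 2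
          rwa [show ((e * f⁻¹)⁻¹ * (e * f)) ^ 2 = f ^ 3 * f by simp [pow_succ, mul_assoc], f3 n, one_mul] at this
        exact d0 x hx (by simpa using c1.mul_right c3) c3))]
  exact congrArg (fun X : Subgroup G => Nat.card X) (le_antisymm (one n hR he hf)
    (sup_le (sup_le (sup_le inf_le_left inf_le_left) inf_le_left) inf_le_left))

end E9

theorem e9Thm : E9Thm.{u} := fun G _ _ h R e f hR n he hf =>
  ⟨E9.one n hR he hf, fun d hd c1 c2 => E9.two h n hR he hf hd c1 c2, E9.three h n hR he hf,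
    fun q hq qq qe qf => E9.four h n hR he hf hq qq qe qf, E9.five n hR he hf⟩

end CL.O8
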