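/-
Project O8 (S3432): Frobenius groups `7 : 3` and `7 : 6` acting on 2-groups.
-/
import Cfsg.Agent.O8.A
import Cfsg.Agent.Odd.Wielandt

set_option autoImplicit false
set_option linter.unusedVariables false

open Cfsg Subgroup CL.Grp CL.Even CL.Loc CL.NGrp
open scoped commutatorElement

namespace CL.O8

universe u

theorem f73Thm : F73Thm.{u} := by
  intro G _ _ h R D x y hR hD xR yR RD xD yD ox oy e
  have := Fact.mk Nat.prime_seven
  have p7 : IsPGroup 7 (zpowers x) := isPGroup_zpowers (k := 1) (by rw [pow_one, ← ox, pow_orderOf_eq_one])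
  have c3 : Nat.card (zpowers y) = 3 := by rw [Nat.card_zpowers, oy]
  have m : y * x * y⁻¹ ∈ zpowers x ⊔ R := by
    rcases e with e | e <;>
      exact (mul_mem_cancel_right (inv_mem (mem_sup_left (pow_mem (mem_zpowers x) _)))).1 (mem_sup_right e)
  have yK : zpowers y ≤ 𝒩(zpowers x ⊔ R) := zpowers_le.2 (mem_norm_of_cj_le (by
    rw [cj_sup, cj_eq yR, MonoidHom.map_zpowers]
    exact sup_le (zpowers_le.2 m) le_sup_right))
  obtain ⟨k, hk⟩ := hR.exists_card_eq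
  obtain ⟨S, hS, yS⟩ := exists_isSylowIn_le_normalizer 7 yK (by
    rw [c3]
    refine Nat.Coprime.coprime_dvd_right (card_sup_dvd (zpowers_le.2 xR)) ?_
    rw [Nat.card_zpowers, ox, hk]
    exact Nat.Coprime.mul_right (by norm_num) (Nat.Coprime.pow_right _ (by norm_num))) (.inl inferInstance)
  have o7 : ∀ s ∈ S, s ≠ 1 → orderOf s = 7 := fun s hs s1 =>
    let ⟨_, hj⟩ := hS.isPGroup ⟨s, hs⟩
    orderOf_eq_prime (h.seven_el (congrArg Subtype.val hj)) s1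
  obtain ⟨g, -, hg⟩ := syl_conj_le hS p7 le_sup_left
  have xS := hg (conj_mem_cj g (mem_zpowers x))
  have x1 : g * x * g⁻¹ ≠ 1 := fun k => by
    rw [conj_eq_one_iff.1 k, orderOf_one] at ox; omega
  have reg : CL.Odd.Semiregular S (zpowers y) := fun a ha a1 => (eq_bot_iff_forall _).2 fun s hs => by_contra fun s1 =>
    a1 (h.fpf_pow (.inr (o7 s hs.1 s1)) (mem_centralizer_singleton_iff.1 hs.2) (.inr rfl) (k := 1) (by
      rw [pow_one, ← c3]; exact congrArg Subtype.val (pow_card_eq_one' (x := (⟨a, ha⟩ : zpowers y)))))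
  have fr : CL.Odd.Frob (S ⊔ zpowers y) S (zpowers y) :=
    ⟨⟨rfl, yS, (eq_bot_iff_forall _).2 fun a ha => by_contra fun a1 => a1 (mem_bot.1 (reg a ha.2 a1 ▸
      (⟨ha.1, mem_centralizer_singleton_iff.2 rfl⟩ : a ∈ S ⊓ centralizer {a})))⟩,
      fun k => x1 (mem_bot.1 (k ▸ xS)), fun k => by rw [k, card_bot] at c3; omega, reg⟩
  obtain ⟨d, hd⟩ := hD.exists_card_eq
  obtain ⟨s, hs⟩ := hS.isPGroup.exists_card_eq
  have := hD.isNilpotent
  have key := fr.card_eq_pow (V := D) (sup_le (hS.le.trans (sup_le (zpowers_le.2 xD) RD)) (zpowers_le.2 yD)) (by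
    rw [hd, sup_comm]
    refine Nat.Coprime.pow_left _ (Nat.Coprime.coprime_dvd_right (card_sup_dvd yS) ?_)
    rw [c3, hs]
    exact Nat.Coprime.mul_right (by norm_num) (Nat.Coprime.pow_right _ (by norm_num))) inferInstance
    (le_bot_iff.1 ((inf_le_inf_left D (centralizer_le (Set.singleton_subset_iff.2 xS))).trans
      (h.fx_eq_bot (.inr (o7 _ xS x1)) hD).le))
  rwa [c3, zpowers_eq_closure, centralizer_closure] at key

namespace F73

variable {G : Type u} [Group G] {R : Subgroup G} {x g : G}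

theorem iter (xR : x ∈ 𝒩(R)) (gR : g ∈ 𝒩(R)) (x7 : x ^ 7 = 1) {a : ℕ} (e : g * x * g⁻¹ * (x ^ a)⁻¹ ∈ R) (n : ℕ) :
    g ^ n * x * (g ^ n)⁻¹ * (x ^ (a ^ n % 7))⁻¹ ∈ R := by
  have : (R.subgroupOf 𝒩(R)).Normal := normal_in_normalizer
  let f := QuotientGroup.mk' (R.subgroupOf 𝒩(R))
  have k : ∀ {u v : 𝒩(R)}, f u = f v ↔ (u : G) * (v : G)⁻¹ ∈ R := fun {u v} => by
    rw [← mul_inv_eq_one, ← map_inv, ← map_mul]; exact QuotientGroup.eq_one_iff _
  have e1 : f ⟨g, gR⟩ * f ⟨x, xR⟩ * (f ⟨g, gR⟩)⁻¹ = f ⟨x, xR⟩ ^ a := by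
    rw [← map_mul, ← map_inv, ← map_mul, ← map_pow]; exact k.2 e
  have e2 : f ⟨g, gR⟩ ^ n * f ⟨x, xR⟩ * (f ⟨g, gR⟩ ^ n)⁻¹ = f ⟨x, xR⟩ ^ a ^ n := by
    induction n with
    | zero => simp
    | succ n ih => rw [pow_succ' a, pow_mul, ← e1, conj_pow, ← ih, pow_succ']; group
  rw [← pow_eq_pow_mod _ x7]
  refine (k (u := ⟨g, gR⟩ ^ n * ⟨x, xR⟩ * (⟨g, gR⟩ ^ n)⁻¹) (v := ⟨x, xR⟩ ^ a ^ n)).1 ?_
  rw [map_mul, map_mul, map_inv, map_pow, map_pow, e2]

end F73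

theorem k76Thm (hC : CyThm.{u}) : K76Thm.{u} := by
  intro G _ _ h R x g hR R1 xR gR ox e
  have x7 : x ^ 7 = 1 := ox ▸ pow_orderOf_eq_one x
  have op : ∀ m, m % 7 ≠ 0 → orderOf (x ^ m) = 7 := fun m hm => by
    rw [Nat.Coprime.orderOf_pow (by rw [ox]; exact (Nat.Prime.coprime_iff_not_dvd Nat.prime_seven).2 (by omega)), ox]
  obtain ⟨a, ha, e⟩ : ∃ a, (a = 3 ∨ a = 5) ∧ g * x * g⁻¹ * (x ^ a)⁻¹ ∈ R := e.elim (⟨3, .inl rfl, ·⟩) (⟨5, .inr rfl, ·⟩)
  have it := F73.iter xR gR x7 e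
  have og : orderOf g = 6 := by
    have k := it (orderOf g)
    have k2 : (a ^ orderOf g % 7 + 6) % 7 = 0 := by_contra fun n => by
      have m : x ^ (a ^ orderOf g % 7 + 6) ∈ R := by
        have := inv_mem k
        rwa [pow_orderOf_eq_one, one_mul, inv_one, mul_one, mul_inv_rev, inv_inv,
          show x⁻¹ = x ^ 6 from inv_eq_of_mul_eq_one_right (by rw [← pow_succ', x7]), ← pow_add] at this
      have := op _ n
      rw [h.fpf2 (.inr this) hR m (Commute.refl _), orderOf_one] at this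
      omega
    have h1 := h g
    have h2 := orderOf_pos g
    generalize orderOf g = n at k2 h1 h2
    rcases ha with rfl | rfl <;> interval_cases n <;> simp_all
  have oy : orderOf (g ^ 2) = 3 := by rw [orderOf_pow, og]; rfl
  have tt : g ^ 3 * g ^ 3 = 1 := by rw [← pow_add]; exact orderOf_dvd_iff_pow_eq_one.1 og.dvd
  have nV : ∀ {s}, s ∈ 𝒩(R) → s ∈ 𝒩(𝛀[2] R) := fun hs => norm_le_norm_ozc R hs
  have pV : IsPGroup 2 (𝛀[2] R) := ozc_isP R
  have cm : Commute (g ^ 3) (g ^ 2) := Commute.pow_pow_self g 3 2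
  have fr : fx (𝛀[2] R) (g ^ 3) ⊓ fx (𝛀[2] R) (x * g ^ 3 * x⁻¹) = ⊥ := (eq_bot_iff_forall _).2 fun v hv => by
    have k := it 3
    rw [show a ^ 3 % 7 = 6 by rcases ha with rfl | rfl <;> rfl] at k
    have c := ((mem_fx.1 hv.2).2.mul_right (mem_fx.1 hv.1).2.inv_right).mul_right
      (show Commute v _ from (ozc_le_cent R hv.1.1 _ k).symm)
    rw [show x * g ^ 3 * x⁻¹ * (g ^ 3)⁻¹ * (g ^ 3 * x * (g ^ 3)⁻¹ * (x ^ 6)⁻¹) = (x ^ 5)⁻¹ by group] at c
    exact h.fpf2 (.inr (op 5 (by norm_num))) pV hv.1.1 (Commute.inv_right_iff.1 c).symm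
  have ie : ix (𝛀[2] R) (x * g ^ 3 * x⁻¹) = ix (𝛀[2] R) (g ^ 3) := by
    have h1 := ix_mul_card (𝛀[2] R) (x * g ^ 3 * x⁻¹)
    rw [← ix_mul_card (𝛀[2] R) (g ^ 3), ← card_cj x (fx _ (g ^ 3)), cj_inf, cj_eq (nV xR), cj_cent_singleton] at h1
    exact Nat.eq_of_mul_eq_mul_right Nat.card_pos h1
  have k := ((hC G _ (ozc_elem R)).1 (g ^ 2) (g ^ 3) oy (nV (pow_mem gR 2)) (nV (pow_mem gR 3)) (tt ▸ one_mem _)
    (cm.commutator_eq ▸ one_mem _) fun w hw c => h.comm oy (isPGroup_sup (isPGroup_zpowers (k := 1)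
      (by rw [pow_one, pow_two, tt])) pV (zpowers_le.2 (nV (pow_mem gR 3)))) (mem_sup_right hw)
      (mem_sup_left (mem_zpowers _)) c cm).1 (by have := card_le_ix2 fr; rwa [ie, ← pow_two] at this)
  have k2 := f73Thm G h R _ x (g ^ 2) hR pV xR (pow_mem gR 2) ((le_cent_ozc R).trans (cent_le_norm _)) (nV xR)
    (nV (pow_mem gR 2)) ox oy (by rcases ha with rfl | rfl; exacts [.inl (it 2), .inr (it 2)])
  rw [k, card_bot, one_pow] at k2
  exact ozc_ne_bot hR R1 (card_eq_one.1 k2)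

end CL.O8
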