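/-
Project O8 (S3432): the step `FF`.
-/
import Cfsg.Agent.O8.B
import Cfsg.Agent.O8.S5K

set_option autoImplicit false
set_option linter.unusedVariables false

open Cfsg Subgroup CL.Grp CL.Even CL.Loc CL.NGrp
open scoped commutatorElement

namespace CL.O8

universe u

namespace FFx

open S5K

section

variable {G : Type*} [Group G] [Finite G]

theorem ix_le {D : Subgroup G} (hD : IsElementaryAbelian 2 D) {t : G} (hn : t ∈ 𝒩(D)) (h2 : t * t ∈ 𝒞(D)) :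
    ix D t ≤ Nat.card (fx D t) := by
  have cm : ∀ {a b : G}, a ∈ D → b ∈ D → Commute a b := fun ha hb => cmm ((elem_iff.1 hD).1 hb) ha
  have hm : ∀ v : D, (v : G) * (t * v * t⁻¹) ∈ fx D t := fun v => by
    have h1 := CL.Even.conj_mem hn v.2
    refine mem_fx.2 ⟨mul_mem v.2 h1, ?_⟩
    have h3 : t * (v * (t * v * t⁻¹)) * t⁻¹ = v * (t * v * t⁻¹) := by
      rw [show t * (v * (t * v * t⁻¹)) * t⁻¹ = t * v * t⁻¹ * (t * t * v * (t * t)⁻¹) by group,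
        ← (cmm h2 v.2).eq, mul_inv_cancel_right, (cm v.2 h1).eq]
    exact (mul_inv_eq_iff_eq_mul.1 h3).symm
  refine Nat.card_le_card_of_injective
    (fun q : D ⧸ (centralizer {t}).subgroupOf D => (⟨_, hm q.out⟩ : fx D t)) fun a b e => ?_
  rw [← a.out_eq', ← b.out_eq', QuotientGroup.eq, mem_subgroupOf, mem_centralizer_singleton_iff]
  have e1 : (a.out : G) * (t * a.out * t⁻¹) = b.out * (t * b.out * t⁻¹) := congrArg Subtype.val e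
  generalize a.out = v at e1 ⊢
  generalize b.out = w at e1 ⊢
  have hc : (v : G)⁻¹ * w ∈ D := (v⁻¹ * w).2
  have h3 : ((v : G)⁻¹ * w)⁻¹ = (v : G)⁻¹ * w := inv_eq_of_mul_eq_one_right (by rw [← pow_two]; exact hD.2 _ hc)
  have h4 : t * v * t⁻¹ = (v : G)⁻¹ * w * (t * w * t⁻¹) := by rw [mul_assoc (v : G)⁻¹, ← e1, inv_mul_cancel_left]
  have h5 : t * ((v : G)⁻¹ * w) * t⁻¹ = (v : G)⁻¹ * w := by
    rw [show t * ((v : G)⁻¹ * w) * t⁻¹ = (t * v * t⁻¹)⁻¹ * (t * w * t⁻¹) by group, h4,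
      (cm hc (CL.Even.conj_mem hn w.2)).eq, mul_inv_rev, inv_mul_cancel_right, h3]
  exact (mul_inv_eq_iff_eq_mul.1 h5).symm

theorem free3 {V : Subgroup G} {y t : G} (hy : orderOf y = 3) (hn : y ∈ 𝒩(V)) (hf : fx V y = ⊥)
    (ht : t * y * t⁻¹ = y⁻¹) : Nat.card V ≤ ix V t ^ 2 := by
  have h : fx V t ⊓ fx V (y * t * y⁻¹) = ⊥ := by
    rw [eq_bot_iff, ← hf]
    rintro v ⟨h1, h2⟩
    obtain ⟨hv, h1⟩ := mem_fx.1 h1
    have h3 := (mem_fx.1 h2).2.mul_right h1.inv_right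
    rw [show y * t * y⁻¹ * t⁻¹ = y * (t * y * t⁻¹)⁻¹ by group, ht, inv_inv] at h3
    have h4 := h3.pow_right 2
    rw [← sq, ← pow_mul, show 2 * 2 = 3 + 1 from rfl, pow_succ, ← hy, pow_orderOf_eq_one, one_mul] at h4
    exact mem_fx.2 ⟨hv, h4⟩
  have := card_le_ix2 h
  rwa [ix_conj hn, ← sq] at this

theorem num {i z d : ℕ} (h1 : i * z = d) (h2 : d ≤ i ^ 2) (h3 : i ≤ z) {k : ℕ} (hk : d = k * k) (h0 : 0 < k) :
    z = k := by
  have h4 : k ≤ i := by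
    by_contra c
    push Not at c
    nlinarith
  have h5 : z ≤ k := by
    by_contra c
    push Not at c
    nlinarith
  omega

end

theorem main (hP : ParThm.{u}) (h5 : PW5Thm.{u}) {G : Type u} [Group G] [Finite G] (h8 : Ord8 G) {p : ℕ}
    {M Q T U0 U1 U2 : Subgroup G} {y1 y2 : G} (h : DT p M Q T U0 U1 U2 y1 y2)
    (om2 : ∀ t ∈ U0, t ∉ Q → fx (𝛀[2] Q) t = 𝛀[2] U2) (jj : 𝐉[2] T ≤ U2 ∨ Nat.card (𝛀[2] Q) = 8)
    (sz : (p = 5 ∧ Nat.card (𝛀[2] Q) = 16 ∧ Nat.card (𝛀[2] U2) = 4) ∨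
      (p = 7 ∧ Nat.card (𝛀[2] Q) = 8 ∧ Nat.card (𝛀[2] U2) = 4) ∨
      (p = 7 ∧ Nat.card (𝛀[2] Q) = 64 ∧ Nat.card (𝛀[2] U2) = 16)) : FF p M Q T U0 U1 U2 y1 y2 := by
  have : Fact (Nat.Prime 2) := ⟨Nat.prime_two⟩
  have f1 := hP G T U1 y1 h.s1.par
  have f2 := hP G T U2 y2 h.s2.par
  obtain ⟨t0, ht0, ht0'⟩ : ∃ t ∈ U0, t ∉ Q := by
    by_contra c
    push Not at c
    have h1 := card_le_of_le (show U0 ≤ Q from c)
    have h2 := Nat.card_pos (α := Q)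
    have h3 := h.card0
    omega
  have up : ∀ U, Q ≤ U → 𝛀[2] U ≤ 𝛀[2] Q := fun U hU w hw =>
    have c := cent_mono hU (ozc_le_cent U hw)
    mem_ozc.2 ⟨h.lc.cQ c, c, (mem_ozc.1 hw).2.2⟩
  have QT : Q ≤ T := (h.le0.trans h.s1.le0).trans h.s1.par.le
  have dn : ∀ U, Q ≤ U → U ≤ T → 𝛀[2] T ≤ 𝛀[2] U := fun U h1 h2 w hw =>
    mem_ozc.2 ⟨h1 (ozc_le Q (up T QT hw)), cent_mono h2 (ozc_le_cent T hw), (mem_ozc.1 hw).2.2⟩
  have ZD : 𝛀[2] T ≤ 𝛀[2] U2 := dn U2 (h.le0.trans h.s2.le0) h.s2.par.le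
  have om1 : 𝛀[2] U1 = 𝛀[2] T := by
    refine le_antisymm (fun w hw => ?_) (dn U1 (h.le0.trans h.s1.le0) h.s1.par.le)
    have c1 := ozc_le_cent U1 hw
    have h1 : w ∈ 𝛀[2] U2 := om2 t0 ht0 ht0' ▸
      mem_fx.2 ⟨up U1 (h.le0.trans h.s1.le0) hw, (cmm c1 (h.s1.le0 ht0)).symm⟩
    have h2 : T ≤ centralizer {w} := by
      rw [← h.sup]
      exact sup_le (fun a ha => mem_centralizer_singleton_iff.2 (cmm c1 ha).eq)
        fun a ha => mem_centralizer_singleton_iff.2 (cmm (ozc_le_cent U2 h1) ha).eq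
    exact mem_ozc.2 ⟨h.s1.par.le (ozc_le U1 hw), fun a ha => mem_centralizer_singleton_iff.1 (h2 ha),
      (mem_ozc.1 hw).2.2⟩
  have c1 : y1 ∈ 𝒞(𝛀[2] T) := f1.gen _ (le_cent_ozc T) (om1 ▸ norm_le_norm_ozc U1 h.s1.par.nU)
  have TD : T ≤ 𝒩(𝛀[2] U2) := le_norm_ozc f2.nT
  have yD : y2 ∈ 𝒩(𝛀[2] U2) := norm_le_norm_ozc U2 h.s2.par.nU
  have cD : ∀ {a b : G}, a ∈ 𝛀[2] U2 → b ∈ U2 → Commute a b := fun ha hb => (cmm (ozc_le_cent U2 ha) hb).symm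
  have ff : fx (𝛀[2] U2) y2 = ⊥ := by
    by_contra hne
    have hn : T ≤ 𝒩(fx (𝛀[2] U2) y2) := le_normalizer_iff.2 fun t ht v hv => by
      obtain ⟨h1, h2⟩ := mem_fx.1 hv
      by_cases c : t ∈ U2
      · rwa [← (cD h1 c).eq, mul_inv_cancel_right]
      · have h3 := CL.Even.conj_mem (TD ht) h1
        have h4 := (h2.conj t).inv_right.mul_right (cD h3 (h.s2.par.inv t ht c))
        rw [inv_mul_cancel_left] at h4
        exact mem_fx.2 ⟨h3, h4⟩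
    obtain ⟨⟨z, hz, hzc⟩, z1⟩ := ne_bot_iff_exists_ne_one.1
      (inf_cent_ne_bot ((ozc_isP U2).to_inf_left) h.s2.par.two hn hne)
    obtain ⟨h1, h2⟩ := mem_fx.1 hz
    have h3 : z ∈ 𝛀[2] T := mem_ozc.2 ⟨h.s2.par.le (ozc_le U2 h1), hzc, (mem_ozc.1 h1).2.2⟩
    have h4 : M ≤ centralizer {z} := by
      rw [← h.gen]
      exact sup_le (sup_le (fun a ha => mem_centralizer_singleton_iff.2 (cmm hzc ha).eq)
        (zpowers_le.2 (mem_centralizer_singleton_iff.2 (cmm c1 h3).symm.eq)))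
        (zpowers_le.2 (mem_centralizer_singleton_iff.2 h2.symm.eq))
    exact z1 (Subtype.ext (h.lc.nz h8 (by rw [← pow_two]; exact (mem_ozc.1 h1).2.2)
      fun g hg => mem_centralizer_singleton_iff.1 (h4 hg)))
  have zt : ∀ t ∈ T, t ∉ U2 → fx (𝛀[2] U2) t = 𝛀[2] T := fun t ht c => by
    refine le_antisymm (fun v hv => ?_) fun v hv => mem_fx.2 ⟨ZD hv, (cmm (ozc_le_cent T hv) ht).symm⟩
    obtain ⟨h1, h2⟩ := mem_fx.1 hv
    refine mem_ozc.2 ⟨h.s2.par.le (ozc_le U2 h1), fun s hs => ?_, (mem_ozc.1 h1).2.2⟩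
    by_cases c' : s ∈ U2
    · exact (cD h1 c').symm.eq
    · have := (cD h1 (f2.mulm s hs t ht c' c)).mul_right h2.inv_right
      rw [mul_inv_cancel_right] at this
      exact this.symm.eq
  have cz : ∀ k, 0 < k → Nat.card (𝛀[2] U2) = k * k → Nat.card (𝛀[2] T) = k := fun k h0 hk => by
    obtain ⟨t, ht, c, e⟩ := f2.ex
    have h1 := ix_mul_card (𝛀[2] U2) t
    have h2 := ix_le (ozc_elem U2) (TD ht) (le_cent_ozc U2 (f2.mulm t ht t ht c c))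
    rw [zt t ht c] at h1 h2
    exact num h1 (free3 h.s2.par.ord yD ff e) h2 hk h0
  have n7 : p = 7 → ∀ z ∈ 𝛀[2] T, z ≠ 1 → NoTv Q T z := fun e z hz z1 => by
    refine (h.pw e).1 z hz z1 (cmm c1 hz) ?_
    have ha := ZD hz
    have hb := CL.Even.conj_mem yD ha
    have hc := conj_mem' yD ha
    refine (eq_bot_iff_forall _).1 ff _ (mem_fx.2 ⟨mul_mem (mul_mem ha hb) hc, ?_⟩)
    have y3 : y2 * y2 = y2⁻¹ := by
      rw [← mul_eq_one_iff_eq_inv, ← pow_three', ← h.s2.par.ord, pow_orderOf_eq_one]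
    have h3 : y2 * (z * (y2 * z * y2⁻¹) * (y2⁻¹ * z * y2)) * y2⁻¹ = z * (y2 * z * y2⁻¹) * (y2⁻¹ * z * y2) := by
      rw [show y2 * (z * (y2 * z * y2⁻¹) * (y2⁻¹ * z * y2)) * y2⁻¹ =
        y2 * z * y2⁻¹ * (y2 * y2 * z * (y2 * y2)⁻¹) * z by group, y3, inv_inv,
        ← (cD ha (ozc_le U2 (mul_mem hb hc))).eq, ← mul_assoc z]
    exact (mul_inv_eq_iff_eq_mul.1 h3).symm
  refine { h with om2 := om2, om1 := om1, c1 := c1, f2 := ff, zt := zt, sz := ?_, jj := jj, ntv := ?_ }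
  · rcases sz with ⟨a, b, c⟩ | ⟨a, b, c⟩ | ⟨a, b, c⟩
    exacts [.inl ⟨a, b, c, cz 2 two_pos c⟩, .inr (.inl ⟨a, b, c, cz 2 two_pos c⟩),
      .inr (.inr ⟨a, b, c, cz 4 four_pos c⟩)]
  · rcases sz with ⟨a, b, -⟩ | ⟨a, -⟩ | ⟨a, -⟩
    · obtain ⟨x, hx, e⟩ := h.ex
      exact fun z hz z1 => h5 G h8 Q T x z h.lc.two (h.lc.nQ hx) (e.trans a) b (up T QT hz) z1
    exacts [n7 a, n7 a]

end FFx

theorem ffThm (hP : ParThm.{u}) (h0 : FF0Thm.{u}) (h5 : PW5Thm.{u}) : FFThm.{u} := by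
  intro G _ _ h8 p M Q T U0 U1 U2 y1 y2 h hJ
  obtain ⟨U, rfl | rfl, a, b, c⟩ := h0 G h8 p M Q T U0 U1 U2 y1 y2 h.toDT0 hJ
  · exact .inr (FFx.main hP h5 h8 h.symm a b c)
  · exact .inl (FFx.main hP h5 h8 h a b c)

end CL.O8
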