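/-
Project O8: an offender on `Ω₁(Z(R))` has order at most 2 modulo `R`.
-/
import Cfsg.Agent.O8.A

set_option autoImplicit false
set_option linter.unusedVariables false
set_option linter.unusedSectionVars false

open Cfsg Subgroup CL.Grp CL.Even CL.Loc CL.NGrp
open scoped commutatorElement

namespace CL.O8

universe u

namespace FFA

variable {G : Type u} [Group G] [Finite G] {H R O A V W M : Subgroup G} {a b y o e f v : G}

theorem cc (ha : a ∈ 𝒩(R)) (h1 : ⁅a, y⁆ ∈ R) (h2 : ⁅b, y⁆ ∈ R) : ⁅a * b, y⁆ ∈ R := by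
  have : ⁅a * b, y⁆ = a * ⁅b, y⁆ * a⁻¹ * ⁅a, y⁆ := by simp only [commutatorElement_def]; group
  rw [this]; exact mul_mem (conj_mem ha h2) h1

theorem ii (ha : a ∈ 𝒩(R)) (hy : y ∈ 𝒩(R)) (h1 : a * y * a⁻¹ * y ∈ R) (h2 : b * y * b⁻¹ * y ∈ R) :
    ⁅a * b, y⁆ ∈ R := by
  have : ⁅a * b, y⁆ = a * (b * y * b⁻¹ * y) * a⁻¹ * (y * (a * y * a⁻¹ * y) * y⁻¹)⁻¹ := by
    simp only [commutatorElement_def]; group
  rw [this]; exact mul_mem (conj_mem ha h2) (inv_mem (conj_mem hy h1))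

theorem ic (ha : a ∈ 𝒩(R)) (h1 : a * y * a⁻¹ * y ∈ R) (h2 : ⁅b, y⁆ ∈ R) : a * b * y * (a * b)⁻¹ * y ∈ R := by
  have : a * b * y * (a * b)⁻¹ * y = a * ⁅b, y⁆ * a⁻¹ * (a * y * a⁻¹ * y) := by
    simp only [commutatorElement_def]; group
  rw [this]; exact mul_mem (conj_mem ha h2) h1

theorem nm3 (hR : IsPGroup 2 R) (hy : orderOf y = 3) : y ∉ R := fun m => by
  have := eq_one_of_coprime_of_mem hR (by rw [hy]; decide) m
  rw [this, orderOf_one] at hy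
  omega

theorem cube (hy : orderOf y = 3) : y * y * y = 1 := by
  have := pow_orderOf_eq_one y
  rwa [hy, pow_succ, pow_two] at this

theorem zp3 (hy : orderOf y = 3) (h : b ∈ zpowers y) : b = 1 ∨ b = y ∨ b = y⁻¹ := by
  obtain ⟨k, rfl⟩ := h
  have h3 : y ^ (3 : ℤ) = 1 := by rw [← pow_orderOf_eq_one y, hy]; exact zpow_natCast y 3
  obtain ⟨m, rfl | rfl | rfl⟩ : ∃ m, k = 3 * m ∨ k = 3 * m + 1 ∨ k = 3 * m - 1 := ⟨(k + 1) / 3, by omega⟩
  · left; simp only [zpow_mul, h3, one_zpow]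
  · right; left; simp only [zpow_add, zpow_mul, h3, one_zpow, zpow_one, one_mul]
  · right; right; simp only [zpow_sub, zpow_mul, h3, one_zpow, zpow_one, one_mul]

theorem dich (hR : IsPGroup 2 R) (ha : a ∈ 𝒩(R)) (hy : y ∈ 𝒩(R)) (o3 : orderOf y = 3)
    (h : a * y * a⁻¹ ∈ zpowers y ⊔ R) : ⁅a, y⁆ ∈ R ∨ a * y * a⁻¹ * y ∈ R := by
  obtain ⟨b, hb, r, hr, e⟩ := (mem_sup_nr (zpowers_le.2 hy)).1 h
  rcases zp3 o3 hb with rfl | rfl | rfl
  · rw [one_mul] at e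
    have := conj_mem' ha hr
    rw [e, show a⁻¹ * (a * y * a⁻¹) * a = y by group] at this
    exact (nm3 hR o3 this).elim
  · left; rw [commutatorElement_def, ← e]; exact conj_mem hy hr
  · right; rw [← e]; exact conj_mem' hy hr

theorem lift (h : Ord8 G) (F : Fit3 H R O) (ho : o ∈ O) (hn : o ∉ R) :
    ∃ r ∈ R, orderOf (o * r) = 3 := by
  obtain ⟨k, hk⟩ := isPGroup_iff_forall.1 F.two _ (F.cube o ho)
  have h8 := h.two_el hk
  refine ⟨(o ^ 3) ^ 5, pow_mem (F.cube o ho) 5, orderOf_eq_prime ?_ fun e => hn ?_⟩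
  · calc (o * (o ^ 3) ^ 5) ^ 3 = ((o ^ 3) ^ 8) ^ 2 := by group
      _ = 1 := by rw [h8, one_pow]
  · rw [eq_inv_of_mul_eq_one_left e]; exact inv_mem (pow_mem (F.cube o ho) 5)

theorem not_cyc {X : Type u} [Group X] {B : Subgroup X} {v w : X} (hv : v ∈ B) (hw : w ∈ B) (v1 : v ≠ 1) (w1 : w ≠ 1)
    (hne : v ≠ w) (sq : ∀ v ∈ B, v ^ 2 = 1) : ¬ IsCyclic B := by
  intro hc
  obtain ⟨c, hc⟩ := hc.exists_generator
  have h2 : c ^ (2 : ℤ) = 1 := by rw [zpow_two, ← pow_two]; exact Subtype.ext (sq c c.2)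
  have key : ∀ x : B, x = 1 ∨ x = c := fun x => by
    obtain ⟨k, rfl⟩ := hc x
    obtain ⟨m, rfl | rfl⟩ := Int.even_or_odd' k
    · left; simp only [zpow_mul, h2, one_zpow]
    · right; simp only [zpow_add, zpow_mul, h2, one_zpow, zpow_one, one_mul]
  rcases key ⟨v, hv⟩ with h | h
  · exact v1 (congrArg Subtype.val h)
  rcases key ⟨w, hw⟩ with h' | h'
  · exact w1 (congrArg Subtype.val h')
  exact hne (congrArg Subtype.val (h.trans h'.symm))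

/-- generation of `O / R` by the fixed points -/
theorem gen (F : Fit3 H R O) (hAH : A ≤ H) (hA : IsElementaryAbelian 2 A) (hn : ¬ R.relIndex A ≤ 2) (hRM : R ≤ M)
    (h : ∀ a ∈ A, a ∉ R → ∀ o ∈ O, ⁅a, o⁆ ∈ R → o ∈ M) : O ≤ M := by
  have hd : ¬ (R.subgroupOf A).index ∣ 2 := fun d => hn (Nat.le_of_dvd two_pos d)
  rw [index_dvd_two_iff] at hd
  push Not at hd
  obtain ⟨b0, -, h0⟩ := hd 1
  obtain ⟨b1, h1, h2⟩ := hd b0
  have : (R.subgroupOf H).Normal := (normal_subgroupOf_iff_le_normalizer (F.RO.trans F.OH)).2 F.nR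
  have : (O.subgroupOf H).Normal := (normal_subgroupOf_iff_le_normalizer F.OH).2 F.nO
  let π := QuotientGroup.mk' (R.subgroupOf H)
  have k1 : ∀ x : H, π x = 1 ↔ (x : G) ∈ R := fun x => QuotientGroup.eq_one_iff x
  have hN : ((O.subgroupOf H).map π).Normal := Normal.map inferInstance π (QuotientGroup.mk'_surjective _)
  have sq : ∀ v ∈ (A.subgroupOf H).map π, v ^ 2 = 1 := by
    rintro _ ⟨x, hx, rfl⟩
    rw [← map_pow, show x ^ 2 = 1 from Subtype.ext (hA.2 _ hx), map_one]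
  have : IsMulCommutative ((A.subgroupOf H).map π) := ⟨⟨by
    rintro ⟨_, x, hx, rfl⟩ ⟨_, y, hy, rfl⟩
    refine Subtype.ext ?_
    change π x * π y = π y * π x
    rw [← map_mul, ← map_mul]
    exact congrArg π (Subtype.ext ((elem_iff.1 hA).1 hy _ hx))⟩⟩
  have hle : (O.subgroupOf H).map π ≤ (M.subgroupOf H).map π := by
    refine le_of_forall_centralizer_le (A := (A.subgroupOf H).map π)
      (not_cyc (v := π ⟨b0, hAH b0.2⟩) (w := π ⟨b1, hAH b1.2⟩) ⟨_, b0.2, rfl⟩ ⟨_, b1.2, rfl⟩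
        (fun e => h0 ((k1 _).1 e)) (fun e => h2 ((k1 _).1 e)) (fun e => h1 ?_) sq)
      (le_top.trans (normalizer_eq_top_iff.2 hN).ge) ?_ ?_
    · refine (k1 (⟨b1, hAH b1.2⟩ * ⟨b0, hAH b0.2⟩)).1 ?_
      rw [map_mul, ← e, ← pow_two]
      exact sq _ ⟨_, b0.2, rfl⟩
    · refine IsPGroup.coprime_card_of_ne 2 3 (by decide) _ _ (isPGroup_iff_forall.2 fun x hx => ⟨1, sq x hx⟩)
        (isPGroup_iff_forall.2 ?_)
      rintro _ ⟨x, hx, rfl⟩
      exact ⟨1, by rw [pow_one, ← map_pow]; exact (k1 _).2 (F.cube _ hx)⟩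
    · rintro _ ⟨x, hx, rfl⟩ x1 _ ⟨⟨o, ho, rfl⟩, hc⟩
      refine ⟨o, h x hx (fun m => x1 ((k1 _).2 m)) o ho ((k1 ⁅x, o⁆).1 ?_), rfl⟩
      rw [map_commutatorElement, commutatorElement_eq_one_iff_mul_comm]
      exact (mem_centralizer_singleton_iff.1 hc).symm
  intro o ho
  obtain ⟨m, hm, e⟩ := hle ⟨⟨o, F.OH ho⟩, ho, rfl⟩
  have : (m : G)⁻¹ * o ∈ R := (k1 (m⁻¹ * ⟨o, F.OH ho⟩)).1 (by rw [map_mul, map_inv, e, inv_mul_cancel])
  simpa using mul_mem (show (m : G) ∈ M from hm) (hRM this)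

theorem four (hW : IsPGroup 2 W) (hne : W ≠ ⊥) (hy : y ∈ 𝒩(W)) (h : fx W y = ⊥) : 4 ≤ Nat.card W := by
  obtain ⟨⟨w, hw⟩, w1⟩ := ne_bot_iff_exists_ne_one.1 hne
  have := Fintype.ofFinite W
  have h2 : 2 < Nat.card W := by
    rw [Nat.card_eq_fintype_card, Fintype.two_lt_card_iff]
    refine ⟨1, ⟨w, hw⟩, ⟨_, conj_mem hy hw⟩, w1.symm, fun e => w1 (Subtype.ext ?_), fun e => w1 (Subtype.ext ?_)⟩
    · exact conj_eq_one_iff.1 (congrArg Subtype.val e).symm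
    · exact mem_bot.1 (h ▸ mem_fx.2 ⟨hw, (mul_inv_eq_iff_eq_mul.1 (congrArg Subtype.val e).symm).symm⟩)
  obtain ⟨k, hk⟩ := IsPGroup.iff_card.1 hW
  rw [hk] at h2 ⊢
  obtain _ | _ | k := k
  · omega
  · omega
  · calc 4 = 2 ^ 2 := rfl
      _ ≤ _ := Nat.pow_le_pow_right two_pos (by omega)

theorem norm_fx (hW : y ∈ 𝒩(W)) (hc : Commute y b) : y ∈ 𝒩(fx W b) :=
  le_norm_inf (L := zpowers y) (zpowers_le.2 hW) (le_norm_of_le (zpowers_le.2 (mem_centralizer_singleton_iff.2 hc)))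
    (mem_zpowers y)

/-- the size of `[V, E]` -/
theorem big (hE : E9Thm.{u}) (h : Ord8 G) (hV : IsElementaryAbelian 2 V) (N : Nine e f) (he : e ∈ 𝒩(V))
    (hf : f ∈ 𝒩(V)) (h1 : ∀ v ∈ V, Commute v e ↔ Commute v f) (h3 : e * f ∉ 𝒞(V)) (h4 : e * f⁻¹ ∉ 𝒞(V)) :
    16 ≤ ix V e ∧ 16 ≤ ix V f := by
  have := hV.1
  have e3 : IsPGroup 3 (zpowers e) := isPGroup_zpowers (k := 1) (by rw [pow_one, ← N.oe, pow_orderOf_eq_one])
  have f3 : IsPGroup 3 (zpowers f) := isPGroup_zpowers (k := 1) (by rw [pow_one, ← N.of, pow_orderOf_eq_one])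
  have hE3 : IsPGroup 3 ↥(zpowers e ⊔ zpowers f) := isPGroup_sup e3 f3 (zpowers_le.2 (cent_le_norm _ (by
    rintro _ ⟨k, rfl⟩; exact (N.comm.zpow_right k).symm.eq)))
  obtain ⟨E, hEd⟩ : ∃ E, E = zpowers e ⊔ zpowers f := ⟨_, rfl⟩
  have eE : e ∈ E := hEd ▸ mem_sup_left (mem_zpowers e)
  have fE : f ∈ E := hEd ▸ mem_sup_right (mem_zpowers f)
  have hEV : E ≤ 𝒩(V) := hEd ▸ sup_le (zpowers_le.2 he) (zpowers_le.2 hf)
  have cE : ∀ v, Commute v e → Commute v f → v ∈ 𝒞(E) := fun v a b x hx => mem_centralizer_singleton_iff.1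
    ((hEd ▸ sup_le (zpowers_le.2 (mem_centralizer_singleton_iff.2 a.symm.eq))
      (zpowers_le.2 (mem_centralizer_singleton_iff.2 b.symm.eq)) : E ≤ centralizer {v}) hx)
  rw [← hEd] at hE3
  have cop : (Nat.card E).Coprime (Nat.card V) := IsPGroup.coprime_card_of_ne 3 2 (by decide) _ _ hE3 (elem_isP hV)
  have k1 := commutator_sup_centralizer_eq hEV cop (Or.inl (isSolvable_of_isPGroup hE3))
  have k2 := inf_centralizer_inf_commutator_eq_bot hEV cop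
  have hEY : E ≤ 𝒩(⁅V, E⁆) := le_norm_commutator hEV le_normalizer
  have hYV : ⁅V, E⁆ ≤ V := commutator_le_of_le_norm hEV
  obtain ⟨Y, hY⟩ : ∃ Y, Y = ⁅V, E⁆ := ⟨_, rfl⟩
  rw [← hY] at k1 k2 hEY hYV
  have Y2 : IsPGroup 2 Y := (elem_isP hV).to_le hYV
  have b1 : fx Y e = ⊥ := eq_bot_iff.2 fun v hv => k2.le
    ⟨⟨hYV hv.1, cE v (mem_fx.1 hv).2 ((h1 v (hYV hv.1)).1 (mem_fx.1 hv).2)⟩, hv.1⟩
  have b2 : fx Y f = ⊥ := eq_bot_iff.2 fun v hv => k2.le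
    ⟨⟨hYV hv.1, cE v ((h1 v (hYV hv.1)).2 (mem_fx.1 hv).2) (mem_fx.1 hv).2⟩, hv.1⟩
  obtain ⟨g1, -, -, -, g5⟩ := hE G h Y e f Y2 N (hEY eE) (hEY fE)
  have g6 := g5 (hYV.trans ((elem_iff.1 hV).1.trans (cent_mono hYV))) (by rw [b1, bot_inf_eq])
  rw [b1, b2, bot_sup_eq, bot_sup_eq] at g1
  rw [b1, b2, card_bot, one_mul, one_mul] at g6
  have cV : ∀ x ∈ E, Y ≤ fx Y x → x ∈ 𝒞(V) := fun x hx hle v hv => mem_centralizer_singleton_iff.1
    ((k1 ▸ sup_le (hle.trans inf_le_right) fun c hc => mem_centralizer_singleton_iff.2 (hc.2 x hx).symm :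
      V ≤ centralizer {x}) hv)
  have sub : ∀ x, fx (fx Y x) e = ⊥ := fun x => eq_bot_iff.2 fun v hv => b1.le ⟨hv.1.1, hv.2⟩
  have w3 : 4 ≤ Nat.card (fx Y (e * f)) := four (Y2.to_le inf_le_left)
    (fun b => h4 (cV _ (mul_mem eE (inv_mem fE)) (by rwa [b, bot_sup_eq] at g1)))
    (norm_fx (hEY eE) ((Commute.refl e).mul_right N.comm)) (sub _)
  have w4 : 4 ≤ Nat.card (fx Y (e * f⁻¹)) := four (Y2.to_le inf_le_left)
    (fun b => h3 (cV _ (mul_mem eE fE) (by rwa [b, sup_bot_eq] at g1)))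
    (norm_fx (hEY eE) ((Commute.refl e).mul_right N.comm.inv_right)) (sub _)
  have c16 : 16 ≤ Nat.card Y := g6 ▸ Nat.mul_le_mul w3 w4
  have fin : ∀ x, fx Y x = ⊥ → 16 ≤ ix V x := fun x hx => by
    have a1 := ix_mul_card Y x
    rw [hx, card_bot, mul_one] at a1
    exact (c16.trans a1.ge).trans (relIndex_le_of_le_right hYV index_ne_zero_of_finite)
  exact ⟨fin e b1, fin f b2⟩

theorem free (hRV : R ≤ 𝒞(V)) (o3 : orderOf y = 3) (hi : a * y * a⁻¹ * y ∈ R) (hv : v ∈ V) (h1 : Commute v a)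
    (h2 : Commute v (y * a * y⁻¹)) : Commute v y := by
  have h3 : Commute v (a * y * a⁻¹ * y) := comm_of_mem (hRV hi) hv
  have h4 := h3.inv_right.mul_right (h1.mul_right h2.inv_right)
  have : (a * y * a⁻¹ * y)⁻¹ * (a * (y * a * y⁻¹)⁻¹) = y := by
    calc _ = (y * y * y)⁻¹ * y := by group
      _ = y := by rw [cube o3, inv_one, one_mul]
  rwa [this] at h4

theorem ix_cj (hy : y ∈ 𝒩(V)) (a : G) : ix V (y * a * y⁻¹) = ix V a := by
  have h1 := relIndex_conj_smul y (centralizer {a}) V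
  have h2 : cj y (centralizer {a}) = centralizer {y * a * y⁻¹} := by
    ext x
    rw [mem_cj, mem_centralizer_singleton_iff, mem_centralizer_singleton_iff]
    exact ⟨fun e => by
      calc x * (y * a * y⁻¹) = y * (y⁻¹ * x * y * a) * y⁻¹ := by group
        _ = _ := by rw [e]; group, fun e => by
      calc y⁻¹ * x * y * a = y⁻¹ * (x * (y * a * y⁻¹)) * y := by group
        _ = _ := by rw [e]; group⟩
  change (cj y (centralizer {a})).relIndex (cj y V) = _ at h1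
  rwa [h2, cj_eq hy] at h1

theorem ix_le {X : Subgroup G} (h : V ⊓ X ≤ centralizer {y}) : ix V y ≤ X.relIndex V := by
  rw [← inf_relIndex_left]
  exact relIndex_le_of_le_left h index_ne_zero_of_finite

end FFA

open FFA in
theorem ffaThm (h9 : L9Thm.{u}) (hE : E9Thm.{u}) (h1 : LY1Thm.{u}) : FFAThm.{u} := by
  intro G _ _ h H R O A F hC hAH hA hix
  by_contra hn
  have aa : ∀ a ∈ A, a * a = 1 := fun a ha => by rw [← pow_two]; exact hA.2 a ha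
  have B := fun (a : G) (ha : a ∈ A) (an : a ∉ R) (y : G) (hy : y ∈ O) (o3 : orderOf y = 3) (c : ⁅a, y⁆ ∈ R) =>
    (h1 G h H R O y a F (F.OH hy) o3 (hAH ha) an (aa a ha ▸ one_mem _) c).2
  have nO : ∀ {y}, y ∈ O → y ∈ 𝒩(R) := fun hy => F.nR (F.OH hy)
  have nA : ∀ {a}, a ∈ A → a ∈ 𝒩(R) := fun ha => F.nR (hAH ha)
  have cr : ∀ a ∈ A, ∀ o ∈ O, ∀ r ∈ R, ⁅a, o⁆ ∈ R → ⁅a, o * r⁆ ∈ R := fun a ha o ho r hr c => by
    have : ⁅a, o * r⁆ = ⁅a, o⁆ * (o * (a * r * a⁻¹ * r⁻¹) * o⁻¹) := by simp only [commutatorElement_def]; group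
    rw [this]; exact mul_mem c (conj_mem (nO ho) (mul_mem (conj_mem (nA ha) hr) (inv_mem hr)))
  have inR : ∀ a ∈ A, (∀ o ∈ O, ⁅a, o⁆ ∈ R) → a ∈ R := fun a ha k => by
    have := F.cube a (F.self a (hAH ha) k)
    rwa [pow_succ, pow_two, aa a ha, one_mul] at this
  -- a pair outside a subgroup `M`
  have ex : ∀ M : Subgroup G, R ≤ M → ¬ O ≤ M →
      ∃ a ∈ A, a ∉ R ∧ ∃ y ∈ O, y ∉ M ∧ orderOf y = 3 ∧ ⁅a, y⁆ ∈ R := fun M hM hO => by
    by_contra hh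
    refine hO (gen F hAH hA hn hM fun a ha an o ho c => ?_)
    by_contra om
    obtain ⟨r, hr, o3⟩ := lift h F ho fun m => om (hM m)
    exact hh ⟨a, ha, an, o * r, mul_mem ho (F.RO hr), fun m => om ((mul_mem_cancel_right (hM hr)).1 m), o3,
      cr a ha o ho r hr c⟩
  obtain ⟨a1, ha1, an1, y1, hy1, -, o1, c1⟩ := ex R le_rfl fun k => hn (by
    have : A ≤ R := fun a ha => inR a ha fun o ho => mul_mem (conj_mem (nA ha) (k ho)) (inv_mem (k ho))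
    rw [relIndex_eq_one.2 this]; decide)
  obtain ⟨a2, ha2, an2, y0, hy0, n0, o0, c0⟩ := ex (zpowers y1 ⊔ R) le_sup_right fun k => an1 (inR a1 ha1 fun o ho => by
    obtain ⟨b, hb, r, hr, rfl⟩ := (mem_sup_nr (zpowers_le.2 (nO hy1))).1 (k ho)
    refine cr a1 ha1 b (zpowers_le.2 hy1 hb) r hr ?_
    rcases zp3 o1 hb with rfl | rfl | rfl
    · simp
    · exact c1
    · have := inv_mem (conj_mem' (nO hy1) c1)
      rwa [show (y1⁻¹ * ⁅a1, y1⁆ * y1)⁻¹ = ⁅a1, y1⁻¹⁆ by simp only [commutatorElement_def]; group] at this)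
  obtain ⟨r, hr, N⟩ := h9 G h R y1 y0 F.two o1 (nO hy1) (nO hy0) (F.cube _ hy0)
    ((B a1 ha1 an1 y1 hy1 o1 c1).1 _ hy0) n0
  have hy2 : y0 * r ∈ O := mul_mem hy0 (F.RO hr)
  have n2 : y0 * r ∉ zpowers y1 ⊔ R := fun m => n0 ((mul_mem_cancel_right (mem_sup_right hr)).1 m)
  have c2 := cr a2 ha2 y0 hy0 r hr c0
  obtain ⟨y2, hy2d⟩ : ∃ y2, y2 = y0 * r := ⟨_, rfl⟩
  rw [← hy2d] at N hy2 n2 c2
  have o2 := N.of
  have both : ∀ a ∈ A, ⁅a, y1⁆ ∈ R → ⁅a, y2⁆ ∈ R → a ∈ R := fun a ha k1 k2 => by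
    by_contra an
    exact n2 ((B a ha an y1 hy1 o1 k1).2.1 _ hy2 k2)
  have dd : ∀ b ∈ A, b ∉ R → ∀ y ∈ O, orderOf y = 3 → ⁅b, y⁆ ∈ R → ∀ a ∈ A, ⁅a, y⁆ ∈ R ∨ a * y * a⁻¹ * y ∈ R :=
    fun b hb bn y hy o3 c a ha => dich F.two (nA ha) (nO hy) o3 ((B b hb bn y hy o3 c).2.1 _
      (conj_mem (F.nO (hAH ha)) hy) (by
        have k : a * b * a⁻¹ = b := by rw [(elem_iff.1 hA).1 hb a ha, mul_inv_cancel_right]
        have := conj_mem (nA ha) c
        rwa [conjugate_commutatorElement, k] at this))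
  have d1 := dd a1 ha1 an1 y1 hy1 o1 c1
  have d2 := dd a2 ha2 an2 y2 hy2 o2 c2
  have i21 := (d1 a2 ha2).resolve_left fun k => an2 (both a2 ha2 k c2)
  have i12 := (d2 a1 ha1).resolve_left fun k => an1 (both a1 ha1 c1 k)
  -- the index is at most four
  have n4 : R.relIndex A ≤ 4 := by
    have hs : Function.Surjective fun p : Bool × Bool =>
        ((cond p.1 ⟨a2, ha2⟩ 1 * cond p.2 ⟨a1, ha1⟩ 1 : A) : A ⧸ R.subgroupOf A) := fun q => by
      obtain ⟨a, rfl⟩ := QuotientGroup.mk_surjective q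
      have key : ∀ c : A, (a : G) * c ∈ R → (c : A ⧸ R.subgroupOf A) = a := fun c k =>
        (QuotientGroup.eq.2 (by
          rw [mem_subgroupOf, coe_mul, coe_inv, inv_eq_of_mul_eq_one_right (aa _ a.2)]; exact k)).symm
      rcases d1 a a.2 with k1 | k1 <;> rcases d2 a a.2 with k2 | k2
      · exact ⟨(false, false), key _ (by simpa using both _ a.2 k1 k2)⟩
      · exact ⟨(false, true), key _ (by
          simpa using both _ (mul_mem a.2 ha1) (cc (nA a.2) k1 c1) (ii (nA a.2) (nO hy2) k2 i12))⟩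
      · exact ⟨(true, false), key _ (by
          simpa using both _ (mul_mem a.2 ha2) (ii (nA a.2) (nO hy1) k1 i21) (cc (nA a.2) k2 c2))⟩
      · have m := mul_mem a.2 ha2
        exact ⟨(true, true), key _ (by
          simpa [mul_assoc] using both _ (mul_mem m ha1) (cc (nA m) (ii (nA a.2) (nO hy1) k1 i21) c1)
            (ii (nA m) (nO hy2) (ic (nA a.2) k2 c2) i12))⟩
    exact (Nat.card_le_card_of_surjective _ hs).trans (by simp)
  have hVR : 𝛀[2] R ≤ R := ozc_le R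
  have hRV : R ≤ 𝒞(𝛀[2] R) := le_cent_ozc R
  have hHV : H ≤ 𝒩(𝛀[2] R) := le_norm_ozc F.nR
  have hVe : IsElementaryAbelian 2 (𝛀[2] R) := ozc_elem R
  obtain ⟨V, hVd⟩ : ∃ V, V = 𝛀[2] R := ⟨_, rfl⟩
  rw [← hVd] at hVR hRV hHV hVe hC hix
  have y1m : y1 ∈ zpowers y1 ⊔ R := mem_sup_left (mem_zpowers y1)
  obtain ⟨s1, s2⟩ := big hE h hVe N (hHV (F.OH hy1)) (hHV (F.OH hy2))
    (fun v hv => ⟨(B a1 ha1 an1 y1 hy1 o1 c1).2.2 y2 hy2 N.comm.symm o2 v (hVR hv),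
      (B a2 ha2 an2 y2 hy2 o2 c2).2.2 y1 hy1 N.comm o1 v (hVR hv)⟩)
    (fun k => n2 ((mul_mem_cancel_left y1m).1 (mem_sup_right (hC ⟨F.OH (mul_mem hy1 hy2), k⟩))))
    (fun k => n2 (inv_mem_iff.1 ((mul_mem_cancel_left y1m).1
      (mem_sup_right (hC ⟨F.OH (mul_mem hy1 (inv_mem hy2)), k⟩)))))
  have t1 : 4 ≤ ix V a1 := by
    have k1 : ix V y2 ≤ (centralizer {a1} ⊓ centralizer {y2 * a1 * y2⁻¹} : Subgroup G).relIndex V :=
      ix_le fun v hv => mem_centralizer_singleton_iff.2 (free hRV o2 i12 hv.1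
        (mem_centralizer_singleton_iff.1 hv.2.1) (mem_centralizer_singleton_iff.1 hv.2.2))
    have k2 : 16 ≤ ix V a1 * ix V (y2 * a1 * y2⁻¹) := s2.trans (k1.trans relIndex_inf_le)
    rw [ix_cj (hHV (F.OH hy2))] at k2
    by_contra k3
    have k4 : ix V a1 ≤ 3 := by omega
    have := Nat.mul_le_mul k4 k4
    omega
  have hCa : 𝒞(A) ≤ centralizer {a1} := fun c hc => mem_centralizer_singleton_iff.2 (hc a1 ha1).symm
  have t2 : V ⊓ 𝒞(A) = fx V a1 := by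
    refine eq_of_le_of_card_ge (inf_le_inf_left _ hCa) ?_
    have k1 := ix_mul_card V a1
    have k2 := (𝒞(A).subgroupOf V).index_mul_card
    rw [← inf_subgroupOf_left, Nat.card_congr (subgroupOfEquivOfLe (inf_le_left : V ⊓ 𝒞(A) ≤ V)).toEquiv,
      inf_subgroupOf_left] at k2
    change 𝒞(A).relIndex V * _ = _ at k2
    have k3 := Nat.mul_le_mul_right (Nat.card (fx V a1)) t1
    have k4 := Nat.mul_le_mul_right (Nat.card ↥(V ⊓ 𝒞(A))) (hix.trans n4)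
    omega
  have t3 : ix V y1 ≤ 𝒞(A).relIndex V := ix_le fun v hv => mem_centralizer_singleton_iff.2 <| by
    refine free hRV o1 i21 hv.1 (hv.2 a2 ha2).symm ?_
    have k1 : Commute v (y1 * a1 * y1⁻¹) := by
      have k2 : Commute v ⁅a1, y1⁆ := comm_of_mem (hRV c1) hv.1
      have k3 : Commute v a1 := (hv.2 a1 ha1).symm
      have := k2.inv_right.mul_right k3
      rwa [show ⁅a1, y1⁆⁻¹ * a1 = y1 * a1 * y1⁻¹ by simp only [commutatorElement_def]; group] at this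
    have k4 : y1⁻¹ * v * y1 ∈ V ⊓ 𝒞(A) := t2 ▸ mem_fx.2 ⟨conj_mem' (hHV (F.OH hy1)) hv.1, by
      calc y1⁻¹ * v * y1 * a1 = y1⁻¹ * (v * (y1 * a1 * y1⁻¹)) * y1 := by group
        _ = _ := by rw [k1.eq]; group⟩
    calc v * (y1 * a2 * y1⁻¹) = y1 * (y1⁻¹ * v * y1 * a2) * y1⁻¹ := by group
      _ = _ := by rw [← k4.2 a2 ha2]; group
  omega

end CL.O8
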