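/-
Project O8: failure of factorisation in a solvable group of characteristic 2 (job O8-FFB).
-/
import Cfsg.Agent.O8.A

set_option autoImplicit false
set_option linter.unusedVariables false

open Cfsg Subgroup CL.Grp CL.Even CL.Loc CL.NGrp
open scoped commutatorElement

namespace CL.O8

universe u

namespace FFB

section aut

variable {A : Type*} [Group A] {α ξ η : MulAut A} {z : A}

/-- `α` is a transvection with centre `z` -/
structure Tv (α : MulAut A) (z : A) : Prop where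
  ne : z ≠ 1
  sq : ∀ v : A, v * v = 1
  cs : ∀ v, α v = v ∨ α v = v * z
  ex : ∃ v, α v = v * z

/-- the norm of `z` under `ξ` is trivial -/
def Nm (ξ : MulAut A) (z : A) : Prop := z * ξ z * ξ (ξ z) = 1

theorem Tv.comm (h : Tv α z) (v w : A) : v * w = w * v := by
  rw [← inv_eq_of_mul_eq_one_right (h.sq (v * w)), mul_inv_rev, inv_eq_of_mul_eq_one_right (h.sq v),
    inv_eq_of_mul_eq_one_right (h.sq w)]

theorem Tv.fix (h : Tv α z) (c : Commute α ξ) : ξ z = z := by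
  obtain ⟨v, hv⟩ := h.ex
  have e : α (ξ v) = ξ v * ξ z := by rw [← map_mul, ← hv]; exact DFunLike.congr_fun c.eq v
  rcases h.cs (ξ v) with k | k <;> rw [e] at k
  · exact absurd (by simpa using k) h.ne
  · exact mul_left_cancel k

theorem Tv.two (h : Tv α z) (hi : α * ξ * α⁻¹ = ξ⁻¹) (v : A) : ξ (ξ (α v)) = v ∨ ξ (ξ (α v)) = v * ξ z := by
  have e : ξ * α = α * ξ⁻¹ := by
    calc ξ * α = (α * ξ * α⁻¹)⁻¹ * α := by rw [hi, inv_inv]
      _ = _ := by group
  have e' : ξ (α v) = α (ξ⁻¹ v) := DFunLike.congr_fun e v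
  rw [e']
  rcases h.cs (ξ⁻¹ v) with k | k <;> rw [k] <;> simp

theorem Tv.twoz (h : Tv α z) (hi : α * ξ * α⁻¹ = ξ⁻¹) : ξ (ξ z) = z ∨ ξ (ξ z) = z * ξ z := by
  have := h.two hi z
  rwa [h.fix (Commute.refl α)] at this

theorem Tv.six (h : Tv α z) (hi : α * ξ * α⁻¹ = ξ⁻¹) : (ξ ^ 6) z = z := by
  change ξ (ξ (ξ (ξ (ξ (ξ z))))) = z
  rcases h.twoz hi with k | k
  · rw [k, k, k]
  · have k' : ξ (ξ (ξ z)) = z := by rw [k, map_mul, k, h.comm z, ← mul_assoc, h.sq, one_mul]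
    rw [k', k']

theorem Tv.three (h : Tv α z) (hi : α * ξ * α⁻¹ = ξ⁻¹) (h3 : ξ ^ 3 = 1) (h1 : ξ ≠ 1) : ξ z ≠ z ∧ Nm ξ z := by
  have c : ∀ w, ξ (ξ (ξ w)) = w := fun w => DFunLike.congr_fun h3 w
  have n : ξ z ≠ z := fun e => h1 (MulEquiv.ext fun w => by
    have k : ξ (ξ w) = w ∨ ξ (ξ w) = w * z := by
      obtain ⟨v, rfl⟩ := α.surjective w
      have k1 := h.two hi v
      rw [e] at k1
      rcases h.cs v with k2 | k2
      · rwa [k2] at k1 ⊢
      · rw [k2] at k1 ⊢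
        rw [mul_assoc, h.sq, mul_one]
        exact k1.symm
    rcases k with k | k
    · have := c w
      rwa [k] at this
    · have k1 := c w
      rw [k, map_mul, e] at k1
      have k2 : ξ w = w * z := by rw [← mul_one (ξ w), ← h.sq z, ← mul_assoc, k1]
      rw [k2, map_mul, e, k1] at k
      exact absurd (by simpa using k) h.ne)
  refine ⟨n, ?_⟩
  rcases h.twoz hi with k | k
  · have := c z
    rw [k] at this
    exact absurd this n
  · rw [Nm, k, h.sq]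

theorem Tv.nine (h : Tv α z) (c : Commute ξ η) (h3 : η ^ 3 = 1) (n1 : Nm ξ z) (n2 : Nm η z) (n3 : Nm (ξ * η) z)
    (n4 : Nm (ξ * η * η) z) : False := by
  have c1 : ∀ w, η (ξ w) = ξ (η w) := fun w => (DFunLike.congr_fun c.eq w).symm
  have c3 : ∀ w, η (η (η w)) = w := fun w => DFunLike.congr_fun h3 w
  have n5 := congrArg η n1
  have n6 := congrArg η n5
  simp only [Nm, MulAut.mul_apply, map_mul, map_one, c1, c3] at n2 n3 n4 n5 n6
  generalize ξ (ξ (η (η z))) = d at *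
  generalize ξ (ξ (η z)) = q at *
  generalize ξ (η (η z)) = p at *
  generalize ξ (η z) = s at *
  generalize η (η z) = b at *
  generalize η z = a at *
  let : CommGroup A := { (inferInstance : Group A) with mul_comm := h.comm }
  have : z * z * z * (a * s * q) * (b * p * d) = z * a * b * (z * s * d) * (z * p * q) := by ac_rfl
  rw [n2, n3, n4, n5, n6, h.sq] at this
  exact h.ne (by simpa using this)

end aut

section grp

variable {Γ : Type*} [Group Γ] {α ξ : Γ}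

theorem inv_comm (h : α * α = 1) : α * ⁅α, ξ⁆ * α⁻¹ = ⁅α, ξ⁆⁻¹ := by
  simp only [commutatorElement_def, mul_inv_rev, inv_inv, inv_eq_of_mul_eq_one_right h, ← mul_assoc, h, one_mul]

theorem fix_el (h : α * α = 1) (h3 : ⁅α, ξ⁆ ^ 3 = 1) : Commute α (⁅α, ξ⁆⁻¹ * ξ) := by
  have e : ⁅α, ξ⁆⁻¹ = ⁅α, ξ⁆ * ⁅α, ξ⁆ := inv_eq_of_mul_eq_one_right (by rw [← h3, pow_three])
  have e2 := inv_comm (ξ := ξ) h
  calc α * (⁅α, ξ⁆⁻¹ * ξ) = (α * ⁅α, ξ⁆ * α⁻¹)⁻¹ * ⁅α, ξ⁆ * ξ * α := by simp only [commutatorElement_def]; group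
    _ = _ := by rw [e2, inv_inv, e]

theorem pm {p : ℕ} (hp : p.Prime) (ho : orderOf ξ = p) (h : α * α = 1) (hn : α * ξ * α⁻¹ ∈ zpowers ξ) :
    Commute α ξ ∨ α * ξ * α⁻¹ = ξ⁻¹ := by
  obtain ⟨k, hk⟩ := mem_zpowers_iff.1 hn
  have e : ξ ^ (k * k) = ξ ^ (1 : ℤ) := by
    rw [zpow_mul, hk, conj_zpow, hk]
    calc _ = α * α * ξ * (α * α)⁻¹ := by group
      _ = _ := by simp [h]
  rw [zpow_eq_zpow_iff_modEq, ho, Int.modEq_iff_dvd, show 1 - k * k = (1 - k) * (1 + k) by ring] at e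
  rcases (Nat.prime_iff_prime_int.1 hp).dvd_or_dvd e with d | d
  · left
    rw [← Int.modEq_iff_dvd, ← ho, ← zpow_eq_zpow_iff_modEq, hk, zpow_one] at d
    exact mul_inv_eq_iff_eq_mul.1 d
  · right
    rw [← ho, orderOf_dvd_iff_zpow_eq_one, zpow_add, hk, zpow_one] at d
    exact eq_inv_of_mul_eq_one_right d

theorem inv_inv_comm {β : Γ} (h1 : α * ξ * α⁻¹ = ξ⁻¹) (h2 : β * ξ * β⁻¹ = ξ⁻¹) : Commute (α * β) ξ := by
  refine mul_inv_eq_iff_eq_mul.1 ?_
  calc α * β * ξ * (α * β)⁻¹ = (α * (β * ξ * β⁻¹)⁻¹ * α⁻¹)⁻¹ := by group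
    _ = _ := by rw [h2, inv_inv, h1, inv_inv]

end grp

variable {G : Type*} [Group G] {H R O V : Subgroup G} {ρ : H →* MulAut V}

/-- the action of `H` on `V` with kernel `R` -/
structure Rep (H R V : Subgroup G) (ρ : H →* MulAut V) : Prop where
  ker : ∀ h : H, ρ h = 1 ↔ (h : G) ∈ R
  app : ∀ (h : H) (v : V), (ρ h v : G) = h * v * (h : G)⁻¹

theorem exists_rep (hn : H ≤ 𝒩(R)) (hc : H ⊓ 𝒞(𝛀[2] R) ≤ R) : ∃ ρ, Rep H R (𝛀[2] R) ρ :=
  ⟨(𝛀[2] R).normalizerMonoidHom.comp (inclusion (le_norm_ozc hn)), fun h => by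
    rw [MonoidHom.comp_apply, ← MonoidHom.mem_ker, normalizerMonoidHom_ker, mem_subgroupOf]
    exact ⟨fun k => hc ⟨h.2, k⟩, fun k => le_cent_ozc R k⟩, fun h v => rfl⟩

theorem Rep.comm (h : Rep H R V ρ) {a b : H} : ⁅(a : G), (b : G)⁆ ∈ R ↔ Commute (ρ a) (ρ b) := by
  rw [← commutatorElement_eq_one_iff_commute, ← map_commutatorElement, h.ker]; rfl

theorem Rep.fix (h : Rep H R V ρ) {a : H} {v : V} : ρ a v = v ↔ Commute (v : G) a := by
  rw [Subtype.ext_iff, h.app, mul_inv_eq_iff_eq_mul, commute_iff_eq, eq_comm]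

theorem Rep.zp (h : Rep H R V ρ) (hR : R ≤ H) {y g : H} (hg : (g : G) ∈ zpowers (y : G) ⊔ R) :
    ρ g ∈ zpowers (ρ y) := by
  have : zpowers (y : G) ⊔ R ≤ ((zpowers (ρ y)).comap ρ).map H.subtype :=
    sup_le (zpowers_le.2 ⟨y, mem_zpowers _, rfl⟩) fun r hr =>
      ⟨⟨r, hR hr⟩, by rw [SetLike.mem_coe, mem_comap, (h.ker ⟨r, hR hr⟩).2 hr]; exact one_mem _, rfl⟩
  obtain ⟨g', h1, e⟩ := this hg
  exact (Subtype.ext e : g' = g) ▸ h1

theorem Rep.tv [Finite G] (h : Rep H R V ρ) (hV : IsElementaryAbelian 2 V) {a : H} (ha : (a : G) ∉ R)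
    (hi : ix V a ≤ 2) : ∃ z, Tv (ρ a) z := by
  have m : ∀ v : V, (v : G) ∈ centralizer {(a : G)} ↔ ρ a v = v := fun v => by
    rw [h.fix, mem_centralizer_singleton_iff, commute_iff_eq]
  have sq : ∀ v : V, v * v = 1 := fun v => Subtype.ext ((pow_two (v : G)).symm.trans ((elem_iff.1 hV).2 v v.2))
  have h1 : ix V a ≠ 1 := fun e => ha ((h.ker a).1 (MulEquiv.ext fun v => (m v).1 (relIndex_eq_one.1 e v.2)))
  have h0 : ix V a ≠ 0 := FiniteIndex.index_ne_zero
  obtain ⟨v, hv, k⟩ := relIndex_eq_two_iff.1 (show ix V a = 2 by omega)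
  lift v to V using hv
  refine ⟨v * ρ a v, fun e => ?_, sq, fun w => ?_, v, by rw [← mul_assoc, sq, one_mul]⟩
  · rcases k 1 (one_mem _) with k | k
    · exact k.2 (one_mem _)
    · exact k.2 (by rw [one_mul, m]; exact mul_left_cancel (e.trans (sq v).symm))
  · rcases k w w.2 with k | k
    · have := (m (w * v)).1 k.1
      rw [map_mul] at this
      right
      rw [← mul_assoc, ← this, mul_assoc, sq, mul_one]
    · exact .inl ((m w).1 k.1)

theorem Rep.three (h : Rep H R V ρ) (hR : IsPGroup 2 R) {o : H} (h3 : (o : G) ^ 3 ∈ R) (ho : (o : G) ∉ R) :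
    ∃ k : ℕ, orderOf ((o ^ k : H) : G) = 3 ∧ ((o ^ k : H) : G) ∉ R := by
  have := Fact.mk Nat.prime_three
  obtain ⟨k, hk⟩ := hR ⟨_, h3⟩
  have n : ((o ^ 2 ^ k : H) : G) ∉ R := fun e => ho ((h.ker o).1 ((pow_eq_one_iff_of_coprime
    (Nat.Coprime.pow_left k (by decide : Nat.Coprime 2 3))).1
      ⟨by rw [← map_pow, h.ker]; exact e, by rw [← map_pow, h.ker]; exact h3⟩))
  refine ⟨2 ^ k, orderOf_eq_prime ?_ fun e => n (e ▸ one_mem _), n⟩
  rw [coe_pow, ← pow_mul, mul_comm, pow_mul]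
  exact congrArg Subtype.val hk

theorem off [Finite G] {p : ℕ} {S A W : Subgroup G} (hA : A ∈ meaIn p S) (hW : W ≤ S)
    (he : IsElementaryAbelian p W) : 𝒞(A).relIndex W ≤ 𝒞(W).relIndex A := by
  have h := bestOffender_offM_le (bestOffender_of_mem_meaIn hW he hA) (inf_le_right : 𝒞(W) ⊓ A ≤ A)
  rw [offM_def, offM_def, inf_eq_left.2 (le_centralizer_iff.1 inf_le_left), inf_comm W,
    ← card_inf_mul_relIndex 𝒞(A) W, ← card_inf_mul_relIndex 𝒞(W) A, mul_right_comm, ← mul_assoc] at h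
  exact Nat.le_of_mul_le_mul_left h (Nat.mul_pos Nat.card_pos Nat.card_pos)

end FFB

open FFB

theorem ffbThm (h9 : L9Thm.{u}) (h1 : LY1Thm.{u}) : FFBThm.{u} := by
  intro G _ _ h8 H R O a f hc ha aR a2 hi
  obtain ⟨ρ, hρ⟩ := exists_rep f.nR hc
  lift a to H using ha
  obtain ⟨z, hz⟩ := hρ.tv (ozc_elem R) aR hi
  have α2 : ρ a * ρ a = 1 := by rw [← map_mul, hρ.ker]; exact a2
  have cube : ∀ o : H, (o : G) ∈ O → ρ o ^ 3 = 1 := fun o ho => by rw [← map_pow, hρ.ker]; exact f.cube o ho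
  obtain ⟨o, ho, oR⟩ : ∃ o ∈ O, ⁅(a : G), o⁆ ∉ R := by
    by_contra! k
    exact aR ((hρ.ker a).1 ((pow_eq_one_iff_of_coprime (by decide : Nat.Coprime 2 3)).1
      ⟨by rw [sq, α2], cube a (f.self a a.2 k)⟩))
  lift o to H using f.OH ho
  have cO : ∀ x : H, (x : G) ∈ O → ((⁅a, x⁆ : H) : G) ∈ O := fun x hx => mul_mem (conj_mem (f.nO a.2) hx) (inv_mem hx)
  have nz := (hz.three (ξ := ρ ⁅a, o⁆) (by rw [map_commutatorElement]; exact inv_comm α2) (cube _ (cO o ho))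
    (mt (hρ.ker _).1 oR)).1
  by_cases hy : ∃ y : H, (y : G) ∈ O ∧ (y : G) ∉ R ∧ Commute (ρ a) (ρ y)
  · obtain ⟨y, yO, yR, yc⟩ := hy
    obtain ⟨k, y3, -⟩ := hρ.three f.two (f.cube y yO) yR
    replace yc : Commute (ρ a) (ρ (y ^ k)) := by rw [map_pow]; exact yc.pow_right k
    generalize y ^ k = y at y3 yc
    obtain ⟨-, k1, -, k2⟩ := h1 G h8 H R O y a f y.2 y3 a.2 aR a2 (hρ.comm.2 yc)
    have zy := hρ.fix.1 (hz.fix yc)
    have zR : ∀ r ∈ R, Commute (z : G) r := fun r hr => (ozc_le_cent R z.2 r hr).symm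
    obtain ⟨r, hr, n⟩ := h9 G h8 R y (⁅a, o⁆ : H) f.two y3 (f.nR y.2) (f.nR (⁅a, o⁆ : H).2) (f.cube _ (cO o ho))
      (k1 _ (cO o ho)) fun e => nz (hρ.fix.2 (Commute.symm (mem_centralizer_singleton_iff.1
        ((sup_le (zpowers_le.2 (mem_centralizer_singleton_iff.2 zy.symm)) fun r hr =>
          mem_centralizer_singleton_iff.2 (zR r hr).symm : _ ≤ centralizer {(z : G)}) e))))
    have := (k2 _ (mul_mem (cO o ho) (f.RO hr)) n.comm.symm n.of z (ozc_le R z.2) zy).mul_right (zR r hr).inv_right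
    rw [mul_inv_cancel_right] at this
    exact absurd (hρ.fix.2 this) nz
  have inv : ∀ x : H, (x : G) ∈ O → ρ a * ρ x * (ρ a)⁻¹ = (ρ x)⁻¹ := fun x hx => by
    have k : ρ (⁅a, x⁆⁻¹ * x) = 1 := by
      by_contra k
      refine hy ⟨_, mul_mem (inv_mem (cO x hx)) hx, mt (hρ.ker _).2 k, ?_⟩
      rw [map_mul, map_inv, map_commutatorElement]
      exact fix_el α2 (by rw [← map_commutatorElement]; exact cube _ (cO x hx))
    rw [map_mul, map_inv, map_commutatorElement, inv_mul_eq_one] at k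
    have := inv_comm (ξ := ρ x) α2
    rwa [k] at this
  have nm : ∀ x : H, (x : G) ∈ O → (x : G) ∉ R → Nm (ρ x) z := fun x hx xR =>
    (hz.three (inv x hx) (cube x hx) (mt (hρ.ker _).1 xR)).2
  obtain ⟨k, y3, yR⟩ := hρ.three (o := ⁅a, o⁆) f.two (f.cube _ (cO o ho)) oR
  have yO : ((⁅a, o⁆ ^ k : H) : G) ∈ O := pow_mem (cO o ho) k
  generalize ⁅a, o⁆ ^ k = y at y3 yR yO
  refine ⟨y, y3, le_antisymm (fun g hg => ?_) (sup_le (zpowers_le.2 yO) f.RO)⟩
  by_contra n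
  lift g to H using f.OH hg
  have yS : (y : G) ∈ zpowers (y : G) ⊔ R := mem_sup_left (mem_zpowers _)
  have c : Commute (ρ y) (ρ g) := by
    have e := inv (g * y) (mul_mem hg yO)
    rw [map_mul, ← conj_mul, inv g hg, inv y yO, ← mul_inv_rev, inv_inj] at e
    exact e
  refine hz.nine c (cube g hg) (nm y yO yR) (nm g hg fun e => n (mem_sup_right e)) ?_ ?_
  · rw [← map_mul]
    exact nm _ (mul_mem yO hg) fun e => n ((mul_mem_cancel_left yS).1 (mem_sup_right e))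
  · rw [← map_mul, ← map_mul]
    refine nm _ (mul_mem (mul_mem yO hg) hg) fun e => n ?_
    have k1 : (g : G) * g ∈ zpowers (y : G) ⊔ R :=
      (mul_mem_cancel_left yS).1 (mem_sup_right (by rw [← mul_assoc]; exact e))
    exact (mul_mem_cancel_right k1).1 (mem_sup_right (pow_three (g : G) ▸ f.cube g hg))

theorem ffsThm (hF : FSThm.{u}) (hA : FFAThm.{u}) (hB : FFBThm.{u}) : FFSThm.{u} := by
  intro G _ _ h8 H T hs hch hT hc hJ
  have RH := core_le (p := 2) H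
  have RT := core_le_syl hT
  have nR := self_le_norm_core (p := 2) H
  have R2 := core_isP (p := 2) H
  have hF := hF G h8 H hs hch
  generalize pCoreOf 2 H = R at *
  obtain ⟨ρ, hρ⟩ := exists_rep nR hc
  rw [thompsonSubgroupOf_le_iff] at hJ
  push Not at hJ
  obtain ⟨A, hA', AR⟩ := hJ
  have AH := (meaIn_le hA').trans hT.le
  have Ae := elem_iff.1 (meaIn_ea hA')
  have A2 : ∀ b ∈ A, b * b = 1 := fun b hb => (pow_two b).symm.trans (Ae.2 b hb)
  have ho : 𝒞(A).relIndex (𝛀[2] R) ≤ R.relIndex A := (off hA' ((ozc_le R).trans RT) (ozc_elem R)).trans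
    (Nat.le_of_dvd (Nat.pos_of_ne_zero FiniteIndex.index_ne_zero) (relIndex_dvd_of_le_left _ (le_cent_ozc R)))
  obtain ⟨a, aA, aR⟩ := SetLike.not_le_iff_exists.1 AR
  have hi : R.relIndex A ≤ 2 → ix (𝛀[2] R) a ≤ 2 := fun k => le_trans
    (Nat.le_of_dvd (Nat.pos_of_ne_zero FiniteIndex.index_ne_zero) (relIndex_dvd_of_le_left _
      (centralizer_le (Set.singleton_subset_iff.2 aA)))) (ho.trans k)
  lift a to H using AH aA
  have α2 : ∀ b : H, (b : G) ∈ A → ρ b * ρ b = 1 := fun b hb => by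
    rw [← map_mul, hρ.ker, coe_mul, A2 b hb]; exact one_mem _
  rcases hF with ⟨O, f⟩ | ⟨x, hx, x57, k1, k2, -⟩
  · obtain ⟨y, y3, rfl⟩ := hB G h8 H R O a f hc a.2 aR (A2 a aA ▸ one_mem _)
      (hi (hA G h8 H R O A f hc AH (meaIn_ea hA') ho))
    have yS : y ∈ zpowers y ⊔ R := mem_sup_left (mem_zpowers _)
    lift y to H using f.OH yS
    have aT := meaIn_le hA' aA
    have cen : ∀ g : H, Commute (ρ g) (ρ y) → (g : G) ∈ zpowers (y : G) ⊔ R := fun g c => f.self g g.2 fun o ho => by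
      lift o to H using f.OH ho
      obtain ⟨k, hk⟩ := mem_zpowers_iff.1 (hρ.zp RH ho)
      exact hρ.comm.2 (hk ▸ c.zpow_right k)
    have η3 : ρ y ^ 3 = 1 := by rw [← map_pow, hρ.ker, coe_pow, ← y3, pow_orderOf_eq_one]; exact one_mem _
    have alt : ∀ g : H, Commute (ρ g) (ρ y) ∨ ρ g * ρ y * (ρ g)⁻¹ = (ρ y)⁻¹ := fun g => by
      obtain ⟨k, hk⟩ := mem_zpowers_iff.1 (hρ.zp RH (g := g * y * g⁻¹) (conj_mem (f.nO g.2) yS))
      rw [map_mul, map_mul, map_inv, zpow_eq_zpow_emod' k η3] at hk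
      have : k % (3 : ℕ) = 0 ∨ k % (3 : ℕ) = 1 ∨ k % (3 : ℕ) = 2 := by omega
      rcases this with e | e | e <;> rw [e] at hk
      · exact .inl (by rw [show ρ y = 1 by simpa using hk.symm]; exact Commute.one_right _)
      · exact .inl (mul_inv_eq_iff_eq_mul.1 (by simpa using hk.symm))
      · exact .inr (hk ▸ eq_inv_of_mul_eq_one_left (by rw [← η3]; group))
    have TO : ∀ t : H, (t : G) ∈ T → Commute (ρ t) (ρ y) → (t : G) ∈ R := fun t ht c => by
      obtain ⟨k, hk⟩ := hT.isPGroup ⟨t, ht⟩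
      refine (hρ.ker t).1 ((pow_eq_one_iff_of_coprime (Nat.Coprime.pow_left k (by decide : Nat.Coprime 2 3))).1 ⟨?_, ?_⟩)
      · rw [← map_pow, show t ^ 2 ^ k = 1 from Subtype.ext (congrArg Subtype.val hk :), map_one]
      · rw [← map_pow, hρ.ker]; exact f.cube t (cen t c)
    have ai := (alt a).resolve_left fun c => aR (TO a aT c)
    have OP : zpowers (y : G) ⊔ R ≤ T ⊔ zpowers (y : G) := sup_le le_sup_right (RT.trans le_sup_left)
    refine ⟨y, ⟨hT.isPGroup, RT, ?_, y3, nR y.2, fun t ht tR => ?_⟩,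
      le_antisymm (sup_le hT.le (zpowers_le.2 y.2)) fun g hg => ?_⟩
    · rw [← card_mul_relIndex RT, mul_comm, relIndex_eq_two_iff.2 ⟨(a : G), aT, fun t ht => ?_⟩]
      lift t to H using hT.le ht
      by_cases tR : (t : G) ∈ R
      · exact .inr ⟨tR, fun e => aR ((mul_mem_cancel_left tR).1 e)⟩
      · exact .inl ⟨TO (t * a) (mul_mem ht aT) (by
          rw [map_mul]; exact inv_inv_comm ((alt t).resolve_left fun c => tR (TO t ht c)) ai), tR⟩
    · lift t to H using hT.le ht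
      refine (hρ.ker (t * y * t⁻¹ * y)).1 ?_
      rw [map_mul, map_mul, map_mul, map_inv, (alt t).resolve_left fun c => tR (TO t ht c), inv_mul_cancel]
    · lift g to H using hg
      rcases alt g with c | c
      · exact OP (cen g c)
      · exact (mul_mem_cancel_right (mem_sup_left aT)).1 (OP (cen (g * a) (by rw [map_mul]; exact inv_inv_comm c ai)))
  · lift x to H using hx
    have hp : (orderOf (x : G)).Prime := by rcases x57 with e | e <;> rw [e] <;> decide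
    have := Fact.mk hp
    have xp : ρ x ^ orderOf (x : G) = 1 := by rw [← map_pow, orderOf_coe, pow_orderOf_eq_one, map_one]
    have ξp : orderOf (ρ x) = orderOf (x : G) := orderOf_eq_prime xp fun e =>
      hp.one_lt.ne' (orderOf_eq_one_iff.2 (h8.fpf2 x57 R2 ((hρ.ker x).1 e) (Commute.refl _)))
    have cen : ∀ b : H, (b : G) ∈ A → Commute (ρ b) (ρ x) → (b : G) ∈ R := fun b hb c => by
      obtain ⟨k, hk⟩ := mem_zpowers_iff.1 (hρ.zp RH (k2 b b.2 (hρ.comm.2 c)))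
      refine (hρ.ker b).1 ((pow_eq_one_iff_of_coprime (show Nat.Coprime 2 (orderOf (x : G)) by
        rcases x57 with e | e <;> rw [e] <;> decide)).1 ⟨by rw [sq, α2 b hb], ?_⟩)
      rw [← hk, ← zpow_natCast, ← zpow_mul, mul_comm, zpow_mul, zpow_natCast, xp, one_zpow]
    have inv : ∀ b : H, (b : G) ∈ A → (b : G) ∉ R → ρ b * ρ x * (ρ b)⁻¹ = (ρ x)⁻¹ := fun b hb bR =>
      (pm hp ξp (α2 b hb) (by
        simpa using hρ.zp RH (g := b * x * b⁻¹) (conj_mem (k1 b.2) (mem_sup_left (mem_zpowers _))))).resolve_left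
        fun c => bR (cen b hb c)
    obtain ⟨z, hz⟩ := hρ.tv (ozc_elem R) aR (hi (relIndex_eq_two_iff.2 ⟨(a : G), aA, fun b hb => by
      lift b to H using AH hb
      by_cases bR : (b : G) ∈ R
      · exact .inr ⟨bR, fun e => aR ((mul_mem_cancel_left bR).1 e)⟩
      · exact .inl ⟨cen (b * a) (mul_mem hb aA) (by
          rw [map_mul]; exact inv_inv_comm (inv b hb bR) (inv a aA aR)), bR⟩⟩).le)
    have k6 := hz.six (inv a aA aR)
    rw [← map_pow, hρ.fix, coe_pow] at k6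
    have k7 : (x : G) ∈ centralizer {(z : G)} := mem_of_pow_mem_of_coprime (n := 6)
      (by rcases x57 with e | e <;> rw [e] <;> decide) (mem_centralizer_singleton_iff.2 k6.symm)
    exact (hz.ne (Subtype.ext (h8.fpf2 x57 R2 (ozc_le R z.2) (mem_centralizer_singleton_iff.1 k7)))).elim

end CL.O8
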