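/-
Project O8 (S3432): the Fitting subgroup of `H / O₂(H)` for a solvable group of characteristic 2.
-/
import Cfsg.Agent.O8.A
import Cfsg.Agent.Inv.Ord6B

set_option autoImplicit false
set_option linter.unusedVariables false

open Cfsg Subgroup CL.Grp CL.Even CL.Loc CL.NGrp
open scoped commutatorElement

namespace CL.O8

universe u

namespace FS

theorem act {X : Type*} [Group X] [Finite X] {x g : X} (hg : g * x * g⁻¹ ∈ zpowers x) {n : ℕ} (hn : g ^ n = 1) :
    ∃ k < orderOf x, g * x * g⁻¹ = x ^ k ∧ k ^ n % orderOf x = 1 % orderOf x := by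
  classical
  obtain ⟨k, hk, e⟩ := Finset.mem_image.1 (mem_zpowers_iff_mem_range_orderOf.1 hg)
  have key : ∀ i : ℕ, g ^ i * x * (g ^ i)⁻¹ = x ^ k ^ i := fun i => by
    induction i with
    | zero => simp
    | succ i ih =>
      rw [pow_succ k, pow_mul, ← ih, conj_pow, e, pow_succ g]
      group
  refine ⟨k, Finset.mem_range.1 hk, e.symm, (pow_eq_pow_iff_modEq (x := x)).1 ?_⟩
  rw [← key, hn]; simp

/-- over a nontrivial normal 2-subgroup the elements of order 5 and 7 are self-centralizing -/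
theorem cent {Γ X : Type*} [Group Γ] [Finite Γ] [Group X] [Finite X] (h : Ord8 Γ) {π : Γ →* X}
    (hs : Function.Surjective π) (hk : IsPGroup 2 π.ker) (hne : π.ker ≠ ⊥) {x y : X}
    (hx : orderOf x = 5 ∨ orderOf x = 7) (hc : Commute x y) : y ∈ zpowers x := by
  by_contra hy
  have hX := h.of_surj π hs
  have hp : (orderOf x).Prime := by rcases hx with e | e <;> rw [e] <;> norm_num
  have h5 : 5 ≤ orderOf x := by omega
  have := Fact.mk hp
  have oy : orderOf y = orderOf x := by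
    refine hX.eq_of_dvd h5 (by_contra fun k => hy ?_)
    rw [hX.fpf hx hc ((Nat.Prime.coprime_iff_not_dvd hp).2 k)]
    exact one_mem _
  have hA : IsPGroup (orderOf x) ↥(zpowers y ⊔ zpowers x) :=
    isPGroup_sup (isPGroup_zpowers (k := 1) (by rw [pow_one, ← oy, pow_orderOf_eq_one]))
      (isPGroup_zpowers (k := 1) (by rw [pow_one, pow_orderOf_eq_one]))
      (zpowers_le.2 (cent_le_norm _ (mem_centralizer_iff.2 fun _ ⟨k, e⟩ => e ▸ (hc.zpow_left k).eq)))
  have hAc : ∀ a ∈ zpowers y ⊔ zpowers x, ∀ b ∈ zpowers y ⊔ zpowers x, Commute a b := by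
    have k : ∀ a, Commute y a → Commute x a → ∀ b ∈ zpowers y ⊔ zpowers x, Commute b a := fun a h1 h2 b hb =>
      mem_centralizer_singleton_iff.1 ((sup_le (zpowers_le.2 (mem_centralizer_singleton_iff.2 h1))
        (zpowers_le.2 (mem_centralizer_singleton_iff.2 h2)) : _ ≤ centralizer {a}) hb)
    exact fun a ha b hb => k b (k y (.refl y) hc b hb).symm (k x hc.symm (.refl x) b hb).symm a ha
  obtain ⟨B, hB, e, -⟩ := CL.OrdSix.lift_sub π hp hA (fun a _ => hs a)
  have cop : (Nat.card B).Coprime (Nat.card π.ker) := IsPGroup.coprime_card_of_ne _ 2 (by omega) B _ hB hk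
  have : IsMulCommutative B := ⟨⟨fun a b => Subtype.ext (commutatorElement_eq_one_iff_mul_comm.1
    ((disjoint_of_coprime_natCard cop).eq_bot.le (mem_inf.2 ⟨(⁅a, b⁆ : B).2, by
      rw [MonoidHom.mem_ker, map_commutatorElement]
      exact (hAc _ (e ▸ mem_map_of_mem π a.2) _ (e ▸ mem_map_of_mem π b.2)).commutator_eq⟩)))⟩⟩
  refine hne (le_bot_iff.1 (le_of_forall_centralizer_le (A := B) (fun hcy => hy ?_)
    (le_top.trans le_normalizer_of_normal) cop fun a ha a1 => (h.fx_eq_bot ?_ hk).le))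
  · obtain ⟨c, hc⟩ := (Subgroup.isCyclic_iff_exists_zpowers_eq_top B).1 hcy
    rw [← hc, MonoidHom.map_zpowers] at e
    have hx' : zpowers x ≤ zpowers (π c) := e ▸ le_sup_right
    have o : orderOf (π c) = orderOf x := hX.eq_of_dvd h5 (orderOf_dvd_of_mem_zpowers (hx' (mem_zpowers x)))
    rw [eq_of_le_of_card_ge hx' (by rw [Nat.card_zpowers, Nat.card_zpowers, o]), e]
    exact mem_sup_left (mem_zpowers y)
  · obtain ⟨k, hk⟩ := isPGroup_iff_forall.1 hB a ha
    rwa [h.eq_of_dvd h5 (((Nat.dvd_prime_pow hp).1 (orderOf_dvd_of_pow_eq_one hk)).elim fun i hi => ?_)]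
    rcases i with _ | i
    · exact absurd (orderOf_eq_one_iff.1 hi.2) a1
    · exact hi.2 ▸ dvd_pow_self _ i.succ_ne_zero

variable {G X : Type*} [Group G] [Group X] {H R : Subgroup G}

/-- the preimage in `G` -/
def up (π : H →* X) (A : Subgroup X) : Subgroup G := (A.comap π).map H.subtype

theorem mem_up {π : H →* X} {A : Subgroup X} {g : H} : (g : G) ∈ up π A ↔ π g ∈ A :=
  mem_map_iff_mem (f := H.subtype) (K := A.comap π) H.subtype_injective

theorem up_le (π : H →* X) (A : Subgroup X) : up π A ≤ H := map_subtype_le _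

theorem up_norm (π : H →* X) (A : Subgroup X) [hA : A.Normal] : H ≤ 𝒩(up π A) := le_norm_of_cj_le fun g hg => by
  rintro _ ⟨_, ⟨a, ha, rfl⟩, rfl⟩
  exact ⟨⟨g, hg⟩ * a * ⟨g, hg⟩⁻¹, (hA.comap π).conj_mem a ha _, rfl⟩

theorem le_up {π : H →* X} (hq : Quo H R π) (hR : R ≤ H) (A : Subgroup X) : R ≤ up π A := fun r hr =>
  (mem_up (g := ⟨r, hR hr⟩)).2 ((hq.ker ⟨r, hR hr⟩).2 hr ▸ one_mem A)

theorem up_zp {π : H →* X} (hq : Quo H R π) (hR : R ≤ H) (m : H) : zpowers (m : G) ⊔ R = up π (zpowers (π m)) := by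
  refine le_antisymm (sup_le (zpowers_le.2 (mem_up.2 (mem_zpowers _))) (le_up hq hR _)) ?_
  rintro _ ⟨g, ⟨k, hk⟩, rfl⟩
  have : (g : G) * ((m ^ k : H) : G)⁻¹ ∈ R := hq.eq_iff.1 (by rw [map_zpow]; exact hk.symm)
  have := mul_mem (mem_sup_right this : _ ∈ zpowers (m : G) ⊔ R) (mem_sup_left (zpow_mem (mem_zpowers (m : G)) k))
  simpa using this

end FS

open FS in
theorem fsThm (hK : K76Thm.{u}) : FSThm.{u} := by
  intro G _ _ h H hs hc
  obtain ⟨π, hπ⟩ : ∃ π : H →* H ⧸ pCore 2 H, π = QuotientGroup.mk' _ := ⟨_, rfl⟩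
  have hker : π.ker = pCore 2 H := by rw [hπ, QuotientGroup.ker_mk']
  have hq : Quo H (pCoreOf 2 H) π := ⟨hπ ▸ QuotientGroup.mk'_surjective _, fun m => by
    rw [← MonoidHom.mem_ker, hker, ← subgroupOf_core, mem_subgroupOf]⟩
  have h2 : pCore 2 (H ⧸ pCore 2 H) = ⊥ := pCore_quotient_pCore 2 H
  have hsX : Group.IsSolvable (H ⧸ pCore 2 H) := inferInstance
  have hX : Ord8 (H ⧸ pCore 2 H) := (h.sub H).quot _
  have hR := core_isP (p := 2) H
  have RH := core_le (p := 2) H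
  have nR := self_le_norm_core (p := 2) H
  by_cases h57 : ∃ p, (p = 5 ∨ p = 7) ∧ pCore p (H ⧸ pCore 2 H) ≠ ⊥
  · obtain ⟨p, hp, hne⟩ := h57
    have : Fact p.Prime := ⟨by rcases hp with rfl | rfl <;> norm_num⟩
    obtain ⟨⟨x, hx⟩, x1⟩ := ne_bot_iff_exists_ne_one.1 (ozc_ne_bot (pCore_isP (p := p)) hne)
    have x1 : x ≠ 1 := fun e => x1 (Subtype.ext e)
    obtain ⟨hx1, hx2, hx3⟩ := mem_ozc.1 hx
    have ox : orderOf x = 5 ∨ orderOf x = 7 := by rwa [orderOf_eq_prime hx3 x1]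
    obtain ⟨m, rfl, om⟩ := hq.lift_odd hR (x := x) (by rcases ox with e | e <;> rw [e] <;> decide)
    have Rne : pCoreOf 2 H ≠ ⊥ := fun e => x1 ((hq.ker m).2 (hc (mem_inf.2 ⟨m.2, by
      rw [e]; exact mem_centralizer_iff.2 fun _ k => by rw [mem_bot.1 k, one_mul, mul_one]⟩)))
    have hce : ∀ y, Commute (π m) y → y ∈ zpowers (π m) := fun y =>
      cent (h.sub H) hq.surj (by rw [hker]; exact pCore_isP) (fun e => Rne (by rw [← core_def, ← hker, e, Subgroup.map_bot])) ox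
    have hn : ∀ g, g * π m * g⁻¹ ∈ zpowers (π m) := fun g =>
      hce _ (comm_of_mem hx2 (Normal.conj_mem inferInstance _ hx1 g)).symm
    have : (zpowers (π m)).Normal := ⟨fun _ ⟨k, e⟩ g => by
      rw [← e, ← conj_zpow]; exact zpow_mem (hn g) k⟩
    refine .inr ⟨m, m.2, om ▸ ox, ?_, fun g hg k => ?_, ?_⟩
    · rw [up_zp hq RH]; exact up_norm _ _
    · rw [up_zp hq RH]
      refine (mem_up (g := ⟨g, hg⟩)).2 (hce _ (commutatorElement_eq_one_iff_commute.1 ?_).symm)
      rw [← map_commutatorElement]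
      exact (hq.ker _).2 k
    · rintro ⟨y, hy, q, hq1, oy, hq2, hq3⟩
      have y3 : π ⟨y, hy⟩ ^ 3 = 1 := by
        rw [← map_pow, show (⟨y, hy⟩ : H) ^ 3 = 1 from Subtype.ext (oy ▸ pow_orderOf_eq_one y), map_one]
      have q2 : π ⟨q, hq1⟩ ^ 2 = 1 := by rw [pow_two, ← map_mul]; exact (hq.ker _).2 hq3
      obtain ⟨k, hk, e1, e2⟩ := act (hn _) y3
      obtain ⟨l, hl, f1, f2⟩ := act (hn _) q2
      have k1 : k ≠ 1 := by
        rintro rfl
        have := (hq.ker _).1 (hX.fpf_pow ox (mul_inv_eq_iff_eq_mul.1 (e1.trans (pow_one _))).symm (.inr rfl) (k := 1) y3)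
        rw [eq_one_of_coprime_of_mem (x := y) hR (by rw [oy]; decide) this, orderOf_one] at oy
        omega
      have l1 : l ≠ 1 := by
        rintro rfl
        exact hq2 ((hq.ker _).1
          (hX.fpf_pow ox (mul_inv_eq_iff_eq_mul.1 (f1.trans (pow_one _))).symm (.inl rfl) (k := 1) q2))
      have e3 : π (⟨q, hq1⟩ * ⟨y, hy⟩ * m * (⟨q, hq1⟩ * ⟨y, hy⟩)⁻¹) = π (m ^ (l * k % orderOf (π m))) := by
        rw [map_pow, pow_mod_orderOf, pow_mul, ← f1, conj_pow, ← e1]
        simp only [map_mul, map_inv]; group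
      have e4 := hq.eq_iff.1 e3
      rcases ox with e | e <;> rw [e] at hk hl e2 f2 e4 om
      · interval_cases k <;> omega
      · refine hK G h _ m (q * y) hR Rne (nR m.2) (nR (mul_mem hq1 hy)) om ?_
        obtain rfl : l = 6 := by interval_cases l <;> omega
        obtain rfl | rfl : k = 2 ∨ k = 4 := by interval_cases k <;> omega
        · exact .inr e4
        · exact .inl e4
  · have hF : fittingSubgroup (H ⧸ pCore 2 H) ≤ pCore 3 _ := fittingSubgroup_le_of_forall_pCore_le fun p hp => by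
      by_cases e : pCore p (H ⧸ pCore 2 H) = ⊥
      · exact e ▸ bot_le
      · obtain ⟨k, hk⟩ := (pCore_isP (p := p) (G := H ⧸ pCore 2 H)).exists_card_eq
        have : k ≠ 0 := by rintro rfl; exact e (card_eq_one.1 hk)
        rcases hX.primes hp.out ((dvd_pow_self p this).trans (hk ▸ card_subgroup_dvd_card _)) with
          rfl | rfl | rfl | rfl
        exacts [absurd h2 e, le_rfl, absurd ⟨5, .inl rfl, e⟩ h57, absurd ⟨7, .inr rfl, e⟩ h57]
    refine .inl ⟨up π (pCore 3 _), hR, le_up hq RH _, up_le _ _, nR, up_norm _ _, hc, ?_, fun g hg k => ?_⟩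
    · rintro _ ⟨o, ho, rfl⟩
      exact (hq.ker (o ^ 3)).1 (by rw [map_pow]; exact hX.three_grp pCore_isP ho)
    · refine (mem_up (g := ⟨g, hg⟩)).2 (hF (centralizer_fittingSubgroup_le _ fun y hy => ?_))
      obtain ⟨o, rfl⟩ := hq.surj y
      refine (commutatorElement_eq_one_iff_mul_comm.1 ?_).symm
      rw [← map_commutatorElement]
      exact (hq.ker _).2 (k o (mem_up.2 (hF hy)))

end CL.O8
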