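/-
Project O8: the final reduction, from the list of the simple groups to the structure of a group with elements of the
orders 5, 7 and 8.
-/
import Cfsg.Agent.O8.A
import Cfsg.Agent.Inv.Ord6B

set_option autoImplicit false
set_option linter.unusedVariables false

open Cfsg Subgroup CL.Grp CL.Even CL.Loc CL.NGrp
open scoped commutatorElement

namespace CL.O8

universe u

namespace FINx

theorem rad (G : Type*) [Group G] [Finite G] : ∃ (K : Subgroup G) (_ : K.Normal), Group.IsSolvable K ∧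
    ∀ N : Subgroup (G ⧸ K), N.Normal → Group.IsSolvable N → N = ⊥ := by
  obtain ⟨K, -, hK⟩ := exists_maximal_ge_of_wellFoundedGT (fun A : Subgroup G => A.Normal ∧ Group.IsSolvable A) ⊥
    ⟨inferInstance, inferInstance⟩
  have := hK.1.1
  have := hK.1.2
  refine ⟨K, inferInstance, inferInstance, fun N hN hs => ?_⟩
  have le : K ≤ N.comap (QuotientGroup.mk' K) := fun k hk => by
    rw [mem_comap, QuotientGroup.mk'_apply, (QuotientGroup.eq_one_iff k).2 hk]; exact N.one_mem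
  have h1 := hK.2 ⟨inferInstance, Group.isSolvable_of_ker_le_range (inclusion le) ((QuotientGroup.mk' K).subgroupComap N)
    fun g hg => ⟨⟨g, (QuotientGroup.eq_one_iff _).1 (congrArg Subtype.val hg)⟩, rfl⟩⟩ le
  refine (eq_bot_iff_forall _).2 fun g hg => ?_
  obtain ⟨g, rfl⟩ := QuotientGroup.mk_surjective g
  exact (QuotientGroup.eq_one_iff g).2 (h1 hg)

theorem not_dvd (h57 : O57Thm.{u}) {G : Type u} [Group G] [Finite G] (h : Ord8 G) (hs : ¬ Group.IsSolvable G)
    {K : Subgroup G} [K.Normal] (hK : Group.IsSolvable K) {p : ℕ} [Fact p.Prime] (hp : p = 5 ∨ p = 7) :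
    ¬ p ∣ Nat.card K := fun hd => by
  obtain ⟨P, hP⟩ := exists_isSylowIn p K
  have h1 : P ≠ ⊥ := by
    rintro rfl
    exact hP.not_dvd (by rwa [relIndex_bot_left])
  have h2 : Group.IsSolvable (normalizer (P : Set G)) := by_contra fun ns => h1 (by
    have e : pCore p (normalizer (P : Set G)) = ⊥ := by
      rcases hp with rfl | rfl
      exacts [((h57 _ (h.sub _)).1 ns).1, ((h57 _ (h.sub _)).1 ns).2]
    have := le_pCore (N := P.subgroupOf (normalizer (P : Set G))) (hP.isPGroup.comap_of_injective _ (subtype_injective _))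
    rw [e, le_bot_iff, subgroupOf_eq_bot, disjoint_iff, inf_eq_left.2 le_normalizer] at this
    exact this)
  refine hs ((Group.isSolvable_iff_subgroup_quotient K).2 ⟨hK, Group.isSolvable_of_surjective
    (f := (QuotientGroup.mk' K).comp (normalizer (P : Set G)).subtype) fun g => ?_⟩)
  obtain ⟨g, rfl⟩ := QuotientGroup.mk_surjective g
  obtain ⟨n, hn, hg⟩ := hP.frattini (H := ⊤) le_normalizer_of_normal (mem_top g)
  exact ⟨⟨_, hg⟩, by simp [(QuotientGroup.eq_one_iff n).2 hn]⟩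

/-- the four-group of `Q4` -/
theorem four {S : Type u} [Group S] [Finite S] (hq : Q4 S) : ∃ (A : Subgroup S) (y : S), IsPGroup 2 A ∧ A ≠ ⊥ ∧
    y ∈ 𝒩(A) ∧ y ^ 3 = 1 ∧ ∀ x ∈ A, Commute x y → x = 1 := by
  obtain ⟨a, b, y, ha, hb, ab, a1, e1, e2, o⟩ := hq
  have hc : Commute a b := ab
  have mA : ∀ x ∈ zpowers a ⊔ zpowers b, x = 1 ∨ x = b ∨ x = a ∨ x = a * b := fun x hx => by
    obtain ⟨s, hs, t, ht, rfl⟩ := (mem_sup_nr (CL.Grp.le_normalizer_of_le_centralizer
      (zpowers_le.2 fun y hy => let ⟨i, hi⟩ := mem_zpowers_iff.1 hy; hi ▸ (hc.symm.zpow_left i).eq))).1 hx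
    obtain ⟨i, rfl⟩ := (mem_powers_iff_mem_zpowers.2 hs)
    obtain ⟨j, rfl⟩ := (mem_powers_iff_mem_zpowers.2 ht)
    beta_reduce
    rw [pow_eq_pow_mod i ((pow_two a).trans ha), pow_eq_pow_mod j ((pow_two b).trans hb)]
    rcases Nat.mod_two_eq_zero_or_one i with k | k <;> rcases Nat.mod_two_eq_zero_or_one j with l | l <;> simp [k, l]
  have b1 : b ≠ 1 := fun e => a1 (by simpa [e] using e1)
  have e3 : y * (a * b) * y⁻¹ = a := by
    calc _ = y * a * y⁻¹ * (y * b * y⁻¹) := by group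
      _ = a := by rw [e1, e2, ← mul_assoc, ← ab, mul_assoc, hb, mul_one]
  have ma : a ∈ zpowers a ⊔ zpowers b := mem_sup_left (mem_zpowers a)
  have mb : b ∈ zpowers a ⊔ zpowers b := mem_sup_right (mem_zpowers b)
  refine ⟨zpowers a ⊔ zpowers b, y, fun x => ⟨1, Subtype.ext ?_⟩, fun e => a1 (mem_bot.1 (e ▸ ma)),
    mem_normalizer_fintype fun x hx => ?_, o ▸ pow_orderOf_eq_one y, fun x hx k => ?_⟩
  · rw [pow_one, Subgroup.coe_pow, pow_two, Subgroup.coe_one]
    rcases mA x x.2 with e | e | e | e <;> rw [e]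
    exacts [one_mul 1, hb, ha, by rw [hc.symm.mul_mul_mul_comm, ha, hb, one_mul]]
  · rcases mA x hx with e | e | e | e <;> rw [e]
    exacts [by simp, e2 ▸ mul_mem ma mb, e1 ▸ mb, e3.symm ▸ ma]
  · have k' : y * x * y⁻¹ = x := by rw [← k.eq, mul_inv_cancel_right]
    rcases mA x hx with e | e | e | e
    · exact e
    · rw [e, e2] at k'; exact absurd (mul_eq_right.1 k') a1
    · rw [e, e1] at k'
      rw [k', e1, ha] at e2
      exact absurd e2 b1
    · rw [e, e3] at k'; exact absurd (left_eq_mul.1 k') b1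

theorem three {S L : Type u} [Group S] [Finite S] [IsSimpleGroup S] [Group L] [Finite L] (hq : Q4 S)
    (h5 : 5 ∣ Nat.card S) (h : Ord8 L) {π : L →* S} (hπ : Function.Surjective π) (hK : IsPGroup 3 π.ker) :
    π.ker = ⊥ := by
  obtain ⟨A, y, hA, A0, hy, y3, hf⟩ := four hq
  obtain ⟨g, rfl⟩ := hπ y
  obtain ⟨e, he⟩ := IsPGroup.iff_card.1 hK
  have h1 := CL.OrdSix.kill π (m := 3) Nat.prime_three Nat.prime_two (by decide) hK le_rfl
    (fun d => absurd (Nat.prime_two.dvd_of_dvd_pow (he ▸ d)) (by decide)) hA (fun a _ => hπ a) hy (by decide)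
    (fun i i0 i3 x hx k => hf x hx (by
      obtain rfl | rfl : i = 1 ∨ i = 2 := by omega
      · rwa [pow_one] at k
      · have : π g = (π g ^ 2) ^ 2 := by rw [← pow_mul, show 2 * 2 = 3 + 1 from rfl, pow_succ, y3, one_mul]
        rw [this]; exact Commute.pow_right k 2)) fun w hw => by
      obtain ⟨j, hj⟩ := hK ⟨w ^ 3, by rw [MonoidHom.mem_ker, map_pow, hw, y3]⟩
      exact h.three_el (k := j + 1) (by rw [pow_succ', pow_mul]; exact congrArg Subtype.val hj)
  have h2 := (((inferInstance : (centralizer (π.ker : Set L)).Normal).map π hπ).eq_bot_or_eq_top).resolve_left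
    fun e => A0 (le_bot_iff.1 (e ▸ h1))
  have := Fact.mk Nat.prime_five
  obtain ⟨s, hs⟩ := exists_prime_orderOf_dvd_card' 5 h5
  obtain ⟨c, hc, rfl⟩ : s ∈ (centralizer (π.ker : Set L)).map π := h2 ▸ mem_top s
  have o5 := h.eq_of_dvd le_rfl (hs ▸ orderOf_map_dvd π c)
  refine (eq_bot_iff_forall _).2 fun q hq => ?_
  obtain ⟨j, hj⟩ := hK ⟨q, hq⟩
  exact h.fpf_pow (.inl o5) (Commute.symm (hc q hq)) (.inr rfl) (congrArg Subtype.val hj)

theorem ker_bot (k7 : KA7Thm.{u}) (k34 : K34Thm.{u}) {S : Type u} [Group S] [Finite S] [IsSimpleGroup S] (hq : Q4 S)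
    (hc : C7 S ∨ C34 S) (h5 : 5 ∣ Nat.card S) (n : ℕ) : ∀ (L : Type u) [Group L] [Finite L], Nat.card L = n → Ord8 L →
    ∀ π : L →* S, Function.Surjective π → Group.IsSolvable π.ker → ¬ 5 ∣ Nat.card π.ker → ¬ 7 ∣ Nat.card π.ker →
    π.ker = ⊥ := by
  induction n using Nat.strong_induction_on with | _ n ih =>
  intro L _ _ hn h π hπ hs n5 n7
  by_contra hne
  obtain ⟨M, hM, le⟩ := exists_isMinNormal_le π.ker hne
  have := hM.normal
  obtain ⟨r, hr, hP, -⟩ := hM.exists_isPGroup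
    (Group.isSolvable_of_isSolvable_injective (inclusion_injective le))
  have := Fact.mk hr
  have ek := QuotientGroup.ker_lift M π le
  have h1 := ih _ (by
      rw [← hn, card_eq_card_quotient_mul_card_subgroup M]
      exact lt_mul_of_one_lt_right Nat.card_pos ((one_lt_card_iff_ne_bot M).2 hM.ne_bot))
    (L ⧸ M) rfl (h.quot M) (QuotientGroup.lift M π le) (fun s => let ⟨g, hg⟩ := hπ s; ⟨g, hg⟩)
    (ek ▸ Group.isSolvable_of_surjective ((QuotientGroup.mk' M).subgroupMap_surjective π.ker))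
    (fun d => n5 (d.trans (ek ▸ card_map_dvd _ _))) fun d => n7 (d.trans (ek ▸ card_map_dvd _ _))
  rw [ek, Subgroup.map_eq_bot_iff, QuotientGroup.ker_mk'] at h1
  have hK : IsPGroup r π.ker := hP.to_le h1
  have hd : r ∣ Nat.card π.ker := by
    obtain ⟨k, hk, e⟩ := hK.nontrivial_iff_card.1 ((nontrivial_iff_ne_bot _).2 hne)
    exact e ▸ dvd_pow_self r hk.ne'
  rcases h.primes hr (hd.trans (card_subgroup_dvd_card _)) with rfl | rfl | rfl | rfl
  · have cv : Cov ⊤ π.ker := ⟨hK, hne, le_top, le_normalizer_of_normal⟩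
    have qu : Quo ⊤ π.ker (π.comp (⊤ : Subgroup L).subtype) :=
      ⟨fun s => let ⟨g, hg⟩ := hπ s; ⟨⟨g, trivial⟩, hg⟩, fun _ => Iff.rfl⟩
    exact hc.elim (k7 L h _ _ S _ cv qu) (k34 L h _ _ S _ cv qu)
  · exact hne (three hq h5 h hπ hK)
  · exact n5 hd
  · exact n7 hd

theorem card_alt {S : Type*} [Group S] {n : ℕ} (hn : 2 ≤ n) (e : S ≃* alternatingGroup (Fin n)) :
    Nat.card S = n.factorial / 2 := by
  have := Fin.nontrivial_iff_two_le.2 hn
  rw [Nat.card_congr e.toEquiv, nat_card_alternatingGroup, Nat.card_eq_fintype_card, Fintype.card_fin]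

end FINx

open FINx in
theorem finThm (h57 : O57Thm.{u}) (hA : ASThm.{u}) (hI : IXThm.{u}) (hMA : MAThm.{u}) (h7 : M7Thm.{u})
    (h34 : M34Thm.{u}) (k7 : KA7Thm.{u}) (k34 : K34Thm.{u}) : FinThm.{u} := by
  intro ih G _ _ h ⟨x5, o5⟩ ⟨x7, o7⟩ ⟨x8, o8⟩
  have := Fact.mk Nat.prime_five
  have := Fact.mk Nat.prime_seven
  have d5 : 5 ∣ Nat.card G := o5 ▸ orderOf_dvd_natCard x5
  have d7 : 7 ∣ Nat.card G := o7 ▸ orderOf_dvd_natCard x7
  have d8 : 8 ∣ Nat.card G := o8 ▸ orderOf_dvd_natCard x8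
  have hs := (h57 G h).2 (by omega)
  obtain ⟨K, _, hKs, hK⟩ := rad G
  have n5 := not_dvd h57 h hs hKs (p := 5) (.inl rfl)
  have n7 := not_dvd h57 h hs hKs (p := 7) (.inr rfl)
  have hX := h.quot K
  obtain ⟨S, Sn, _, -, sm, -⟩ := hA (G ⧸ K) hX (not_subsingleton_iff_nontrivial.1 fun _ =>
    hs ((Group.isSolvable_iff_subgroup_quotient K).2 ⟨hKs, inferInstance⟩)) hK (ih _)
  have c : Nat.card S = 60 ∨ Nat.card S = 360 ∨ Nat.card S = 168 ∨
      (Nat.card S = 2520 ∧ Nonempty (S ≃* alternatingGroup (Fin 7))) ∨ Nat.card S = 20160 ∧ IsL3 S 4 := by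
    rcases sm with ⟨n, rfl | rfl | rfl, ⟨e⟩⟩ | k | k
    exacts [.inl (card_alt (by decide) e), .inr (.inl (card_alt (by decide) e)),
      .inr (.inr (.inr (.inl ⟨card_alt (by decide) e, ⟨e⟩⟩))), .inr (.inr (.inl (h7 S k).1)),
      .inr (.inr (.inr (.inr ⟨(h34 S k).1, k⟩)))]
  obtain ⟨i5, i7, -, iF5, iF7⟩ := hI _ hX S Sn (by omega) (by omega) (by omega) (by omega)
  have ec : Nat.card G = S.index * Nat.card S * Nat.card K := by
    rw [S.index_mul_card, card_eq_card_quotient_mul_card_subgroup K]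
  have s5 : 5 ∣ Nat.card S :=
    ((Nat.prime_five.dvd_mul.1 ((Nat.prime_five.dvd_mul.1 (ec ▸ d5)).resolve_right n5))).resolve_left i5
  have s7 : 7 ∣ Nat.card S :=
    ((Nat.prime_seven.dvd_mul.1 ((Nat.prime_seven.dvd_mul.1 (ec ▸ d7)).resolve_right n7))).resolve_left i7
  let π := (QuotientGroup.mk' K).subgroupComap S
  have hπ : Function.Surjective π := MonoidHom.subgroupComap_surjective_of_surjective _ _ (QuotientGroup.mk'_surjective K)
  have ψ : ∃ ψ : π.ker →* K, Function.Injective ψ :=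
    ⟨((S.comap (QuotientGroup.mk' K)).subtype.comp π.ker.subtype).codRestrict K fun g =>
      (QuotientGroup.eq_one_iff _).1 (congrArg Subtype.val g.2),
      fun a b e => Subtype.ext (Subtype.ext (congrArg (fun x : K => (x : G)) e))⟩
  obtain ⟨ψ, hψ⟩ := ψ
  have main : Q4 S → C7 S ∨ C34 S → (∀ g : S, orderOf g ≠ 8) → Function.Injective π ∧ S.index ≠ 1 := fun hq hc n8 => by
    have inj := (MonoidHom.ker_eq_bot_iff π).1 (ker_bot k7 k34 hq hc s5 _ _ rfl (h.sub _) π hπ
      (Group.isSolvable_of_isSolvable_injective hψ) (fun d => n5 (d.trans (card_dvd_of_injective ψ hψ)))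
      fun d => n7 (d.trans (card_dvd_of_injective ψ hψ)))
    refine ⟨inj, fun e => n8 (π ⟨x8, ?_⟩) ?_⟩
    · rw [mem_comap, index_eq_one.1 e]; trivial
    · rw [orderOf_injective π inj, ← orderOf_coe, o8]
  rcases c with c | c | c | ⟨-, e⟩ | ⟨-, e⟩
  · omega
  · omega
  · omega
  · obtain ⟨a, b, c, d⟩ := (hMA S).2.2 e
    exact absurd (iF5 b) (main a (.inl c) d).2
  · obtain ⟨-, a, b, c, d⟩ := h34 S e
    obtain ⟨inj, i1⟩ := main a (.inr c) d
    obtain ⟨F, _, _, hF, ⟨e⟩⟩ := e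
    exact ⟨S.comap (QuotientGroup.mk' K), inferInstance,
      (index_comap_of_surjective S (QuotientGroup.mk'_surjective K)).trans ((iF7 b).resolve_left i1).1,
      F, inferInstance, inferInstance, hF, ⟨(MulEquiv.ofBijective π ⟨inj, hπ⟩).trans e⟩⟩

end CL.O8
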