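/-
Project O8 (helper41), job O8-G5A (helper74): the steps `G5A` and `GA5`.
-/
import Cfsg.Agent.O8.B
import Cfsg.Agent.Fgs.MacW3

set_option autoImplicit false
set_option linter.unusedVariables false

open Cfsg Subgroup CL.Grp CL.Even CL.Loc CL.NGrp
open scoped commutatorElement

namespace CL.O8

universe u

namespace G5A

variable {G : Type u} [Group G] {M Q M' Q' T V : Subgroup G} {y : G}

theorem norm_char {X B : Subgroup G} (h1 : X ≤ B) (h2 : (X.subgroupOf B).Characteristic) : 𝒩(B) ≤ 𝒩(X) :=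
  le_norm_of_cj_le fun g hg x hx => by
    have h3 := mem_cj.1 hx
    have h4 := (characteristic_iff_le_comap.1 h2) (B.normalizerMonoidHom ⟨g, hg⟩)
      (show (⟨_, h1 h3⟩ : B) ∈ X.subgroupOf B from h3)
    have h5 : g * (g⁻¹ * x * g) * g⁻¹ ∈ X := h4
    simpa [mul_assoc] using h5

/-- the subgroup generated by the squares -/
def sqs (Q : Subgroup G) : Subgroup G := closure {x | ∃ q ∈ Q, q * q = x}

theorem sqs_le (Q : Subgroup G) : sqs Q ≤ Q := (closure_le _).2 fun _ ⟨q, hq, e⟩ => e ▸ Q.mul_mem hq hq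

theorem norm_sqs (Q : Subgroup G) : 𝒩(Q) ≤ 𝒩(sqs Q) :=
  le_norm_of_cj_le fun g hg => by
    rw [sqs, MonoidHom.map_closure, closure_le]
    rintro _ ⟨_, ⟨q, hq, rfl⟩, rfl⟩
    refine subset_closure ⟨g * q * g⁻¹, conj_mem hg hq, ?_⟩
    change _ = g * (q * q) * g⁻¹
    group

theorem sup_eq (a : AT M Q T y) (a' : AT M' Q' T y) (h : ¬ 𝛀[2] Q' ≤ Q) : 𝛀[2] Q' ⊔ Q = T :=
  (a.irr _ le_sup_right (sup_le ((ozc_le Q').trans a'.le) a.le)
    (le_norm_sup (le_norm_ozc a'.lc.nQ |>.trans' (zpowers_le.2 a'.yM)) (a.lc.nQ.trans' (zpowers_le.2 a.yM))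
      (mem_zpowers y))).resolve_left fun e => h (le_sup_left.trans e.le)

theorem sqs_le_sqs (a : AT M Q T y) (a' : AT M' Q' T y) (h : ¬ 𝛀[2] Q' ≤ Q) : sqs Q' ≤ sqs Q := by
  refine (closure_le _).2 ?_
  rintro _ ⟨q, hq, rfl⟩
  have hn : 𝛀[2] Q' ≤ 𝒩(Q) := (ozc_le Q').trans (a'.le.trans (a.syl.le.trans a.lc.nQ))
  obtain ⟨v, hv, r, hr, e⟩ := (mem_sup_nr hn).1 (sup_eq a a' h ▸ a'.le hq)
  obtain ⟨v1, v2, v3⟩ := mem_ozc.1 hv
  have hr' : r ∈ Q' := (Q'.mul_mem_cancel_left v1).1 (e ▸ hq)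
  refine subset_closure ⟨r, hr, ?_⟩
  have c := comm_of_mem v2 hr'
  calc r * r = v ^ 2 * r * r := by rw [v3, one_mul]
    _ = v * (v * r) * r := by rw [pow_two]; group
    _ = q * q := by rw [← c, ← e]; group

variable [Finite G]

theorem rank (hV : V ≤ T) (nV : T ≤ 𝒩(V)) (c16 : Nat.card V = 16) (i4 : Nat.card T = 4 * Nat.card V)
    (hf : ∀ t ∈ T, t ∉ V → Nat.card (fx V t) = 4) (syl : IsSylowIn 2 T ⊤) : SectionalPRankLE 2 4 G := by
  obtain ⟨P, rfl⟩ := isSylowIn_top_iff.1 syl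
  refine CL.Fgs.MacW.secRank_of_sylow P (CL.Fgs.secRank_iff.2 fun H0 K0 hs0 => ?_)
  rw [← relIndex_map_map_of_injective K0 H0 (P : Subgroup G).subtype_injective]
  have hs := hs0.map (P : Subgroup G).subtype
  have hH : H0.map (P : Subgroup G).subtype ≤ P := map_subtype_le _
  generalize H0.map (P : Subgroup G).subtype = H at hs hH
  generalize K0.map (P : Subgroup G).subtype = K at hs
  by_cases h : H ≤ V
  · exact (CL.Fgs.MacW.relIndex_le_card K H).trans ((card_le_of_le h).trans c16.le)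
  obtain ⟨t, ht, htV⟩ := SetLike.not_le_iff_exists.1 h
  have h1 : K.relIndex (H ⊓ V) ≤ 4 := by
    refine (CL.Fgs.MacW.relIndex_le_card_cent (h := t) fun v hv => ?_).trans
      ((card_le_of_le (inf_le_inf_right _ inf_le_right)).trans (hf t (hH ht) htV).le)
    have k1 := hs.2.1 v hv.1 t ht
    have k2 : ⁅v, t⁆ ∈ V := by
      have := V.mul_mem hv.2 (conj_mem (nV (hH ht)) (V.inv_mem hv.2))
      rwa [← mul_assoc, ← mul_assoc] at this
    exact ⟨k1, hs.1 k1, k2⟩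
  have h2 : V.relIndex (P : Subgroup G) = 4 := by
    have := card_eq_relIndex_mul_card hV
    rw [i4, c16] at this
    omega
  have h3 : V.relIndex H ≤ 4 := h2 ▸ relIndex_le_of_le_right hH (by omega)
  have h4 := relIndex_inf_mul_relIndex K V H
  have h5 : K.relIndex H ≤ (K ⊓ V).relIndex H :=
    relIndex_le_of_le_left inf_le_left (index_ne_zero_of_finite)
  rw [inf_comm V H] at h4
  calc K.relIndex H ≤ K.relIndex (H ⊓ V) * V.relIndex H := h4 ▸ h5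
    _ ≤ 4 * 4 := Nat.mul_le_mul h1 h3

theorem syl_top (a : AT M Q T y) (h : 𝒩(T) ≤ M) : IsSylowIn 2 T ⊤ :=
  isSylowIn_of_maximal le_top a.syl.isPGroup fun U hU hT _ => by
    by_contra hn
    have h1 := lt_inf_normalizer_of_isPGroup hU (lt_of_le_of_ne hT (Ne.symm hn))
    exact h1.ne' (a.syl.eq_of_le (hU.to_le inf_le_left) h1.le (inf_le_right.trans h))

theorem cent_le (hS : A5SThm.{u}) (h8 : Ord8 G) (hL : LC2 G) (a : AT M Q T y) (syl : IsSylowIn 2 T ⊤) :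
    𝒞(𝛀[2] T) ≤ 𝒩(T) := by
  have hne : 𝛀[2] T ≠ ⊥ := ozc_ne_bot syl.isPGroup fun e => a.lc.ne (le_bot_iff.1 (e ▸ a.le))
  have hy : zpowers y ≤ 𝒩(𝛀[2] T) := le_norm_ozc (zpowers_le.2 a.yT)
  have hle : zpowers y ⊔ 𝒞(𝛀[2] T) ≤ 𝒩(𝛀[2] T) := sup_le hy (cent_le_norm _)
  have hT : T ≤ zpowers y ⊔ 𝒞(𝛀[2] T) := (le_cent_ozc T).trans le_sup_right
  refine le_sup_right.trans (hS G h8 hL M Q T y a syl (zpowers y ⊔ 𝒞(𝛀[2] T)) ?_
    ((hL _ (ozc_isP T) hne).of_syl_le (syl.of_le (hT.trans hle) le_top) hle hT) (sup_le hT le_sup_left))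
  by_contra hs
  obtain ⟨x, hx, ho⟩ := h8.exists_57 hs
  obtain ⟨b, hb, c, hc, rfl⟩ := (mem_sup_nr (le_norm_cent hy)).1 hx
  obtain ⟨k, hk, e⟩ := exists_mul_pow_eq (le_norm_cent hy hb) hc 3
  have hb3 : b ^ 3 = 1 := by
    obtain ⟨n, rfl⟩ := mem_zpowers_iff.1 hb
    rw [← zpow_natCast, ← zpow_mul, mul_comm, zpow_mul, zpow_natCast, ← a.ord, pow_orderOf_eq_one, one_zpow]
  rw [hb3, one_mul] at e
  have hm : b * c ∈ 𝒞(𝛀[2] T) :=
    mem_of_pow_mem_of_coprime (n := 3) (by rcases ho with o | o <;> rw [o] <;> decide) (e ▸ hk)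
  exact hne ((eq_bot_iff_forall _).2 fun z hz => h8.fpf2 ho (ozc_isP T) hz (comm_of_mem hm hz).symm)

end G5A

open G5A in
theorem g5aThm : G5AThm.{u} := by
  intro G _ _ h8 M Q M' Q' T y a a' hne syl h
  have h' : ¬ 𝛀[2] Q ≤ Q' := fun k => h ((ozc_le_cent Q').trans ((cent_mono k).trans a.lc.cV))
  have e : sqs Q = sqs Q' := le_antisymm (sqs_le_sqs a'.toAT a.toAT h') (sqs_le_sqs a.toAT a'.toAT h)
  have hp : IsPGroup 2 (sqs Q) := a.lc.two.to_le (sqs_le Q)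
  have hb : sqs Q = ⊥ := by
    by_contra hb
    exact hne ((a.lc.max _ hp hb (a.lc.nQ.trans (norm_sqs Q))).symm.trans
      (a'.lc.max _ hp hb (e ▸ a'.lc.nQ.trans (norm_sqs Q'))))
  have h2 : ∀ q ∈ Q, q * q = 1 := fun q hq => mem_bot.1 (hb ▸ subset_closure ⟨q, hq, rfl⟩)
  have hQ : 𝛀[2] Q = Q := le_antisymm (ozc_le Q) fun q hq =>
    mem_ozc.2 ⟨hq, fun r hr => CL.Fgs.MacW.comm_of_sq h2 r hr q hq, by rw [pow_two, h2 q hq]⟩
  refine rank a.le (a.syl.le.trans a.lc.nQ) (hQ ▸ a.cV16) a.card (fun t ht hn => ?_) syl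
  rw [← a.cZ, ← a.zt t ht hn, hQ]

open G5A in
theorem ga5Thm (hM : MXThm.{u}) (hJ : JQThm.{u}) (hS : A5SThm.{u}) (hF : AFThm.{u}) (hA : G5AThm.{u})
    (hB : G5BThm.{u}) : GA5Thm.{u} := by
  intro G _ _ h8 hL M Q T y a hN hall
  have syl := syl_top a hN
  have hC := cent_le hS h8 hL a syl
  have eN : 𝒩(T) = T ⊔ zpowers y := by rw [← a.nT, inf_eq_right.2 hN]
  by_cases j : 𝐉[2] T ≤ Q
  · exact (hJ G M Q T a.lc a.syl j).2.2.2 (hC.trans hN)
  have f := hF G h8 M Q T y a j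
  by_cases hc : cStarOf 2 T ≤ M
  · exact .inr ⟨T, Q, syl, a.lc.two, a.lc.ne, a.lc.eq ▸ hc⟩
  obtain ⟨⟨X, x1, x2, x3⟩, hX⟩ : ∃ X : {C : Subgroup G // C ≤ 𝐁[2] T ∧ C ≠ ⊥ ∧ (C.subgroupOf (𝐁[2] T)).Characteristic},
      ¬ 𝒩(X.1) ≤ M := by
    by_contra hn
    push Not at hn
    exact hc (sup_le (hC.trans hN) (iSup_le hn))
  have pX : IsPGroup 2 X := syl.isPGroup.to_le (x1.trans (bau_le T))
  have nX : T ⊔ zpowers y ≤ 𝒩(X) := eN ▸ (le_norm_bau le_rfl).trans (norm_char x1 x3)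
  have hs : ¬ Group.IsSolvable 𝒩(X) := fun hs => hX ((hS G h8 hL M Q T y a syl _ hs (hL X pX x2) nX).trans hN)
  obtain ⟨M', Q', k1, k2⟩ := hM G h8 hL X pX x2 hs
  have hne : M ≠ M' := fun e => hX (e ▸ k2)
  have syl' : IsSylowIn 2 T M' := syl.of_le (le_sup_left.trans (nX.trans k2)) le_top
  have a' := hall M' Q' k1 (nX.trans k2) syl'
  by_cases j' : 𝐉[2] T ≤ Q'
  · exact (hJ G M' Q' T k1 syl' j').2.2.2 (hC.trans (eN.le.trans (nX.trans k2)))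
  have f' := hF G h8 M' Q' T y a' j'
  by_cases hv : 𝛀[2] Q' ≤ Q
  · exact (hB G h8 M Q M' Q' T y f f' hne hv).elim
  · exact .inl (hA G h8 M Q M' Q' T y f f' hne syl hv)

end CL.O8
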