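/-
Project O8, step G5B: two different 2-locals of type `A₅` over the same `T⟨y⟩` cannot have `Ω₁Z(Q') ≤ Q`.
-/
import Cfsg.Agent.O8.B

set_option autoImplicit false

open Cfsg Subgroup CL.Grp CL.Even CL.Loc CL.NGrp
open scoped commutatorElement

namespace CL.O8

universe u

namespace G5B

variable {G : Type*} [Group G]

theorem cm_mul {Q : Subgroup G} {a b q : G} (ha : a ∈ Q) (hb : ⁅b, q⁆ ∈ 𝒞(Q)) : ⁅a * b, q⁆ = ⁅b, q⁆ * ⁅a, q⁆ := by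
  have h := comm_of_mem hb ha
  calc ⁅a * b, q⁆ = (a * ⁅b, q⁆) * a⁻¹ * ⁅a, q⁆ := by simp only [commutatorElement_def]; group
    _ = ⁅b, q⁆ * ⁅a, q⁆ := by rw [h, mul_inv_cancel_right]

theorem cm_conj (g v q : G) : ⁅g * v * g⁻¹, q⁆ = g * ⁅v, g⁻¹ * q * g⁆ * g⁻¹ := by
  simp only [commutatorElement_def]; group

theorem alg {V : Subgroup G} (hV : IsElementaryAbelian 2 V) {a2 a3 a4 b2 b3 b4 : G} (h2 : a2 ∈ V) (h3 : a3 ∈ V)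
    (h4 : a4 ∈ V) (k2 : b2 ∈ V) (k3 : b3 ∈ V) (k4 : b4 ∈ V) (h : a4 * (a3 * a2) = b4 * (b3 * b2))
    (e : b4 * a2 = 1) : b3 * a3 * (b2 * a4) = 1 := by
  let _ : CommGroup V := { (inferInstance : Group V) with
    mul_comm := fun a b => Subtype.ext (comm_of_mem (elem_le_cent hV b.2) a.2) }
  lift a2 to V using h2
  lift a3 to V using h3
  lift a4 to V using h4
  lift b2 to V using k2
  lift b3 to V using k3
  lift b4 to V using k4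
  have h0 : b3 * a3 * (b2 * a4) * (b4 * a2) = a4 * (a3 * a2) * (b4 * (b3 * b2)) := by
    simp only [mul_comm, mul_left_comm]
  have h1 := congrArg Subtype.val h0
  simp only [coe_mul] at h1
  rw [e, mul_one, h, ← pow_two] at h1
  rw [h1]
  exact hV.2 _ (b4 * (b3 * b2)).2

variable [Finite G]

/-- the norm of an element of `Q` under an element of order 5 is trivial -/
theorem norm (h : Ord8 G) {Q : Subgroup G} (hQ : IsPGroup 2 Q) {x w : G} (hx : orderOf x = 5) (hn : x ∈ 𝒩(Q))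
    (hw : w ∈ Q) : w * (x * w * x⁻¹) * (x ^ 2 * w * (x ^ 2)⁻¹) * (x ^ 3 * w * (x ^ 3)⁻¹) *
      (x ^ 4 * w * (x ^ 4)⁻¹) = 1 := by
  have h5 : x ^ 5 = 1 := hx ▸ pow_orderOf_eq_one x
  have h1 : orderOf (w * x) = 5 := by
    refine h.eq_of_dvd le_rfl ?_
    obtain ⟨k, hk, e⟩ := exists_mul_pow_eq hn (conj_mem' hn hw) (orderOf (w * x))
    rw [show x * (x⁻¹ * w * x) = w * x by group, pow_orderOf_eq_one] at e
    have h2 : x ^ orderOf (w * x) ∈ Q := by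
      rw [eq_inv_of_mul_eq_one_left e.symm]; exact Q.inv_mem hk
    rw [← hx, orderOf_dvd_iff_pow_eq_one]
    exact h.fpf2 (.inl hx) hQ h2 (Commute.self_pow x _)
  have h2 : (w * x) ^ 5 = 1 := h1 ▸ pow_orderOf_eq_one _
  calc _ = (w * x) ^ 5 * (x ^ 5)⁻¹ := by simp only [pow_succ, pow_zero]; group
    _ = 1 := by rw [h2, h5, inv_one, one_mul]

/-- the commutators of the norm -/
theorem normc (h : Ord8 G) {Q : Subgroup G} (hQ : IsPGroup 2 Q) {x w q : G} (hx : orderOf x = 5) (hn : x ∈ 𝒩(Q))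
    (hw : w ∈ Q) (hc : ∀ i : ℕ, ⁅x ^ i * w * (x ^ i)⁻¹, q⁆ ∈ 𝒞(Q)) :
    ⁅x ^ 4 * w * (x ^ 4)⁻¹, q⁆ * (⁅x ^ 3 * w * (x ^ 3)⁻¹, q⁆ * ⁅x ^ 2 * w * (x ^ 2)⁻¹, q⁆) =
      (⁅x * w * x⁻¹, q⁆ * ⁅w, q⁆)⁻¹ := by
  have m : ∀ i : ℕ, x ^ i * w * (x ^ i)⁻¹ ∈ Q := fun i => conj_mem (pow_mem hn i) hw
  have m1 := Q.mul_mem hw (conj_mem hn hw)
  have m2 := Q.mul_mem m1 (m 2)
  have m3 := Q.mul_mem m2 (m 3)
  have h1 := congrArg (fun a => ⁅a, q⁆) (norm h hQ hx hn hw)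
  have c1 := hc 1
  rw [pow_one] at c1
  simp only [commutatorElement_one_left] at h1
  rw [cm_mul m3 (hc 4), cm_mul m2 (hc 3), cm_mul m1 (hc 2), cm_mul hw c1] at h1
  rw [eq_inv_iff_mul_eq_one, ← h1]
  simp only [mul_assoc]

variable {M Q T : Subgroup G} {y : G}

omit [Finite G] in
theorem TM (h : AT M Q T y) : T ≤ M := h.syl.1

omit [Finite G] in
theorem zv (h : AT M Q T y) : 𝛀[2] T ≤ 𝛀[2] Q := fun _ hz =>
  have h1 := cent_mono h.le (ozc_le_cent T hz)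
  mem_ozc.2 ⟨h.lc.cQ h1, h1, (mem_ozc.1 hz).2.2⟩

omit [Finite G] in
theorem nV (h : AT M Q T y) : M ≤ 𝒩(𝛀[2] Q) := le_norm_ozc h.lc.nQ

omit [Finite G] in
theorem sq1 {R : Subgroup G} {v : G} (hv : v ∈ 𝛀[2] R) : v⁻¹ = v := by
  have h := (mem_ozc.1 hv).2.2
  rw [pow_two] at h
  exact inv_eq_of_mul_eq_one_right h

omit [Finite G] in
theorem cmz (h : AF M Q T y) {w t : G} (hw : w ∈ 𝛀[2] Q) (ht : t ∈ T) : ⁅w, t⁆ ∈ 𝛀[2] T := by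
  by_cases hq : t ∈ Q
  · rw [commutatorElement_eq_one_iff_mul_comm.2 (comm_of_mem (ozc_le_cent Q hw) hq).symm]
    exact one_mem _
  have hn := nV h.toAT (TM h.toAT ht)
  have h1 : t * w * t⁻¹ ∈ 𝛀[2] Q := conj_mem hn hw
  have h2 : ⁅w, t⁆ = w * (t * w * t⁻¹) := by rw [commutatorElement_def, sq1 hw]; group
  have h3 := comm_of_mem (ozc_le_cent Q hw) (h.sq t ht)
  have h4 := comm_of_mem (ozc_le_cent Q hw) (ozc_le Q h1)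
  rw [← h.zt t ht hq, mem_fx, h2]
  refine ⟨mul_mem hw h1, ?_⟩
  calc w * (t * w * t⁻¹) * t = t * w * t⁻¹ * w * t := by rw [h4]
    _ = t * w * (t⁻¹ * (w * (t * t)) * t⁻¹) := by group
    _ = t * (w * (t * w * t⁻¹)) := by rw [← h3]; group

omit [Finite G] in
theorem cm1 (h : AF M Q T y) {w t : G} (hw : w ∈ 𝛀[2] Q) (hz : w ∉ 𝛀[2] T) (ht : t ∈ T) (e : ⁅w, t⁆ = 1) :
    t ∈ Q := by
  by_contra hq
  exact hz (h.zt t ht hq ▸ mem_fx.2 ⟨hw, commutatorElement_eq_one_iff_commute.1 e⟩)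

omit [Finite G] in
theorem notz (h : AF M Q T y) {w g : G} (hw : w ∈ 𝛀[2] Q) (hz : w ∉ 𝛀[2] T) (hg : g ∈ T ⊔ zpowers y)
    (hT : g ∉ T) : w * (g * w * g⁻¹) ∉ 𝛀[2] T := fun hv => by
  have hy : y ∈ 𝒩(𝛀[2] T) := norm_le_norm_ozc T h.yT
  obtain ⟨t, ht, e⟩ := h.mem g hg
  have hn : w ∈ 𝒩(𝛀[2] T) := norm_le_norm_ozc T (le_normalizer (h.le (ozc_le Q hw)))
  have key : ∀ s ∈ 𝒩(𝛀[2] T), w * (s * t * w * (s * t)⁻¹) ∈ 𝛀[2] T → w * (s * w * s⁻¹) ∈ 𝛀[2] T := fun s hs h0 => by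
    have h2 := mul_mem h0 (conj_mem hs (conj_mem' hn (cmz h hw ht)))
    rwa [show w * (s * t * w * (s * t)⁻¹) * (s * (w⁻¹ * ⁅w, t⁆ * w) * s⁻¹) = w * (s * w * s⁻¹) by
      simp only [commutatorElement_def]; group] at h2
  refine hz (h.fy w hw ?_)
  rw [commutatorElement_def, sq1 hw]
  rcases e with rfl | rfl | rfl
  · exact absurd ht hT
  · simpa only [mul_assoc] using key y hy hv
  · have h2 := conj_mem hn (conj_mem hy (key _ (inv_mem hy) hv))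
    rwa [show w * (y * (w * (y⁻¹ * w * y⁻¹⁻¹)) * y⁻¹) * w⁻¹ = w * y * w * y⁻¹ by group] at h2

theorem zz (h8 : Ord8 G) (h : AT M Q T y) {x z : G} (hx : x ∈ M) (ho : orderOf x = 5) (h1 : z ∈ 𝛀[2] T)
    (h2 : x⁻¹ * z * x ∈ 𝛀[2] T) : z = 1 := by
  have h3 : z ∈ 𝒞(cj x T) := by
    rw [← cj_cent, mem_cj]; exact ozc_le_cent T h2
  have h4 : z ∈ 𝒞(M) := by
    rw [← h.ti x hx (h.five x hx ho), cent_sup]; exact ⟨ozc_le_cent T h1, h3⟩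
  refine h.lc.nz h8 ?_ fun g hg => comm_of_mem h4 hg
  rw [← pow_two]; exact (mem_ozc.1 h1).2.2

variable {M' Q' : Subgroup G}

omit [Finite G] in
/-- commutators of conjugates of elements of `Ω₁Z(Q')` -/
theorem cmv (h : AF M Q T y) (h' : AF M' Q' T y) {v g q : G} (hv : v ∈ 𝛀[2] Q') (hg : g ∈ M) (hq : q ∈ Q) :
    ⁅g * v * g⁻¹, q⁆ ∈ 𝛀[2] Q := by
  rw [cm_conj]
  exact conj_mem (nV h.toAT hg) (zv h.toAT (cmz h' hv (h.le (conj_mem' (h.lc.nQ hg) hq))))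

/-- an element of order 5 normalises `Q ⊓ Q'` -/
theorem nrm (h8 : Ord8 G) (h : AF M Q T y) (h' : AF M' Q' T y) (hle : 𝛀[2] Q' ≤ Q) :
    ∃ x, orderOf x = 5 ∧ x ∈ 𝒩(Q) ∧ x ∈ 𝒩(Q ⊓ Q') := by
  obtain ⟨w, hw, hz⟩ : ∃ w ∈ 𝛀[2] Q', w ∉ 𝛀[2] T := by
    by_contra hc
    push Not at hc
    have h1 := card_le_of_le (show 𝛀[2] Q' ≤ 𝛀[2] T from hc)
    rw [h'.cV16, h'.cZ] at h1
    omega
  obtain ⟨x, hx, t, ht, o1, o2, hh⟩ := h.thr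
  have hxt : x * t ∈ M := M.mul_mem hx (TM h.toAT ht)
  have hB : T ⊔ zpowers y ≤ 𝒩(𝛀[2] Q') := (sup_le (TM h'.toAT) (zpowers_le.2 h'.yM)).trans (nV h'.toAT)
  have hVC := ozc_le_cent (p := 2) Q
  refine ⟨x, o1, h.lc.nQ hx, ?_⟩
  have H : ∀ i j : ℕ, (i = 2 ∧ j = 4) ∨ (i = 3 ∧ j = 3) ∨ (i = 4 ∧ j = 2) → ∀ q ∈ Q, ∃ v ∈ 𝛀[2] Q', v ∉ 𝛀[2] T ∧
      ⁅(x * t) ^ j * w * ((x * t) ^ j)⁻¹, q⁆ * ⁅x ^ i * w * (x ^ i)⁻¹, q⁆ =
        x ^ i * ⁅v, (x ^ i)⁻¹ * q * x ^ i⁆ * (x ^ i)⁻¹ := fun i j hij q hq => by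
    obtain ⟨h1, h2⟩ := hh i j hij
    have h3 : (x ^ i)⁻¹ * (x * t) ^ j ∈ T ⊔ zpowers y :=
      h.nT ▸ ⟨M.mul_mem (M.inv_mem (M.pow_mem hx i)) (M.pow_mem hxt j), h1⟩
    refine ⟨_, mul_mem hw (conj_mem (hB h3) hw), notz h' hw hz h3 h2, ?_⟩
    rw [← cm_conj, ← cm_mul (conj_mem (h.lc.nQ (M.pow_mem hx i)) (hle hw)) (hVC (cmv h h' hw (M.pow_mem hxt j) hq))]
    congr 1
    group
  have main : ∀ q ∈ Q, (x ^ 2)⁻¹ * q * x ^ 2 ∈ Q' → (x ^ 3)⁻¹ * q * x ^ 3 ∈ Q' := fun q hq h0 => by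
    have A := fun i : ℕ => cmv h h' hw (M.pow_mem hx i) hq
    have B := fun i : ℕ => cmv h h' hw (M.pow_mem hxt i) hq
    have n1 := normc h8 h.lc.two o1 (h.lc.nQ hx) (hle hw) fun i => hVC (A i)
    have n2 := normc h8 h.lc.two o2 (h.lc.nQ hxt) (hle hw) fun i => hVC (B i)
    have e1 : ⁅x * t * w * (x * t)⁻¹, q⁆ = ⁅x * w * x⁻¹, q⁆ := by
      have c1 : x * ⁅w, t⁆⁻¹ * x⁻¹ ∈ 𝛀[2] Q := conj_mem (nV h.toAT hx) (zv h.toAT (inv_mem (cmz h' hw ht)))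
      have c2 : ⁅x * ⁅w, t⁆⁻¹ * x⁻¹, q⁆ = 1 :=
        commutatorElement_eq_one_iff_mul_comm.2 (comm_of_mem (hVC c1) hq).symm
      rw [show x * t * w * (x * t)⁻¹ = x * ⁅w, t⁆⁻¹ * x⁻¹ * (x * w * x⁻¹) by
        simp only [commutatorElement_def]; group, cm_mul (ozc_le Q c1) (hVC (cmv h h' hw hx hq)), c2, mul_one]
    rw [e1, ← n1] at n2
    obtain ⟨v2, m2, -, e2⟩ := H 2 4 (.inl ⟨rfl, rfl⟩) q hq
    obtain ⟨v3, m3, z3, e3⟩ := H 3 3 (.inr (.inl ⟨rfl, rfl⟩)) q hq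
    obtain ⟨v4, m4, -, e4⟩ := H 4 2 (.inr (.inr ⟨rfl, rfl⟩)) q hq
    rw [commutatorElement_eq_one_iff_mul_comm.2 (comm_of_mem (ozc_le_cent Q' m2) h0).symm, mul_one,
      mul_inv_cancel] at e2
    have e5 := alg (ozc_elem Q) (A 2) (A 3) (A 4) (B 2) (B 3) (B 4) n2.symm e2
    rw [e3, e4] at e5
    have t3 : (x ^ 3)⁻¹ * q * x ^ 3 ∈ T := h.le (conj_mem' (h.lc.nQ (M.pow_mem hx 3)) hq)
    have t4 : (x ^ 4)⁻¹ * q * x ^ 4 ∈ T := h.le (conj_mem' (h.lc.nQ (M.pow_mem hx 4)) hq)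
    refine cm1 h' m3 z3 t3 (zz h8 h.toAT hx o1 (cmz h' m3 t3) ?_)
    have c4 := inv_mem (cmz h' m4 t4)
    generalize ⁅v3, (x ^ 3)⁻¹ * q * x ^ 3⁆ = a at e5 ⊢
    generalize ⁅v4, (x ^ 4)⁻¹ * q * x ^ 4⁆ = b at e5 c4
    rwa [show x⁻¹ * a * x = (x ^ 4)⁻¹ * (x ^ 3 * a * (x ^ 3)⁻¹ * (x ^ 4 * b * (x ^ 4)⁻¹)) * x ^ 4 * b⁻¹ by group,
      e5, mul_one, inv_mul_cancel, one_mul]
  rw [← inv_mem_iff]
  refine mem_normalizer_fintype fun r hr => ?_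
  have h1 := main _ (conj_mem (h.lc.nQ (M.pow_mem hx 2)) hr.1)
    (by rw [show (x ^ 2)⁻¹ * (x ^ 2 * r * (x ^ 2)⁻¹) * x ^ 2 = r by group]; exact hr.2)
  rw [show (x ^ 3)⁻¹ * (x ^ 2 * r * (x ^ 2)⁻¹) * x ^ 3 = x⁻¹ * r * x⁻¹⁻¹ by group] at h1
  exact ⟨conj_mem (inv_mem (h.lc.nQ hx)) hr.1, h1⟩

end G5B

open G5B in
theorem g5bThm : G5BThm.{u} := by
  intro G _ _ h8 M Q M' Q' T y h h' hne hle
  obtain ⟨x, ho, h1, h2⟩ := nrm h8 h h' hle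
  have c1 := h8.card_mod (.inl ho) h.lc.two h1
  have c2 := h8.card_mod (.inl ho) (h.lc.two.to_inf_left (K := Q')) h2
  rw [ho] at c1 c2
  have rc : ∀ A B : Subgroup G, A.relIndex B * Nat.card ↥(B ⊓ A) = Nat.card B := fun A B => by
    have h0 := (A.subgroupOf B).index_mul_card
    rwa [← inf_subgroupOf_left, Nat.card_congr (subgroupOfEquivOfLe (inf_le_left : B ⊓ A ≤ B)).toEquiv,
      inf_subgroupOf_left] at h0
  have c3 := rc Q' Q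
  have c4 := rc Q' T
  rw [inf_eq_right.2 h'.le, h'.card] at c4
  have c5 : Q'.relIndex T = 4 := Nat.eq_of_mul_eq_mul_right Nat.card_pos c4
  have c6 : Q'.relIndex Q ≤ 4 := c5 ▸ relIndex_le_of_le_right h.le (by omega)
  have c7 : Q'.relIndex Q = 1 := by
    generalize Q'.relIndex Q = k at c3 c6
    interval_cases k <;> omega
  have c8 : Q = Q' := eq_of_le_of_card_ge (relIndex_eq_one.1 c7) (by have := h.card; have := h'.card; omega)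
  exact hne (by rw [← h.lc.eq, ← h'.lc.eq, c8])

end CL.O8
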