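/-
Project O8 (S3432): solvable overgroups of the Sylow subgroup when `|Ω₁(Z(T))| = 2`.
-/
import Cfsg.Agent.O8.B

set_option autoImplicit false
set_option linter.unusedVariables false

open Cfsg Subgroup CL.Grp CL.Even CL.Loc CL.NGrp
open scoped commutatorElement

namespace CL.O8

universe u

namespace GA8

variable {G : Type u} [Group G]

theorem exq {U R : Subgroup G} : ∀ (k : ℕ) (u : G), u ∈ U → u ∉ R → u ^ 2 ^ k = 1 → ∃ q ∈ U, q ∉ R ∧ q * q ∈ R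
  | 0, u, _, h2, h3 => absurd (by rw [pow_zero, pow_one] at h3; exact h3 ▸ one_mem R) h2
  | k + 1, u, h1, h2, h3 => by
    by_cases h : u * u ∈ R
    · exact ⟨u, h1, h2, h⟩
    · exact exq k (u * u) (mul_mem h1 h1) h (by rw [← pow_two, ← pow_mul, ← pow_succ', h3])

theorem card_le [Finite G] {D : Subgroup G} {w z : G} (h : ∀ t ∈ D, t * w * t⁻¹ = w ∨ t * w * t⁻¹ = w * z) :
    Nat.card D ≤ 2 * Nat.card (fx D w) := by
  have key : ∀ x y : D, ((x : G) * w * (x : G)⁻¹ = w ↔ (y : G) * w * (y : G)⁻¹ = w) → (x : G)⁻¹ * y ∈ fx D w := by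
    intro x y e
    have e1 : (x : G) * w * (x : G)⁻¹ = y * w * (y : G)⁻¹ := by
      rcases h x x.2 with a | a <;> rcases h y y.2 with b | b
      exacts [a.trans b.symm, a.trans (e.1 a).symm, (e.2 b).trans b.symm, a.trans b.symm]
    refine mem_fx.2 ⟨mul_mem (inv_mem x.2) y.2, ?_⟩
    calc (x : G)⁻¹ * y * w = (x : G)⁻¹ * (y * w * (y : G)⁻¹) * y := by group
      _ = w * ((x : G)⁻¹ * y) := by rw [← e1]; group
  let f : D → Prop := fun x => (x : G) * w * (x : G)⁻¹ = w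
  rw [show 2 = Nat.card Prop by simp, ← Nat.card_prod]
  refine Nat.card_le_card_of_injective (fun x : D => ((f x, ⟨((Function.invFun f (f x) : D) : G)⁻¹ * x,
    key _ _ (iff_of_eq (Function.invFun_eq (f := f) ⟨x, rfl⟩))⟩) : Prop × fx D w)) fun x y e => ?_
  have e1 : f x = f y := congrArg Prod.fst e
  have e2 : ((Function.invFun f (f x) : D) : G)⁻¹ * x = ((Function.invFun f (f y) : D) : G)⁻¹ * y :=
    congrArg (fun p : Prop × fx D w => (p.2 : G)) e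
  rw [e1] at e2
  exact Subtype.ext (mul_left_cancel e2)

end GA8

open GA8 in
theorem ga8Thm (hP : ParThm.{u}) (hF : FSThm.{u}) (h2 : LY2Thm.{u}) (hA : LAThm.{u}) (hFF : FFSThm.{u}) :
    GA8Thm.{u} := by
  intro G _ _ h8 hL p M Q T U0 U1 U2 y1 y2 F hT hC hZ hQ8 hJ H hs hH hTH
  have p1 := hP G T U1 y1 F.s1.par
  have p2 := hP G T U2 y2 F.s2.par
  have T2 := hT.isPGroup
  have TM : T ≤ M := F.syl.le
  have QT : Q ≤ T := F.le0.trans (F.s1.le0.trans F.s1.par.le)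
  obtain ⟨⟨z, hz⟩, z1', zu⟩ := (Nat.card_eq_two_iff' (1 : 𝛀[2] T)).1 hZ
  have z1 : z ≠ 1 := fun e => z1' (Subtype.ext e)
  have mZ : ∀ a ∈ 𝛀[2] T, a = 1 ∨ a = z := fun a ha => by
    by_cases e : a = 1
    exacts [Or.inl e, Or.inr (congrArg Subtype.val (zu ⟨a, ha⟩ fun e' => e (congrArg Subtype.val e')))]
  have nZ : 𝒩(𝛀[2] T) ≤ M := fun g hg => by
    refine (sup_le TM (zpowers_le.2 F.s1.yM) : T ⊔ zpowers y1 ≤ M) (hC ▸ fun a ha => ?_)
    rcases mZ a ha with rfl | rfl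
    · simp
    · exact (mul_inv_eq_iff_eq_mul.1 ((mZ _ (conj_mem hg ha)).resolve_left (by simpa using z1))).symm
  have sH : IsSylowIn 2 T H := hT.of_le hTH le_top
  set R := pCoreOf 2 H with hR
  have RT : R ≤ T := core_le_syl sH
  have nR : H ≤ 𝒩(R) := self_le_norm_core H
  have ZR : 𝛀[2] T ≤ R := hH.le_core ((ozc_le T).trans hTH) ((ozc_le_cent T).trans (cent_mono RT))
  have ZY : 𝛀[2] T ≤ 𝛀[2] R := le_ozc (ozc_elem T) ZR ((ozc_le_cent T).trans (cent_mono RT))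
  by_cases hy : y1 ∈ H
  · left
    have RU : R ≤ U1 := p1.core ▸ le_core (RT.trans le_sup_left) (T2.to_le RT) ((sup_le hTH (zpowers_le.2 hy)).trans nR)
    by_cases e : U1 = R
    · exact (le_norm_ozc (e ▸ nR)).trans (F.om1 ▸ nZ)
    exfalso
    have UH := F.s1.par.le.trans hTH
    rcases hF G h8 H hs hH with ⟨O, hO⟩ | ⟨x, -, -, -, -, hx⟩
    · obtain ⟨-, -, -, k, -, q, -, -, -, -, f, fO, nf, -⟩ :=
        h2 G h8 H R O U1 y1 hO (T2.to_le F.s1.par.le) RU UH e hy F.s1.par.ord F.s1.par.nU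
      exact (hA G h8 hL T hT fun e => z1 (mem_bot.1 (e ▸ ozc_le T hz))).1 y1 F.c1 f
        (fun d hd => k f fO nf.comm.symm nf.of d (ZR hd) (F.c1 d hd)) nf
    · obtain ⟨u, hu, hu'⟩ := SetLike.not_le_iff_exists.1 fun h => e (le_antisymm h RU)
      obtain ⟨k, hk⟩ := isPGroup_iff_forall.1 T2 u (F.s1.par.le hu)
      obtain ⟨q, q1, q2, q3⟩ := exq k u hu hu' hk
      exact hx ⟨y1, hy, q, UH q1, F.s1.par.ord, q2, q3⟩
  have HP : H ⊓ (T ⊔ zpowers y1) = T := (p1.max _ (le_inf hTH le_sup_left) inf_le_right).resolve_right fun e =>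
    hy (e.ge (mem_sup_right (mem_zpowers y1))).1
  have cY : H ⊓ 𝒞(𝛀[2] R) ≤ R :=
    le_core inf_le_left (T2.to_le ((inf_le_inf_left H ((cent_mono ZY).trans hC.le)).trans HP.le))
      (le_norm_inf le_normalizer (le_norm_cent (le_norm_ozc nR)))
  by_cases hJR : ¬ 𝐉[2] T ≤ R
  · obtain ⟨y, hy1, hy2⟩ := hFF G h8 H T hs hH sH cY hJR
    by_cases hM : y ∈ M
    exacts [Or.inl (hy2 ▸ sup_le TM (zpowers_le.2 hM)), Or.inr ⟨_, y, hy1, hM⟩]
  rw [not_not] at hJR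
  by_cases hY : 𝛀[2] R ≤ 𝛀[2] T
  · exact Or.inl ((le_norm_ozc nR).trans (le_antisymm hY ZY ▸ nZ))
  exfalso
  have nY : T ≤ 𝒩(𝛀[2] R) := hTH.trans (le_norm_ozc nR)
  obtain ⟨i, hi1, hi2⟩ := exists_iter_not_le (exists_iter_eq_bot (ozc_isP R) T2 nY) hY
  obtain ⟨w, hw, wZ⟩ := SetLike.not_le_iff_exists.1 hi1
  obtain ⟨wR, wC, ww⟩ := mem_ozc.1 (iter_le nY i hw)
  have wT := RT wR
  have wi : w⁻¹ = w := inv_eq_of_mul_eq_one_left (by rw [← pow_two, ww])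
  have cm : ∀ t ∈ T, ⁅w, t⁆ = 1 ∨ ⁅w, t⁆ = z := fun t ht => mZ _ (hi2 (commutator_mem_commutator hw ht))
  have cj' : ∀ t ∈ T, t * w * t⁻¹ = w ∨ t * w * t⁻¹ = w * z := fun t ht => by
    have e : t * w * t⁻¹ = w * ⁅w, t⁆ := by
      rw [commutatorElement_def, wi]
      conv_rhs => rw [← mul_assoc, ← mul_assoc, ← mul_assoc, ← pow_two, ww, one_mul]
    rw [e]
    exact (cm t ht).imp (fun h => by rw [h, mul_one]) fun h => by rw [h]
  by_cases wQ : w ∈ Q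
  · have c1 : w ∈ 𝒞(Q) := F.ntv z hz z1 w wQ (fun q hq => cm q (QT hq)) (le_norm_of_cj_le fun t ht => by
      rintro _ ⟨q, hq, rfl⟩
      obtain ⟨q1, q2⟩ := mem_fx.1 hq
      refine mem_fx.2 ⟨conj_mem (F.lc.eq.ge (TM ht)) q1, ?_⟩
      have qz : Commute q z := ozc_le_cent T hz q (QT q1)
      have k : Commute q (t⁻¹ * w * t⁻¹⁻¹) := by
        rcases cj' _ (inv_mem ht) with h | h <;> rw [h]
        exacts [q2, q2.mul_right qz]
      change t * q * t⁻¹ * w = w * (t * q * t⁻¹)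
      calc t * q * t⁻¹ * w = t * (q * (t⁻¹ * w * t⁻¹⁻¹)) * t⁻¹ := by group
        _ = _ := by rw [k.eq]; group)
    have U0C : U0 ≤ fx T w := F.der _ (fun q hq => mem_fx.2 ⟨QT hq, c1 q hq⟩) inf_le_left (card_le cj')
    obtain ⟨t, t1, t2⟩ : ∃ t ∈ U0, t ∉ Q := SetLike.not_le_iff_exists.1 fun h => by
      have := card_le_of_le h
      have h0 : 0 < Nat.card Q := Nat.card_pos
      rw [F.card0] at this
      omega
    have wU : w ∈ 𝛀[2] U2 := F.om2 t t1 t2 ▸ mem_fx.2 ⟨mem_ozc.2 ⟨wQ, c1, ww⟩, (mem_fx.1 (U0C t1)).2.symm⟩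
    have wU' := ozc_le_cent U2 wU
    obtain ⟨r, r1, r2⟩ := SetLike.not_le_iff_exists.1 fun h : R ≤ U2 => hJ (hJR.trans h)
    refine wZ (mem_ozc.2 ⟨wT, fun s hs => ?_, ww⟩)
    by_cases sU : s ∈ U2
    · exact wU' s sU
    · have k1 : Commute (r * s) w := wU' _ (p2.mulm r (RT r1) s hs r2 sU)
      have k2 : Commute r w := wC r r1
      have := k2.inv_left.mul_left k1
      rwa [inv_mul_cancel_left] at this
  · have k1 := F.idx Q (T2.to_le QT) F.lc.eq.ge w wT wQ (by rw [← pow_two, ww]; exact one_mem _)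
    have k2 := card_le (D := Q) fun t ht => cj' t (QT ht)
    have k3 : ix Q w ≤ 2 := by
      rw [← ix_mul_card Q w] at k2
      exact Nat.le_of_mul_le_mul_right k2 Nat.card_pos
    have k4 : Nat.card (𝛀[2] Q) ≤ Nat.card Q := card_le_of_le (ozc_le Q)
    have k5 : ix Q w ^ 2 ≤ 2 ^ 2 := Nat.pow_le_pow_left k3 2
    have k6 : ix Q w ^ 3 ≤ 2 ^ 3 := Nat.pow_le_pow_left k3 3
    rcases F.sz with ⟨e, e', -⟩ | ⟨e, e', -⟩ | ⟨e, e', -⟩
    · have := k1.1 e; omega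
    · have := k1.2 e; omega
    · have := k1.2 e; omega

end CL.O8
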