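/-
Project O8 (helper41), job O8-GD1 (helper1): the steps `GD1` and `P2N`.
-/
import Cfsg.Agent.O8.B

set_option autoImplicit false
set_option linter.unusedVariables false

open Cfsg Subgroup CL.Grp CL.Even CL.Loc CL.NGrp
open scoped commutatorElement

namespace CL.O8

universe u

namespace GD1

variable {G : Type u} [Group G] {p p' : ℕ} {M Q T U0 U1 U2 M' Q' U0' U1' U2' U U' : Subgroup G}
  {y1 y2 y1' y2' y y' z : G}

theorem ymem (T : Subgroup G) (y : G) : y ∈ T ⊔ zpowers y := mem_sup_right (mem_zpowers y)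

/-- two parabolic subgroups, one containing the generator of the other, coincide -/
theorem eq_of_mem (F : ParF T U y) (F' : ParF T U' y') (h : y' ∈ T ⊔ zpowers y) :
    T ⊔ zpowers y' = T ⊔ zpowers y := by
  rcases F.max (T ⊔ zpowers y') le_sup_left (sup_le le_sup_left (zpowers_le.2 h)) with e | e
  · exact absurd (le_normalizer (e ▸ ymem T y' : y' ∈ T)) F'.nn
  · exact e

theorem ne_bot (d : DT p M Q T U0 U1 U2 y1 y2) : T ≠ ⊥ := fun e =>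
  d.lc.ne (le_bot_iff.1 (e ▸ d.le0.trans (d.s1.le0.trans d.s1.par.le)))

theorem le1 (d : DT p M Q T U0 U1 U2 y1 y2) : T ⊔ zpowers y1 ≤ M := sup_le d.syl.le (zpowers_le.2 d.s1.yM)

theorem join (T A B : Subgroup G) : T ⊔ A ⊔ B = (T ⊔ A) ⊔ (T ⊔ B) := by rw [sup_assoc, sup_sup_distrib_left]

theorem cent_le (hz : z ∈ 𝛀[2] T) : 𝒞(𝛀[2] T) ≤ centralizer {z} :=
  centralizer_le (Set.singleton_subset_iff.2 hz)

theorem sq_one (hz : z ∈ 𝛀[2] T) : z * z = 1 := by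
  rw [← pow_two]
  exact (mem_ozc.1 hz).2.2

theorem two_cent (h2 : Nat.card (𝛀[2] T) = 2) (hz : z ∈ 𝛀[2] T) (h1 : z ≠ 1) (hc : Commute z y) :
    y ∈ 𝒞(𝛀[2] T) := fun w hw => by
  obtain ⟨a, -, ha⟩ := (Nat.card_eq_two_iff' (1 : 𝛀[2] T)).1 h2
  by_cases e : w = 1
  · rw [e, one_mul, mul_one]
  · have e1 := ha ⟨w, hw⟩ fun h => e (congrArg Subtype.val h)
    have e2 := ha ⟨z, hz⟩ fun h => h1 (congrArg Subtype.val h)
    have e3 : w = z := congrArg Subtype.val (e1.trans e2.symm)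
    rw [e3]
    exact hc.eq

variable [Finite G]

theorem key (hP : ParThm.{u}) (hS : SEThm.{u}) (h8 : Ord8 G) (lc2 : LC2 G) (d : DT p M Q T U0 U1 U2 y1 y2)
    (hJ : 𝐉[2] T ≤ Q) (hN : 𝒩(𝐉[2] T) = M) (syl : IsSylowIn 2 T ⊤) (hy : Par T U y) (hc : y ∈ 𝒞(𝛀[2] T))
    (hz : z ∈ 𝛀[2] T) (h1 : z ≠ 1) (h2 : Commute z y1) : y ∈ M := by
  by_cases hm : y1 ∈ T ⊔ zpowers y
  · have e := eq_of_mem (hP G T U y hy) (hP G T U1 y1 d.s1.par) hm
    exact le1 d (e ▸ ymem T y)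
  · have e := hS G h8 lc2 T U U1 y y1 z syl hy d.s1.par hc hz h1 h2 hm
    have hJU : 𝐉[2] U = 𝐉[2] T := thompsonSubgroupOf_eq_of_le (hJ.trans (e ▸ d.le0.trans d.s1.le0)) hy.le
    rw [← hN, ← hJU]
    exact normalizer_le_normalizer_thompsonSubgroupOf U hy.nU

theorem cent_eq (hP : ParThm.{u}) (hA : LAThm.{u}) (h8 : Ord8 G) (lc2 : LC2 G) (f : FF p M Q T U0 U1 U2 y1 y2)
    (syl : IsSylowIn 2 T ⊤) : 𝒞(𝛀[2] T) = T ⊔ zpowers y1 := by
  have F := hP G T U1 y1 f.s1.par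
  rcases (hA G h8 lc2 T syl (ne_bot f.toDT)).2 with h | ⟨U, y, hy, e⟩
  · exact absurd (h f.c1) F.nn
  · rw [← e]
    exact (eq_of_mem (hP G T U y hy) F (e ▸ f.c1)).symm

theorem two (hP : ParThm.{u}) (hS : SEThm.{u}) (h8 : Ord8 G) (lc2 : LC2 G) (f : FF p M Q T U0 U1 U2 y1 y2)
    (syl : IsSylowIn 2 T ⊤) (hC : 𝒞(𝛀[2] T) = T ⊔ zpowers y1) (d : DT p' M' Q' T U0' U1' U2' y1' y2')
    (e : T ⊔ zpowers y2 = T ⊔ zpowers y2') : M' = M := by
  obtain ⟨z, hz, h1, h2 | h2⟩ := d.hw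
  · by_cases hm : y1' ∈ T ⊔ zpowers y1
    · have e1 := eq_of_mem (hP G T U1 y1 f.s1.par) (hP G T U1' y1' d.s1.par) hm
      rw [← d.gen, ← f.gen, join, join T (zpowers y1), e1, e]
    · have e1 := hS G h8 lc2 T U1 U1' y1 y1' z syl f.s1.par d.s1.par f.c1 hz h1 h2 hm
      refine absurd (hC ▸ (hP G T U1' y1' d.s1.par).gen _ (le_cent_ozc T) ?_) hm
      rw [← f.om1, e1]
      exact norm_le_norm_ozc _ d.s1.par.nU
  · refine absurd (f.lc.nz h8 (sq_one hz) fun g hg => ?_) h1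
    have hM : M ≤ centralizer {z} := by
      rw [← f.gen, join, e, ← hC]
      exact sup_le (cent_le hz) (sup_le ((le_cent_ozc T).trans (cent_le hz))
        (zpowers_le.2 (mem_centralizer_singleton_iff.2 h2.symm.eq)))
    exact mem_centralizer_singleton_iff.1 (hM hg)

omit [Finite G] in
theorem three (f : FF p M Q T U0 U1 U2 y1 y2) (hC : 𝒞(𝛀[2] T) = T ⊔ zpowers y1) (h2 : Nat.card (𝛀[2] T) = 2)
    (d : DT p' M' Q' T U0' U1' U2' y1' y2') (hz : z ∈ 𝛀[2] T) (h1 : z ≠ 1) (hc : Commute z y1') :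
    M' = M ∨ ∃ U y, Par T U y ∧ y ∉ M := by
  by_cases hm : y2' ∈ M
  · have h3 : y1' ∈ M := le1 f.toDT (hC ▸ two_cent h2 hz h1 hc)
    have h4 : M' ≤ M := d.gen ▸ sup_le (sup_le f.syl.le (zpowers_le.2 h3)) (zpowers_le.2 hm)
    exact .inl ((d.lc.max Q f.lc.two f.lc.ne (f.lc.eq ▸ h4)).symm.trans f.lc.eq)
  · exact .inr ⟨U2', y2', d.s2.par, hm⟩

end GD1

theorem gd1Thm (hP : ParThm.{u}) (hJ : JQThm.{u}) (hA : LAThm.{u}) (hS : SEThm.{u}) : GD1Thm.{u} := by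
  intro G _ _ h8 lc2 p M Q T U0 U1 U2 y1 y2 d hle
  obtain ⟨hN, hT, syl, hE⟩ := hJ G M Q T d.lc d.syl hle
  refine hE ?_
  rcases (hA G h8 lc2 T syl (GD1.ne_bot d)).2 with h | ⟨U, y, hy, e⟩
  · exact h.trans hT
  · have hc : y ∈ 𝒞(𝛀[2] T) := e ▸ GD1.ymem T y
    rw [← e]
    refine sup_le d.syl.le (zpowers_le.2 ?_)
    obtain ⟨z, hz, h1, h2 | h2⟩ := d.hw
    · exact GD1.key hP hS h8 lc2 d hle hN syl hy hc hz h1 h2
    · exact GD1.key hP hS h8 lc2 d.symm hle hN syl hy hc hz h1 h2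

theorem p2nThm (hP : ParThm.{u}) (hA : LAThm.{u}) (hS : SEThm.{u}) : P2NThm.{u} := by
  intro G _ _ h8 lc2 p M Q T U0 U1 U2 y1 y2 f syl hD
  have hC := GD1.cent_eq hP hA h8 lc2 f syl
  refine ⟨hC, fun M' Q' lc hle => ?_, fun h2 M' Q' lc hle => ?_⟩
  · obtain ⟨p', U0', U1', U2', y1', y2', d⟩ := hD M' Q' lc (le_sup_left.trans hle)
    have F := hP G T U2 y2 f.s2.par
    rcases d.ovr _ le_sup_left hle with e | e | e | e
    · exact absurd (le_normalizer (e ▸ GD1.ymem T y2 : y2 ∈ T)) F.nn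
    · exact GD1.two hP hS h8 lc2 f syl hC d.symm e
    · exact GD1.two hP hS h8 lc2 f syl hC d e
    · exact absurd (e ▸ F.solv) lc.ns
  · obtain ⟨p', U0', U1', U2', y1', y2', d⟩ := hD M' Q' lc hle
    obtain ⟨z, hz, h1, h3 | h3⟩ := d.hw
    · exact GD1.three f hC h2 d hz h1 h3
    · exact GD1.three f hC h2 d.symm hz h1 h3

end CL.O8
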