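/-
Project O8 (S3432): the step GDA, `C*(G, T)` lies in the 2-local subgroup `M`.
-/
import Cfsg.Agent.O8.B
import Cfsg.Agent.S2751

set_option autoImplicit false
set_option linter.unusedVariables false

open Cfsg Subgroup CL.Grp CL.Even CL.Loc CL.NGrp
open scoped commutatorElement

namespace CL.O8

universe u

namespace GDA

variable {G : Type u} [Group G] [Finite G] {p : ℕ} {M Q T U0 U1 U2 : Subgroup G} {y1 y2 : G}

omit [Finite G] in
theorem norm_char {X B : Subgroup G} (h1 : X ≤ B) (h2 : (X.subgroupOf B).Characteristic) : 𝒩(B) ≤ 𝒩(X) :=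
  le_norm_of_cj_le fun g hg x hx => by
    have h3 := mem_cj.1 hx
    have h4 := (characteristic_iff_le_comap.1 h2) (B.normalizerMonoidHom ⟨g, hg⟩)
      (show (⟨_, h1 h3⟩ : B) ∈ X.subgroupOf B from h3)
    have h5 : g * (g⁻¹ * x * g) * g⁻¹ ∈ X := h4
    simpa [mul_assoc] using h5

theorem bau_eq (h : FF p M Q T U0 U1 U2 y1 y2) (hJ : 𝐉[2] T ≤ U2) : 𝐁[2] U2 = 𝐁[2] T := by
  refine bau_eq_of_le (fun t ht => by_contra fun hn => ?_) h.s2.par.le
  have h1 := bau_le_cent_of ((ozc_le U2).trans h.s2.par.le) (ozc_elem (p := 2) U2)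
    ((ozc_le_cent U2).trans (cent_mono hJ)) ht
  have h2 := h.zt t (bau_le T ht) hn
  rw [show fx (𝛀[2] U2) t = 𝛀[2] U2 from
    inf_eq_left.2 fun v hv => mem_centralizer_singleton_iff.2 (comm_of_mem h1 hv)] at h2
  have h3 := h.sz
  rw [h2] at h3
  omega

theorem no_par (hP : ParThm.{u}) (hU : P2UThm.{u}) (h8 : Ord8 G) (hL : LC2 G) (h : FF p M Q T U0 U1 U2 y1 y2)
    (hT : IsSylowIn 2 T ⊤) (hA : AllD T) (hQ : Nat.card Q ≠ 8) (h7 : p = 7) {U : Subgroup G} {y : G}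
    (hp : Par T U y) : y ∈ M := by
  by_contra hy
  have f2 := hP G T U2 y2 h.s2.par
  have f3 := hP G T U y hp
  have le2 : T ⊔ zpowers y2 ≤ M := sup_le h.syl.le (zpowers_le.2 h.s2.yM)
  have e : (T ⊔ zpowers y2) ⊓ (T ⊔ zpowers y) = T :=
    (f3.max _ (le_inf le_sup_left le_sup_left) inf_le_right).resolve_right fun e =>
      hy (le2 (e.ge (mem_sup_right (mem_zpowers y))).1)
  have hb := Cfsg.Agent.S2751.result (T ⊔ zpowers y2) (T ⊔ zpowers y) ⟨f2.syl.toSylow, by rw [e]; rfl⟩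
    ⟨f3.syl.toSylow, by rw [e]; rfl⟩ f2.s3 f3.s3 fun N h1 h2 h3 => by_contra fun h4 =>
      hy (hU G h8 hL p M Q T U0 U1 U2 y1 y2 h hT hA hQ N (hT.isPGroup.to_le (h1.trans e.le)) h4
        ((normal_subgroupOf_iff_le_normalizer (h1.trans inf_le_left)).1 h2)
        ((normal_subgroupOf_iff_le_normalizer (h1.trans inf_le_right)).1 h3 (mem_sup_right (mem_zpowers y))))
  rw [e, h.s2.par.card, h.s2.card, h.card0] at hb
  obtain ⟨x, hx, ox⟩ := h.ex
  have hm := h8.card_mod (Or.inr (ox.trans h7)) h.lc.two (h.lc.nQ hx)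
  obtain ⟨n, hn⟩ := h.lc.two.exists_card_eq
  have h1 : Nat.card Q ≠ 1 := fun k => h.lc.ne (card_eq_one.1 k)
  rw [ox, h7] at hm
  rw [hn] at hb hm hQ h1
  have h5 : n ≤ 4 := (Nat.pow_le_pow_iff_right (a := 2) (by norm_num)).1 (by omega)
  interval_cases n <;> omega

end GDA

open GDA in
theorem gdaThm (hP : ParThm.{u}) (hM : MXThm.{u}) (hN : P2NThm.{u}) (hU : P2UThm.{u}) (h8 : GA8Thm.{u}) :
    GDAThm.{u} := by
  intro G _ _ hO hL p M Q T U0 U1 U2 y1 y2 h hT hA hQ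
  obtain ⟨n1, -, n3⟩ := hN G hO hL p M Q T U0 U1 U2 y1 y2 h hT hA
  refine .inr ⟨T, Q, hT, h.lc.two, h.lc.ne, h.lc.eq ▸ sup_le (n1.le.trans (sup_le h.syl.le (zpowers_le.2 h.s1.yM)))
    (iSup_le fun ⟨X, x1, x2, x3⟩ => ?_)⟩
  have nX := norm_char x1 x3
  have pX : IsPGroup 2 X := hT.isPGroup.to_le (x1.trans (bau_le T))
  change 𝒩(X) ≤ M
  by_cases hJ : 𝐉[2] T ≤ U2
  · exact hU G hO hL p M Q T U0 U1 U2 y1 y2 h hT hA hQ X pX x2 ((bau_eq h hJ ▸ le_norm_bau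
      (sup_le (hP G T U2 y2 h.s2.par).nT (zpowers_le.2 h.s2.par.nU))).trans nX)
  have hV := h.jj.resolve_left hJ
  have hs : p = 7 ∧ Nat.card (𝛀[2] T) = 2 := by
    have := h.sz
    omega
  have TX : T ≤ 𝒩(X) := (le_norm_bau le_normalizer).trans nX
  by_cases hsol : Group.IsSolvable 𝒩(X)
  · refine (h8 G hO hL p M Q T U0 U1 U2 y1 y2 h hT n1 hs.2 hQ hJ _ hsol (hL X pX x2) TX).resolve_right ?_
    rintro ⟨U, y, k1, k2⟩
    exact k2 (no_par hP hU hO hL h hT hA hQ hs.1 k1)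
  · obtain ⟨M', Q', k1, k2⟩ := hM G hO hL X pX x2 hsol
    rcases n3 hs.2 M' Q' k1 (TX.trans k2) with e | ⟨U, y, k3, k4⟩
    · exact e ▸ k2
    · exact absurd (no_par hP hU hO hL h hT hA hQ hs.1 k3) k4

end CL.O8
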