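/-
Project O8, job GDB (helper28): if `T` is not a Sylow subgroup of `G` then `Q` has order 8.
-/
import Cfsg.Agent.O8.B

set_option autoImplicit false
set_option linter.unusedVariables false

open Cfsg Subgroup CL.Grp CL.Even CL.Loc CL.NGrp
open scoped commutatorElement

namespace CL.O8

universe u

namespace GDB

variable {G : Type u} [Group G] [Finite G] {p : ℕ} {M Q T U0 U1 U2 : Subgroup G} {y1 y2 : G}

theorem mul2 {A B : Subgroup G} (h : A ≤ B) (hc : Nat.card B = 2 * Nat.card A) {s t : G} (hs : s ∈ B) (ht : t ∈ B)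
    (k1 : s ∉ A) (k2 : t ∉ A) : s * t ∈ A := by
  have : A.relIndex B = 2 :=
    Nat.eq_of_mul_eq_mul_left (Nat.card_pos (α := A)) (by rw [card_mul_relIndex h, hc, mul_comm])
  exact (mul_mem_iff_of_index_two (H := A.subgroupOf B) this (a := ⟨s, hs⟩) (b := ⟨t, ht⟩)).2 (iff_of_false k1 k2)

theorem fin (h : FF p M Q T U0 U1 U2 y1 y2) {w z : G} (hw : w ∈ T) (w2 : w * w = 1) (hz : z ∈ 𝛀[2] T) (z1 : z ≠ 1)
    (hc : ∀ q ∈ Q, ⁅w, q⁆ = 1 ∨ ⁅w, q⁆ = z) (hn : T ≤ 𝒩(fx Q w)) (hq : w ∉ 𝒞(Q)) : Nat.card Q = 8 := by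
  by_cases wQ : w ∈ Q
  · exact absurd (h.ntv z hz z1 w wQ hc hn) hq
  have hi : ix Q w = 2 := by
    obtain ⟨q0, hq0, k⟩ : ∃ q0 ∈ Q, ⁅w, q0⁆ ≠ 1 := by
      by_contra e
      push Not at e
      exact hq (mem_centralizer_iff.2 fun q hq' => (commutatorElement_eq_one_iff_mul_comm.1 (e q hq')).symm)
    refine relIndex_eq_two_iff_exists_notMem_and'.2 ⟨q0⁻¹, inv_mem hq0, fun e => k ?_, fun q hq' => ?_⟩
    · rw [inv_mem_iff, mem_centralizer_singleton_iff] at e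
      exact commutatorElement_eq_one_iff_mul_comm.2 e.symm
    · rcases hc q hq' with e | e
      · exact .inr (mem_centralizer_singleton_iff.2 (commutatorElement_eq_one_iff_mul_comm.1 e).symm)
      · refine .inl (mem_centralizer_singleton_iff.2 ?_)
        calc q0⁻¹ * q * w = q0⁻¹ * (⁅w, q⁆⁻¹ * w) * q := by simp only [commutatorElement_def]; group
          _ = q0⁻¹ * (⁅w, q0⁆⁻¹ * w) * q := by rw [e, (hc q0 hq0).resolve_left k]
          _ = w * (q0⁻¹ * q) := by simp only [commutatorElement_def]; group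
  have hV := card_le_of_le (ozc_le (p := 2) Q)
  have k := h.idx Q h.lc.two h.lc.nQ w hw wQ (w2 ▸ one_mem _)
  rw [hi] at k
  rcases h.sz with ⟨e, e', -⟩ | ⟨e, e', -⟩ | ⟨e, e', -⟩
  · have := k.1 e; omega
  · have := k.2 e; omega
  · have := k.2 e; omega

theorem exv {A B : Subgroup G} (hT : IsPGroup 2 T) (hAB : A ≤ B) (hB : B ≤ T) (hc : Nat.card B = 2 * Nat.card A)
    (nA : T ≤ 𝒩(A)) (nB : T ≤ 𝒩(B)) {t0 : G} (h0 : t0 ∈ B) (h1 : t0 ∉ A) (hV : ¬ 𝛀[2] A ≤ centralizer {t0}) :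
    ∃ v ∈ 𝛀[2] A, ∃ z ∈ 𝛀[2] T, z ≠ 1 ∧ ∀ t ∈ B, t ∉ A → ⁅v, t⁆ = z := by
  have := Fact.mk Nat.prime_two
  have nV := le_norm_ozc (p := 2) nA
  obtain ⟨i, k1, k2⟩ := exists_iter_not_le (exists_iter_eq_bot (ozc_isP A) hT nV) hV
  obtain ⟨v, hv, k3⟩ := SetLike.not_le_iff_exists.1 k1
  have hvV := iter_le nV i hv
  have cV : ∀ x ∈ 𝛀[2] A, ∀ t ∈ T, ⁅x, t⁆ ∈ 𝛀[2] A := fun x hx t ht =>
    commutator_le_of_le_norm nV (commutator_mem_commutator hx ht)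
  have same : ∀ x ∈ 𝛀[2] A, ∀ t ∈ B, t ∉ A → ⁅x, t⁆ = ⁅x, t0⁆ := fun x hx t ht k => by
    have e := comm_of_mem (ozc_le_cent A hx) (mul2 hAB hc (inv_mem h0) ht (by rwa [inv_mem_iff]) k)
    calc ⁅x, t⁆ = x * t0 * x⁻¹ * (x * (t0⁻¹ * t)) * x⁻¹ * t⁻¹ := by simp only [commutatorElement_def]; group
      _ = ⁅x, t0⁆ := by rw [← e]; simp only [commutatorElement_def]; group
  have hz := cV v hvV t0 (hB h0)
  refine ⟨v, hvV, ⁅v, t0⁆, mem_ozc.2 ⟨hB (hAB (ozc_le A hz)), mem_centralizer_iff.2 fun s hs => ?_, (mem_ozc.1 hz).2.2⟩,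
    fun e => k3 (mem_centralizer_singleton_iff.2 (commutatorElement_eq_one_iff_mul_comm.1 e)), same v hvV⟩
  have e1 := same _ (conj_mem (nV hs) hvV) _ (conj_mem (nB hs) h0) fun k => h1 (by
    simpa [mul_assoc] using conj_mem' (nA hs) k)
  have e2 : ⁅v, s⁆ * t0 = t0 * ⁅v, s⁆ := mem_centralizer_singleton_iff.1 (k2 (commutator_mem_commutator hv hs))
  have e3 := comm_of_mem (ozc_le_cent A hz) (ozc_le A (cV v hvV s hs))
  rw [← conjugate_commutatorElement] at e1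
  rw [← mul_inv_eq_iff_eq_mul, e1]
  calc ⁅s * v * s⁻¹, t0⁆ = ⁅v, s⁆⁻¹ * ⁅v, t0⁆ * (t0 * ⁅v, s⁆) * t0⁻¹ := by simp only [commutatorElement_def]; group
    _ = ⁅v, s⁆⁻¹ * (⁅v, t0⁆ * ⁅v, s⁆) := by rw [← e2]; group
    _ = ⁅v, t0⁆ := by rw [← e3]; group

theorem fin2 (h : FF p M Q T U0 U1 U2 y1 y2) {A B : Subgroup G} (hAB : A ≤ B) (hB : B ≤ T)
    (hc : Nat.card B = 2 * Nat.card A) (nA : T ≤ 𝒩(A)) (nB : T ≤ 𝒩(B)) {t0 : G} (h0 : t0 ∈ B) (h1 : t0 ∉ A)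
    (hV : ¬ 𝛀[2] A ≤ centralizer {t0}) {g : G} (gT : g ∈ 𝒩(T)) (hQ : Q ≤ cj g B) (hn : ¬ Q ≤ cj g A) :
    Nat.card Q = 8 := by
  obtain ⟨v, hv, z, hz, z1, hk⟩ := exv h.syl.isPGroup hAB hB hc nA nB h0 h1 hV
  have e0 : ∀ q, ⁅g * v * g⁻¹, q⁆ = g * ⁅v, g⁻¹ * q * g⁆ * g⁻¹ := fun q => by
    simp only [commutatorElement_def]; group
  have e1 : ∀ q ∈ cj g A, ⁅g * v * g⁻¹, q⁆ = 1 := fun q hq => by
    rw [e0, commutatorElement_eq_one_iff_mul_comm.2 (comm_of_mem (ozc_le_cent A hv) (mem_cj.1 hq)).symm]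
    group
  have e2 : ∀ q ∈ Q, q ∉ cj g A → ⁅g * v * g⁻¹, q⁆ = g * z * g⁻¹ := fun q hq k => by
    rw [e0, hk _ (mem_cj.1 (hQ hq)) fun e => k (mem_cj.2 e)]
  have z1' : g * z * g⁻¹ ≠ 1 := fun e => z1 (conj_eq_one_iff.1 e)
  have e3 : fx Q (g * v * g⁻¹) = Q ⊓ cj g A := by
    ext q
    rw [mem_fx, mem_inf]
    refine and_congr_right fun hq => ⟨fun k => ?_, fun k => (commutatorElement_eq_one_iff_commute.1 (e1 q k)).symm⟩
    by_contra k'
    exact z1' ((e2 q hq k').symm.trans (commutatorElement_eq_one_iff_commute.2 k.symm))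
  refine fin h (w := g * v * g⁻¹) (conj_mem gT (hB (hAB (ozc_le A hv)))) ?_ (conj_mem (norm_le_norm_ozc T gT) hz) z1'
    (fun q hq => (em (q ∈ cj g A)).imp (e1 q) (e2 q hq)) ?_ fun k => hn fun q hq => ?_
  · rw [conj_mul, ← sq, (mem_ozc.1 hv).2.2]; group
  · rw [e3]
    refine le_norm_inf (h.syl.le.trans h.lc.nQ) ?_
    rw [← cj_norm, ← cj_eq gT]
    exact cj_mono g nA
  · exact (e3.le (mem_fx.2 ⟨hq, comm_of_mem k hq⟩)).2

theorem step1 (hP : ParThm.{u}) (hA : LAThm.{u}) (h8 : Ord8 G) (hL : LC2 G) (h : FF p M Q T U0 U1 U2 y1 y2)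
    {S : Subgroup G} (hS : IsSylowIn 2 S ⊤) (hTS : T ≤ S) : S ⊓ 𝒩(T) ≤ 𝒩(U1) := by
  have := Fact.mk Nat.prime_two
  have F1 := hP G T U1 y1 h.s1.par
  have QT : Q ≤ T := h.le0.trans (h.s1.le0.trans h.s1.par.le)
  have SM : S ⊓ M = T := h.syl.eq_of_le hS.isPGroup.to_inf_left (le_inf hTS h.syl.le) inf_le_right
  have hZ : 𝛀[2] S ≤ 𝛀[2] T := le_ozc (ozc_elem S)
    (((ozc_le_cent S).trans (cent_mono (QT.trans hTS))).trans (h.lc.cQ.trans QT)) ((ozc_le_cent S).trans (cent_mono hTS))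
  have hy : y1 ∈ 𝒞(𝛀[2] S) := cent_mono hZ h.c1
  rcases (hA G h8 hL S hS fun e => h.lc.ne (eq_bot_iff.2 (e ▸ QT.trans hTS))).2 with k | ⟨U, y, hU, k⟩
  · exact absurd (mem_norm_of_cj_le
      ((le_inf (cj_le_of_le hTS (k hy)) (cj_le_of_mem h.syl.le h.s1.yM)).trans SM.le)) F1.nn
  have F := hP G S U y hU
  have nU : S ⊔ zpowers y ≤ 𝒩(U) := sup_le F.nT (zpowers_le.2 hU.nU)
  rw [← k] at hy
  have e : U1 = T ⊓ U := by
    refine le_antisymm (le_inf h.s1.par.le fun u hu => ?_) ?_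
    · by_contra uU
      have uS := hTS (h.s1.par.le hu)
      have US : U1 ≤ S := h.s1.par.le.trans hTS
      obtain ⟨v, hv, e⟩ := F.three y1 hy h.s1.par.ord
      have k1 := hU.inv _ (mul_mem (mul_mem (hU.le hv) uS) (inv_mem (hU.le hv))) fun k' =>
        uU (by simpa [mul_assoc] using mul_mem (mul_mem (inv_mem hv) k') hv)
      have k2 := hU.le (mul_mem (mul_mem (inv_mem hv) k1) hv)
      have k3 : y1 ^ 2 ∈ S := by
        rcases e with e | e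
        · have k4 := US (mul_mem hu (conj_mem h.s1.par.nU (inv_mem hu)))
          convert mul_mem (inv_mem k4) k2 using 1
          rw [← e, sq]; group
        · have k4 := US (mul_mem hu (conj_mem' h.s1.par.nU (inv_mem hu)))
          convert inv_mem (mul_mem (inv_mem k4) k2) using 1
          rw [← inv_eq_iff_eq_inv.2 e]; group
      have c3 : (orderOf y1).Coprime 2 := by rw [h.s1.par.ord]; decide
      have k5 := h.s1.par.ord
      rw [eq_one_of_coprime_of_mem hS.isPGroup c3 (mem_of_pow_mem_of_coprime c3 k3), orderOf_one] at k5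
      exact absurd k5 (by decide)
    · rw [← F1.core]
      refine le_core (inf_le_left.trans le_sup_left) h.s1.par.two.to_inf_left
        (sup_le (le_norm_inf le_normalizer (hTS.trans F.nT)) (zpowers_le.2 (mem_norm_of_cj_le ?_)))
      have k1 : cj y1 (T ⊓ U) ≤ U := cj_le_of_le inf_le_right (nU hy)
      exact le_inf ((le_inf (k1.trans hU.le) (cj_le_of_mem (inf_le_left.trans h.syl.le) h.s1.yM)).trans SM.le) k1
  rw [e]
  exact le_norm_inf inf_le_right (inf_le_left.trans F.nT)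

end GDB

open GDB in
theorem gdbThm (hP : ParThm.{u}) (hA : LAThm.{u}) : GDBThm.{u} := by
  intro G _ _ h8 hL p M Q T U0 U1 U2 y1 y2 h hT
  have := Fact.mk Nat.prime_two
  obtain ⟨S, hS, hTS⟩ := exists_isSylowIn_ge h.syl.isPGroup (le_top (a := T))
  obtain ⟨x, hx, xT⟩ := SetLike.exists_of_lt
    (lt_inf_normalizer_of_isPGroup hS.isPGroup (lt_of_le_of_ne hTS fun e => hT (e ▸ hS)))
  obtain ⟨k, hk⟩ := isPGroup_iff_forall.1 hS.isPGroup x hx.1
  obtain ⟨j, gT, g2⟩ := exists_pow_notMem_pow_prime_mem (hk ▸ T.one_mem) xT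
  have hg := pow_mem hx (2 ^ j)
  generalize x ^ 2 ^ j = g at gT g2 hg
  have gU := step1 hP hA h8 hL h hS hTS hg
  have F1 := hP G T U1 y1 h.s1.par
  have F2 := hP G T U2 y2 h.s2.par
  have nQ : T ≤ 𝒩(Q) := h.syl.le.trans h.lc.nQ
  have gQ : ¬ Q ≤ cj g Q := fun e => gT
    ((h.syl.eq_of_le hS.isPGroup.to_inf_left (le_inf hTS h.syl.le) inf_le_right).le ⟨hg.1, h.lc.eq ▸
      cj_eq_iff_mem.1 (eq_of_le_of_card_ge e (card_cj g Q).le).symm⟩)
  have Q1 : Q ≤ U1 := h.le0.trans h.s1.le0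
  have nQ' : T ≤ 𝒩(cj g Q) := by
    rw [← cj_norm, ← cj_eq hg.2]
    exact cj_mono g nQ
  rcases h.s1.nrm (Q ⊔ cj g Q) le_sup_left (sup_le Q1 (cj_le_of_le Q1 gU)) (le_norm_sup nQ nQ') with e | e | e
  · exact absurd (eq_of_le_of_card_ge (le_sup_right.trans e.le) (card_cj g Q).ge).ge gQ
  · obtain ⟨t, ht, tQ⟩ : ∃ t ∈ U0, t ∉ Q := by
      refine SetLike.not_le_iff_exists.1 fun k => ?_
      have := card_le_of_le k
      have := h.card0
      have := Nat.card_pos (α := Q)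
      omega
    refine fin2 h h.le0 (h.s1.le0.trans h.s1.par.le) h.card0 nQ (e ▸ le_norm_sup nQ nQ') ht tQ
      (fun k => tQ (h.lc.cV (mem_centralizer_iff.2 fun v hv => mem_centralizer_singleton_iff.1 (k hv)))) hg.2 ?_ gQ
    rw [← e, cj_sup, ← cj_mul, ← sq, cj_eq (nQ g2)]
    exact le_sup_right
  · obtain ⟨t, ht, tU, -⟩ := F2.ex
    refine fin2 h h.s2.par.le le_rfl h.s2.par.card F2.nT le_normalizer ht tU (fun k => ?_) hg.2
      ((Q1.trans h.s1.par.le).trans (cj_eq hg.2).ge) fun k => tU ?_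
    · have k1 := h.zt t ht tU
      rw [fx, inf_eq_left.2 k] at k1
      rcases h.sz with ⟨-, -, e1, e2⟩ | ⟨-, -, e1, e2⟩ | ⟨-, -, e1, e2⟩ <;> rw [k1] at e1 <;> omega
    · have k1 : cj g U1 ≤ cj g U2 := by
        rw [cj_eq gU, ← e]
        exact sup_le k (cj_mono g (h.le0.trans h.s2.le0))
      exact sup_le (cj_le_cj.1 k1) le_rfl (h.sup ▸ ht)

end CL.O8
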