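/-
Project O8, job HW: a central involution of the Sylow subgroup centralised by a parabolic subgroup, and the absence of
transvections in the case `A₆`.
-/
import Cfsg.Agent.O8.B
import Cfsg.Agent.Perm.ZassStruct

set_option autoImplicit false
set_option linter.unusedVariables false

open Cfsg Subgroup CL.Grp CL.Even CL.Loc CL.NGrp
open scoped commutatorElement

namespace CL.O8

universe u

namespace HW

variable {G : Type u} [Group G]

/-- the commutative group structure of `Ω₁(Z(Q))` -/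
@[reducible] def cg (Q : Subgroup G) : CommGroup (𝛀[2] Q) :=
  { (inferInstance : Group (𝛀[2] Q)) with
    mul_comm := fun p q => Subtype.ext (comm_of_mem (elem_le_cent (ozc_elem Q) q.2) p.2) }

attribute [local instance] cg

theorem sq {Q : Subgroup G} {v : G} (hv : v ∈ 𝛀[2] Q) : v * v = 1 := by rw [← pow_two]; exact (mem_ozc.1 hv).2.2

theorem rel {A : Type*} [CommGroup A] {ζ α : ℕ → A} (h1 : ∀ i, ζ i ≠ 1)
    (h2 : ∀ i < 5, ∀ j < 5, i ≠ j → ζ i * ζ j ≠ 1) (h3 : ∏ i ∈ Finset.range 5, ζ i = 1)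
    (ha : ∀ i, α i = 1 ∨ α i = ζ i) (h4 : ∏ i ∈ Finset.range 5, α i = 1) {i j : ℕ} (hi : i < 5) (hj : j < 5)
    (e : α i = 1) : α j = 1 := by
  classical
  have key : ∀ S ⊆ Finset.range 5, ∏ i ∈ S, ζ i = 1 → S.card ≠ 1 ∧ S.card ≠ 2 := fun S hS k => by
    refine ⟨fun c => ?_, fun c => ?_⟩
    · obtain ⟨a, rfl⟩ := Finset.card_eq_one.1 c
      exact h1 a (by simpa using k)
    · obtain ⟨a, b, n, rfl⟩ := Finset.card_eq_two.1 c
      rw [Finset.prod_pair n] at k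
      exact h2 a (Finset.mem_range.1 (hS (by simp))) b (Finset.mem_range.1 (hS (by simp))) n k
  by_contra c
  have e1 : ∏ i ∈ (Finset.range 5).filter (α · ≠ 1), ζ i = 1 := by
    rw [← Finset.prod_filter_ne_one] at h4
    exact (Finset.prod_congr rfl fun k hk => ((ha k).resolve_left (Finset.mem_filter.1 hk).2).symm).trans h4
  have e2 := Finset.prod_filter_mul_prod_filter_not (Finset.range 5) (α · ≠ 1) ζ
  rw [e1, h3, one_mul] at e2
  have e3 := Finset.card_filter_add_card_filter_not (s := Finset.range 5) (α · ≠ 1)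
  have k1 := key _ (Finset.filter_subset _ _) e1
  have k2 := key _ (Finset.filter_subset _ _) e2
  have k3 : 0 < ((Finset.range 5).filter (α · ≠ 1)).card :=
    Finset.card_pos.2 ⟨j, Finset.mem_filter.2 ⟨Finset.mem_range.2 hj, c⟩⟩
  have k4 : 0 < ((Finset.range 5).filter fun k => ¬ α k ≠ 1).card :=
    Finset.card_pos.2 ⟨i, Finset.mem_filter.2 ⟨Finset.mem_range.2 hi, fun k => k e⟩⟩
  rw [Finset.card_range] at e3
  omega

variable [Finite G]

/-- the product over an orbit is trivial -/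
theorem nrm (h : Ord8 G) {Q : Subgroup G} (hQ : IsPGroup 2 Q) {x : G} (hx : orderOf x = 5 ∨ orderOf x = 7)
    (hn : x ∈ 𝒩(𝛀[2] Q)) (f : ℕ → 𝛀[2] Q) (hf : ∀ i, (f (i + 1) : G) = x * f i * x⁻¹) {p : ℕ} (e : f p = f 0) :
    ∏ i ∈ Finset.range p, f i = 1 := by
  let ψ : 𝛀[2] Q →* 𝛀[2] Q := MonoidHom.mk' (fun v => ⟨x * v * x⁻¹, conj_mem hn v.2⟩)
    fun p q => Subtype.ext (by simp [mul_assoc])
  have e2 := (Finset.prod_range_succ f p).symm.trans (Finset.prod_range_succ' f p)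
  rw [e, mul_left_inj] at e2
  have e3 : ψ (∏ i ∈ Finset.range p, f i) = ∏ i ∈ Finset.range p, f i := by
    rw [map_prod]
    exact (Finset.prod_congr rfl fun i _ => Subtype.ext (hf i).symm).trans e2.symm
  exact Subtype.ext (h.fpf2 hx (hQ.to_le (ozc_le Q)) (Subtype.property _)
    (mul_inv_eq_iff_eq_mul.1 (congrArg Subtype.val e3)))

/-- no fixed cosets -/
theorem mem_of (h : Ord8 G) {Q K : Subgroup G} (hQ : IsPGroup 2 Q) {x w : G} (hx : orderOf x = 5 ∨ orderOf x = 7)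
    (hK : K ≤ Q) (hn : ∀ k ∈ K, x * k * x⁻¹ ∈ K) (hw : w ∈ Q) (e : w * x * w⁻¹ * x⁻¹ ∈ K) : w ∈ K := by
  obtain ⟨c, hc, k⟩ := CL.Perm.exists_comm_of_fpf hn (fun y hy k => h.fpf2 hx hQ (hK hy) k) e
  have : c⁻¹ * w = 1 := h.fpf2 hx hQ (mul_mem (inv_mem (hK hc)) hw) (by
    change x * (c⁻¹ * w) = c⁻¹ * w * x
    calc _ = c⁻¹ * (c * x * c⁻¹ * x⁻¹) * x * w := by group
      _ = _ := by rw [← k]; group)
  rwa [← inv_mul_eq_one.1 this]

end HW

open HW

attribute [local instance] HW.cg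

theorem pw5Thm : PW5Thm.{u} := by
  intro G _ _ h Q T x z hQ hn ox _ hz z1 w hw hc _
  have hx : orderOf x = 5 ∨ orderOf x = 7 := .inl ox
  have x5 : x ^ 5 = 1 := ox ▸ pow_orderOf_eq_one x
  have nV : ∀ i : ℕ, x ^ i ∈ 𝒩(𝛀[2] Q) := fun i => pow_mem (norm_le_norm_ozc Q hn) i
  have nQ : ∀ i : ℕ, x ^ i ∈ 𝒩(Q) := fun i => pow_mem hn i
  let ζ : ℕ → 𝛀[2] Q := fun i => ⟨x ^ i * z * (x ^ i)⁻¹, conj_mem (nV i) hz⟩
  have hi : ∀ i : ℕ, ∀ q ∈ Q, ⁅x ^ i * w * (x ^ i)⁻¹, q⁆ = 1 ∨ ⁅x ^ i * w * (x ^ i)⁻¹, q⁆ = ζ i := fun i q hq => by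
    have e : ⁅x ^ i * w * (x ^ i)⁻¹, q⁆ = x ^ i * ⁅w, (x ^ i)⁻¹ * q * x ^ i⁆ * (x ^ i)⁻¹ := by
      simp only [commutatorElement_def]; group
    rw [e]
    exact (hc _ (conj_mem' (nQ i) hq)).imp (fun k => by rw [k]; group) fun k => by rw [k]
  have hV : ∀ i : ℕ, ∀ q ∈ Q, ⁅x ^ i * w * (x ^ i)⁻¹, q⁆ ∈ 𝛀[2] Q := fun i q hq =>
    (hi i q hq).elim (fun k => k ▸ one_mem _) fun k => k ▸ (ζ i).2
  have h2 : ∀ i < 5, ∀ j < 5, i < j → ζ i * ζ j ≠ 1 := fun i _ j hj lt k => by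
    have e : x ^ i * z * (x ^ i)⁻¹ = x ^ j * z * (x ^ j)⁻¹ :=
      (inv_eq_of_mul_eq_one_right (sq (ζ i).2)).symm.trans (inv_eq_of_mul_eq_one_right (congrArg Subtype.val k))
    obtain ⟨m, rfl⟩ := Nat.exists_eq_add_of_le lt.le
    refine z1 (h.fpf2 (x := x ^ m) (.inl ?_) hQ (ozc_le Q hz) ?_)
    · rw [← ox, Nat.Coprime.orderOf_pow]
      rw [ox]
      exact Nat.coprime_of_lt_prime (by omega) (by omega) Nat.prime_five
    · change x ^ m * z = z * x ^ m
      calc _ = (x ^ i)⁻¹ * (x ^ (i + m) * z * (x ^ (i + m))⁻¹) * x ^ i * x ^ m := by rw [pow_add]; group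
        _ = _ := by rw [← e]; group
  have wQ : ∀ i : ℕ, x ^ i * w * (x ^ i)⁻¹ ∈ Q := fun i => conj_mem (nQ i) hw
  generalize hW : (fun i : ℕ => x ^ i * w * (x ^ i)⁻¹) = W
  replace hW : ∀ i : ℕ, x ^ i * w * (x ^ i)⁻¹ = W i := congrFun hW
  simp only [hW] at hi hV wQ
  have W0 : W 0 = w := by rw [← hW]; simp
  have Ws : ∀ i, W (i + 1) = x * W i * x⁻¹ := fun i => by rw [← hW, ← hW, pow_succ']; group
  have W5 : x * W 4 * x⁻¹ = W 0 := by rw [← Ws, ← hW, ← hW, x5, pow_zero]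
  have rQ : W 1 * W 2 * W 3 * W 4 ∈ Q := mul_mem (mul_mem (mul_mem (wQ 1) (wQ 2)) (wQ 3)) (wQ 4)
  have uV : W 0 * (W 1 * W 2 * W 3 * W 4) ∈ 𝛀[2] Q := by
    refine mem_of h hQ hx (ozc_le Q) (fun k hk => conj_mem (norm_le_norm_ozc Q hn) hk) (mul_mem (wQ 0) rQ) ?_
    have e : x * (W 0 * (W 1 * W 2 * W 3 * W 4)) * x⁻¹ = W 1 * W 2 * W 3 * W 4 * W 0 := by
      nth_rewrite 2 [← W5]
      nth_rewrite 2 [Ws 3, Ws 2, Ws 1]
      nth_rewrite 2 [Ws 0]
      group
    convert hV 0 _ rQ using 1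
    calc _ = W 0 * (W 1 * W 2 * W 3 * W 4) * (x * (W 0 * (W 1 * W 2 * W 3 * W 4)) * x⁻¹)⁻¹ := by group
      _ = _ := by rw [e, commutatorElement_def]; group
  have key : ∀ q ∈ Q, ∀ i < 5, ∀ j < 5, ⁅W i, q⁆ = 1 → ⁅W j, q⁆ = 1 := fun q hq i li j lj e => by
    let α : ℕ → 𝛀[2] Q := fun i => ⟨⁅W i, q⁆, hV i q hq⟩
    have st : ∀ (i : ℕ) (v : 𝛀[2] Q), W i * (v * q) * (W i)⁻¹ = (α i * v : 𝛀[2] Q) * q := fun i v => by
      rw [mul_comm (α i), coe_mul, ← mul_assoc, comm_of_mem (ozc_le_cent Q v.2) (wQ i)]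
      simp only [α, commutatorElement_def]
      group
    refine congrArg Subtype.val (rel (ζ := ζ) (α := α) (fun i k => z1 ?_) (fun i a j b n => ?_)
      (nrm h hQ hx (norm_le_norm_ozc Q hn) ζ (fun i => ?_) (Subtype.ext ?_))
      (fun i => (hi i q hq).imp Subtype.ext Subtype.ext) (Subtype.ext ?_) li lj (Subtype.ext e))
    · simpa [ζ] using congrArg Subtype.val k
    · rcases lt_or_gt_of_ne n with l | l
      · exact h2 i a j b l
      · rw [mul_comm]; exact h2 j b i a l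
    · simp only [ζ, pow_succ']; group
    · simp only [ζ, x5, pow_zero]
    · have e1 : W 0 * (W 1 * (W 2 * (W 3 * (W 4 * ((1 : 𝛀[2] Q) * q) * (W 4)⁻¹) * (W 3)⁻¹) * (W 2)⁻¹) * (W 1)⁻¹) *
          (W 0)⁻¹ = q := by
        calc _ = W 0 * (W 1 * W 2 * W 3 * W 4) * q * (W 0 * (W 1 * W 2 * W 3 * W 4))⁻¹ := by
              rw [OneMemClass.coe_one]; group
          _ = q := conj_eq_of_mem (ozc_le_cent Q uV) hq
      rw [st, st, st, st, st, mul_eq_right] at e1
      simp only [Finset.prod_range_succ, Finset.prod_range_zero, one_mul, mul_assoc]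
      rwa [mul_one] at e1
  have kc : ∀ q ∈ Q, ⁅w, x * q * x⁻¹⁆ = 1 ↔ ⁅w, q⁆ = 1 := fun q hq => by
    have e : ⁅W 1, x * q * x⁻¹⁆ = x * ⁅W 0, q⁆ * x⁻¹ := by
      rw [Ws 0]; simp only [commutatorElement_def]; group
    rw [← W0]
    exact ⟨fun k => by simpa [e] using key _ (conj_mem hn hq) 0 (by omega) 1 (by omega) k,
      fun k => key _ (conj_mem hn hq) 1 (by omega) 0 (by omega) (by rw [e, k]; group)⟩
  have mf : ∀ q, q ∈ fx Q w ↔ q ∈ Q ∧ ⁅w, q⁆ = 1 := fun q => by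
    rw [mem_fx, commutatorElement_eq_one_iff_commute, Commute.symm_iff]
  intro q hq
  by_contra k
  have k1 : ⁅w, q⁆ ≠ 1 := fun e => k (commutatorElement_eq_one_iff_mul_comm.1 e).symm
  refine k1 ((mf q).1 (mem_of h hQ hx inf_le_left (fun r hr => (mf _).2 ⟨conj_mem hn ((mf r).1 hr).1,
    (kc r ((mf r).1 hr).1).2 ((mf r).1 hr).2⟩) hq ((mf _).2 ⟨?_, ?_⟩))).2
  · simpa only [mul_assoc] using mul_mem hq (conj_mem hn (inv_mem hq))
  · have e1 := (hc q hq).resolve_left k1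
    have e2 := (hc _ (conj_mem hn (inv_mem hq))).resolve_left fun e => k1 (by
      have := (kc _ (inv_mem hq)).1 e
      rw [commutatorElement_eq_one_iff_commute] at this ⊢
      simpa using this.inv_right)
    calc _ = ⁅w, q⁆ * (q * ⁅w, x * q⁻¹ * x⁻¹⁆ * q⁻¹) := by simp only [commutatorElement_def]; group
      _ = 1 := by rw [e1, e2, comm_of_mem (ozc_le_cent Q hz) hq, mul_inv_cancel_right, sq hz]

theorem hwThm : HWThm.{u} := by
  intro G _ _ h p M Q X _ π z a b c d y1 y2 hL hq dx e1 e2 o1 o2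
  set T := prm π (closure {a, b}) with hT
  have hc : Cov M Q := hL.toCov
  have hk : π.ker = Q.subgroupOf M := by ext m; exact hq.ker m
  have QT : Q ≤ T := fun q hq' =>
    (mem_prm (m := ⟨q, hc.le hq'⟩)).2 (by rw [(hq.ker ⟨q, hc.le hq'⟩).2 hq']; exact one_mem _)
  have T2 : IsPGroup 2 T := (dx.syl.isPGroup.comap_of_ker_isPGroup π (hk ▸ hc.two.comap_subtype)).map _
  obtain ⟨v, hv, v1⟩ := (bot_or_exists_ne_one _).resolve_left
    (ozc_ne_bot T2 fun e => hc.ne (eq_bot_iff.2 (QT.trans e.le)))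
  by_contra hcon
  push Not at hcon
  have vC := cent_mono QT (ozc_le_cent T hv)
  have vV : v ∈ 𝛀[2] Q := mem_ozc.2 ⟨hL.cQ vC, vC, (mem_ozc.1 hv).2.2⟩
  have nV : ∀ m : M, (m : G) ∈ 𝒩(𝛀[2] Q) := fun m => le_norm_ozc hc.nQ m.2
  obtain ⟨φ, hφ⟩ : ∃ φ : X → 𝛀[2] Q, ∀ y : M, (φ (π y) : G) = y * v * (y : G)⁻¹ := by
    choose s hs using hq.surj
    refine ⟨fun y => ⟨s y * v * (s y : G)⁻¹, conj_mem (nV _) vV⟩, fun y => ?_⟩
    have := conj_eq_of_mem (le_cent_ozc Q (hq.eq_iff.1 (hs (π y)))) (conj_mem (nV y) vV)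
    simpa [mul_assoc] using this
  have hl : ∀ (y : M) (g : X), (φ (π y * g) : G) = y * φ g * (y : G)⁻¹ := fun y g => by
    obtain ⟨g, rfl⟩ := hq.surj g
    rw [← map_mul, hφ, hφ, coe_mul]
    group
  have hr : ∀ t ∈ closure {a, b}, ∀ g, φ (g * t) = φ g := fun t ht g => by
    obtain ⟨g, rfl⟩ := hq.surj g
    obtain ⟨t, rfl⟩ := hq.surj t
    apply Subtype.ext
    rw [← map_mul, hφ, hφ, coe_mul, mul_assoc (g : G) t v, comm_of_mem (ozc_le_cent T hv) (mem_prm.2 ht)]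
    group
  have ha : a ∈ closure {a, b} := subset_closure (by simp)
  have hb : b ∈ closure {a, b} := subset_closure (by simp)
  have hz : z ∈ closure {a, b} := dx.ab ▸ mul_mem (mul_mem ha hb) (mul_mem ha hb)
  have side : ∀ (a' b' : X) (y : M), closure {a', b'} = closure {a, b} → π y * z * (π y)⁻¹ = a' →
      π y * a' * (π y)⁻¹ = a' * z → a' * a' = 1 → a' * z = z * a' → b' * π y * b'⁻¹ = (π y)⁻¹ → orderOf (π y) = 3 →
      (∀ w ∈ 𝛀[2] T, w ≠ 1 → ¬ Commute w y) → ∀ g, φ g * φ (g * π y) * φ (g * π y * π y) = 1 := by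
    intro a' b' y e k1 k2 k3 k4 k5 k6 k7
    set c' := π y with hc'
    have ha' : a' ∈ closure {a, b} := e ▸ subset_closure (by simp)
    have hb' : b' ∈ closure {a, b} := e ▸ subset_closure (by simp)
    have c3 : c' * c' * c' = 1 := by rw [← pow_three', ← k6, pow_orderOf_eq_one]
    let W : X → 𝛀[2] Q := fun g => φ g * φ (g * c') * φ (g * c' * c')
    have wl : ∀ (m : M) (g : X), (W (π m * g) : G) = m * W g * (m : G)⁻¹ := fun m g => by
      simp only [W, coe_mul, mul_assoc (π m), hl]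
      group
    have r1 : a' * c' = c' * z := by rw [← k1]; group
    have r2 : z * c' = c' * (a' * z) := by
      have : c' * (a' * z) * c'⁻¹ = z := by
        rw [← conj_mul, k2, k1, k4, mul_assoc, k3, mul_one]
      exact (mul_inv_eq_iff_eq_mul.1 this).symm
    have r3 : b' * c' = c' * c' * b' := by
      rw [mul_inv_eq_iff_eq_mul.1 k5, inv_eq_of_mul_eq_one_left c3]
    have wa : W a' = W 1 := by
      simp only [W, one_mul]
      rw [r1, mul_assoc c' z, r2, ← mul_assoc c' c', hr _ hz, hr _ (mul_mem ha' hz), ← one_mul a', hr _ ha']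
    have wb : W b' = W 1 := by
      simp only [W, one_mul]
      rw [r3, mul_assoc (c' * c') b', r3, show c' * c' * (c' * c' * b') = c' * (c' * c' * c') * b' by group, c3, mul_one,
        hr _ hb', hr _ hb', ← one_mul b', hr _ hb', mul_right_comm]
    have wc : W c' = W 1 := by
      simp only [W, one_mul]
      rw [c3, mul_comm, mul_assoc]
    have wt : ∀ t ∈ closure {a', b'}, W t = W 1 := fun t ht => by
      induction ht using closure_induction with
      | mem x hx => rcases hx with rfl | rfl; exacts [wa, wb]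
      | one => rfl
      | mul s t _ _ hs ht =>
        obtain ⟨s, rfl⟩ := hq.surj s
        apply Subtype.ext
        rw [wl, ht, ← wl, mul_one, hs]
      | inv s _ hs =>
        obtain ⟨s, rfl⟩ := hq.surj s
        apply Subtype.ext
        rw [← mul_one (π s)⁻¹, ← map_inv, wl, ← hs, ← wl, map_inv, inv_mul_cancel, hs]
    have cm : ∀ m : M, W (π m) = W 1 → (m : G) * W 1 = W 1 * m := fun m k =>
      mul_inv_eq_iff_eq_mul.1 (by rw [← wl, mul_one, k])
    have w1 : (W 1 : G) = 1 := by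
      by_contra k
      refine k7 _ (mem_ozc.2 ⟨QT (ozc_le Q (W 1).2), fun t ht => ?_, (mem_ozc.1 (W 1).2).2.2⟩) k (cm y wc).symm
      exact cm ⟨t, prm_le ht⟩ (wt _ (e.ge ((mem_prm (m := ⟨t, prm_le ht⟩)).1 ht)))
    intro g
    obtain ⟨g, rfl⟩ := hq.surj g
    apply Subtype.ext
    have := wl g 1
    rw [mul_one, w1, mul_one, mul_inv_cancel] at this
    exact this
  subst e1 e2
  have := dx.hw _ φ (fun p => Subtype.ext (sq p.2)) (hr a ha) (hr b hb)
    (side a b y1 rfl dx.cz dx.ca dx.aa dx.za dx.bc dx.c3 fun w hw w1 => (hcon w hw w1).1)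
    (side b a y2 (by rw [Set.pair_comm]) dx.dz dx.db dx.bb dx.zb dx.ad dx.d3 fun w hw w1 => (hcon w hw w1).2)
    fun g x ox => by
      obtain ⟨x, rfl, hx⟩ := hq.lift_odd hc.two (x := x) (by rw [ox]; rcases dx.hp with rfl | rfl <;> decide)
      refine nrm h hc.two (x := x) (by rw [hx, ox]; exact dx.hp) (nV x) (fun i => φ (π x ^ i * g))
        (fun i => by rw [pow_succ', mul_assoc, hl]) ?_
      rw [← ox, pow_orderOf_eq_one, pow_zero]
  have e2 := hφ 1
  rw [map_one, this] at e2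
  exact v1 (by simpa using e2.symm)

end CL.O8
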