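/-
Project O8, job KA: the sections `A₇` and `L₃(4)` do not normalise a nontrivial 2-subgroup.
-/
import Cfsg.Agent.O8.A

set_option autoImplicit false
set_option linter.unusedVariables false

open Cfsg Subgroup CL.Grp CL.Even CL.Loc CL.NGrp
open scoped commutatorElement

namespace CL.O8

universe u

namespace KA

variable {G : Type u} [Group G]

theorem fx_congr {V : Subgroup G} {a b : G} (h : a * b⁻¹ ∈ 𝒞(V)) : fx V a = fx V b := by
  ext v
  simp only [mem_fx, and_congr_right_iff]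
  intro hv
  have c : Commute v (a * b⁻¹) := comm_of_mem h hv
  exact ⟨fun k => by simpa using c.inv_right.mul_right k, fun k => by simpa using c.mul_right k⟩

theorem card_fx_conj {V : Subgroup G} {y : G} (hy : y ∈ 𝒩(V)) (m : G) :
    Nat.card (fx V (y * m * y⁻¹)) = Nat.card (fx V m) := by
  rw [← card_cj y (fx V m)]
  congr 2
  ext v
  rw [mem_cj, mem_fx, mem_fx]
  refine and_congr ⟨conj_mem' hy, fun k => by simpa [mul_assoc] using conj_mem hy k⟩ ⟨fun k => ?_, fun k => ?_⟩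
  · simpa [mul_assoc] using k.conj y⁻¹
  · simpa [mul_assoc] using k.conj y

variable {L Q : Subgroup G} {X : Type u} [Group X] {π : L →* X}

theorem nV (hc : Cov L Q) (m : L) : (m : G) ∈ 𝒩(𝛀[2] Q) := le_norm_ozc hc.nQ m.2

theorem card_fx (hc : Cov L Q) (hq : Quo L Q π) {a b : L} {g : X} (e : g * π a * g⁻¹ = π b) :
    Nat.card (fx (𝛀[2] Q) b) = Nat.card (fx (𝛀[2] Q) a) := by
  obtain ⟨y, rfl⟩ := hq.surj g
  rw [← map_inv, ← map_mul, ← map_mul] at e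
  rw [← fx_congr (le_cent_ozc Q (hq.eq_iff.1 e))]
  exact card_fx_conj (nV hc y) a

theorem Nine.ord {e f : G} (h : Nine e f) : orderOf (e * f) = 3 :=
  orderOf_eq_prime (by rw [h.comm.mul_pow, ← h.oe, pow_orderOf_eq_one, h.oe, ← h.of, pow_orderOf_eq_one, one_mul])
    fun k => h.nm (eq_inv_of_mul_eq_one_right k ▸ inv_mem (mem_zpowers e))

variable [Finite G]

theorem lift9 (h9 : L9Thm.{u}) (h : Ord8 G) (hc : Cov L Q) (hq : Quo L Q π) {e f : X} (n : Nine e f) :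
    ∃ a b : L, π a = e ∧ π b = f ∧ Nine (a : G) b := by
  obtain ⟨a, rfl, ha⟩ := hq.lift_odd hc.two (x := e) (by rw [n.oe]; decide)
  obtain ⟨b, rfl⟩ := hq.surj f
  obtain ⟨r, hr, k⟩ := h9 G h Q a b hc.two (ha.trans n.oe) (hc.nQ a.2) (hc.nQ b.2)
    ((hq.ker (b ^ 3)).1 (by rw [map_pow, ← n.of, pow_orderOf_eq_one]))
    ((hq.ker ⁅b, a⁆).1 (by rw [map_commutatorElement, commutatorElement_eq_one_iff_commute]; exact n.comm.symm))
    fun k => by
      obtain ⟨_, ⟨i, rfl⟩, q, hq', e⟩ := (mem_sup_nr (zpowers_le.2 (hc.nQ a.2))).1 k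
      refine n.nm ⟨i, ?_⟩
      have : b = a ^ i * ⟨q, hc.le hq'⟩ := Subtype.ext e.symm
      rw [this, map_mul, (hq.ker ⟨q, hc.le hq'⟩).2 hq', mul_one, map_zpow]
  exact ⟨a, b * ⟨r, hc.le hr⟩, rfl, by rw [map_mul, (hq.ker ⟨r, hc.le hr⟩).2 hr, mul_one], k⟩

theorem f73 (h73 : F73Thm.{u}) (h : Ord8 G) (hc : Cov L Q) (hq : Quo L Q π) {y : L} (hy : orderOf (y : G) = 3)
    {x : X} (hx : orderOf x = 7) (e : π y * x * (π y)⁻¹ = x ^ 2 ∨ π y * x * (π y)⁻¹ = x ^ 4) :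
    Nat.card (𝛀[2] Q) = Nat.card (fx (𝛀[2] Q) y) ^ 3 := by
  obtain ⟨m, rfl, hm⟩ := hq.lift_odd hc.two (x := x) (by rw [hx]; decide)
  refine h73 G h Q _ m y hc.two (hc.two.to_le (ozc_le Q)) (hc.nQ m.2) (hc.nQ y.2) (le_norm_ozc le_normalizer)
    (nV hc m) (nV hc y) (hm.trans hx) hy (e.imp (fun e => ?_) fun e => ?_) <;>
  · rw [← map_inv, ← map_mul, ← map_mul, ← map_pow] at e
    exact hq.eq_iff.1 e

theorem free (h : Ord8 G) {V : Subgroup G} (hV : IsPGroup 2 V) {w t : G} (hw : orderOf w = 5) (nw : w ∈ 𝒩(V))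
    (e : t * w * t⁻¹ * w ∈ 𝒞(V)) : Nat.card V ≤ ix V t ^ 2 := by
  have e1 : ix V (w * t * w⁻¹) = ix V t := Nat.eq_of_mul_eq_mul_right (Nat.card_pos (α := fx V t)) (by
    rw [ix_mul_card, ← card_fx_conj nw, ix_mul_card])
  rw [pow_two]
  nth_rewrite 2 [← e1]
  refine card_le_ix2 ((eq_bot_iff_forall _).2 fun v hv => ?_)
  obtain ⟨h1, h2⟩ := mem_fx.1 hv.1
  have c : Commute v (t * w * t⁻¹ * w) := comm_of_mem e h1
  have c2 := (((mem_fx.1 hv.2).2.mul_right h2.inv_right).mul_right c).pow_right 3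
  rw [show w * t * w⁻¹ * t⁻¹ * (t * w * t⁻¹ * w) = w * w by group, ← pow_two, ← pow_mul, show 2 * 3 = 5 + 1 from rfl, pow_succ,
    ← hw, pow_orderOf_eq_one, one_mul] at c2
  exact h.fpf2 (.inl hw) hV h1 c2.symm

theorem fin {Q : Subgroup G} (hQ : IsPGroup 2 Q) (h1 : Q ≠ ⊥) {c i : ℕ} (h3 : Nat.card (𝛀[2] Q) = c ^ 3)
    (hi : Nat.card (𝛀[2] Q) = c ^ i) (i3 : i ≠ 3) : False := by
  have h2 : 1 < Nat.card (𝛀[2] Q) := (one_lt_card_iff_ne_bot _).2 (ozc_ne_bot hQ h1)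
  refine i3 (Nat.pow_right_injective (a := c) ?_ (hi.symm.trans h3))
  by_contra k
  have : c ^ 3 ≤ 1 ^ 3 := Nat.pow_le_pow_left (by omega) 3
  omega

end KA

open KA

theorem ka7Thm (hCl : ClThm.{u}) (h9 : L9Thm.{u}) (hE : E9Thm.{u}) (hC : CyThm.{u}) (h73 : F73Thm.{u}) :
    KA7Thm.{u} := by
  rintro G _ _ h L Q X _ π hc hq ⟨e, f, u, w, x, g, k, n, uu, ue, ow, uw, ge, ke, ox, ex⟩
  obtain ⟨a, b, rfl, rfl, m⟩ := lift9 h9 h hc hq n
  obtain ⟨t, rfl⟩ := hq.surj u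
  obtain ⟨s, rfl, hs⟩ := hq.lift_odd hc.two (x := w) (by rw [ow]; decide)
  have hV : IsPGroup 2 (𝛀[2] Q) := hc.two.to_le (ozc_le Q)
  have t2 : (t : G) * t ∈ Q := (hq.ker (t * t)).1 (by rw [map_mul, uu])
  have ta : ⁅(t : G), (a : G)⁆ ∈ Q := (hq.ker ⁅t, a⁆).1 (by
    rw [map_commutatorElement, commutatorElement_eq_one_iff_commute]; exact ue)
  obtain ⟨r, hr, -, -, cr⟩ := hCl G h Q a t hc.two m.oe (hc.nQ a.2) (hc.nQ t.2) t2 ta
  have e1 := ((hC G _ (ozc_elem Q)).1 a t m.oe (nV hc a) (nV hc t) (le_cent_ozc Q t2) (le_cent_ozc Q ta)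
    fun v hv c => by
      have c2 : Commute v r := comm_of_mem (le_cent_ozc Q hr) hv
      simpa using (cr v (ozc_le Q hv) c).mul_right c2.inv_right).1
    (free h hV (hs.trans ow) (nV hc s) (le_cent_ozc Q ((hq.ker (t * s * t⁻¹ * s)).1 (by
      rw [map_mul, map_mul, map_mul, map_inv, uw, inv_mul_cancel]))))
  have e2 := (hE G h _ a b hV m (nV hc a) (nV hc b)).2.2.2.2 (elem_le_cent (ozc_elem Q)) (by rw [e1, bot_inf_eq])
  rw [← map_mul] at ex
  rw [← map_mul, ← map_inv π b, ← map_mul] at ke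
  have e3 := card_fx hc hq ke
  rw [card_fx hc hq ge, e1, card_bot, one_mul, one_mul] at e2
  exact fin hc.two hc.ne (f73 h73 h hc hq (y := a * b) (Nine.ord m) ox ex) (i := 2)
    (by rw [pow_two]; exact e2.trans (congrArg _ e3)) (by decide)

theorem k34Thm (h9 : L9Thm.{u}) (hE : E9Thm.{u}) (h73 : F73Thm.{u}) : K34Thm.{u} := by
  rintro G _ _ h L Q X _ π hc hq ⟨e, f, x, g, k, l, n, ox, ex, ge, ke, le, hw⟩
  obtain ⟨a, b, rfl, rfl, m⟩ := lift9 h9 h hc hq n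
  have hV : IsPGroup 2 (𝛀[2] Q) := hc.two.to_le (ozc_le Q)
  rw [← map_mul] at ke
  rw [← map_inv π b, ← map_mul] at le
  by_cases e1 : fx (𝛀[2] Q) a ⊓ fx (𝛀[2] Q) b = ⊥
  · have e2 := (hE G h _ a b hV m (nV hc a) (nV hc b)).2.2.2.2 (elem_le_cent (ozc_elem Q)) e1
    refine fin hc.two hc.ne (f73 h73 h hc hq m.oe ox ex) (i := 4) (e2.trans ?_) (by decide)
    have e3 := card_fx hc hq ke
    have e4 := card_fx hc hq le
    rw [coe_mul] at e3 e4
    rw [coe_inv] at e4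
    rw [card_fx hc hq ge, e3, e4]
    ring
  obtain ⟨v, hv, v1⟩ := (bot_or_exists_ne_one _).resolve_left e1
  obtain ⟨vV, va⟩ := mem_fx.1 hv.1
  have vb := (mem_fx.1 hv.2).2
  letI : CommGroup (𝛀[2] Q) := { (inferInstance : Group (𝛀[2] Q)) with
    mul_comm := fun p q => Subtype.ext (comm_of_mem (elem_le_cent (ozc_elem Q) q.2) p.2) }
  obtain ⟨φ, hφ⟩ : ∃ φ : X → 𝛀[2] Q, ∀ y : L, (φ (π y) : G) = y * v * (y : G)⁻¹ := by
    choose s hs using hq.surj
    refine ⟨fun y => ⟨s y * v * (s y : G)⁻¹, conj_mem (nV hc _) vV⟩, fun y => ?_⟩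
    have := conj_eq_of_mem (le_cent_ozc Q (hq.eq_iff.1 (hs (π y)))) (conj_mem (nV hc y) vV)
    simpa [mul_assoc] using this
  have inv : ∀ c : L, Commute v c → ∀ y, φ (y * π c) = φ y := fun c cc y => by
    obtain ⟨y, rfl⟩ := hq.surj y
    apply Subtype.ext
    rw [← map_mul, hφ, hφ, coe_mul, mul_assoc (y : G) c v, ← cc.eq]
    group
  have := hw _ φ (fun p => Subtype.ext (by
    have := (elem_iff.1 (ozc_elem (p := 2) Q)).2 p p.2
    rwa [pow_two] at this)) (inv a va) (inv b vb) fun y z oz => by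
      obtain ⟨z, rfl, hz⟩ := hq.lift_odd hc.two (x := z) (by rw [oz]; decide)
      let ψ : 𝛀[2] Q →* 𝛀[2] Q := MonoidHom.mk' (fun p => ⟨z * p * (z : G)⁻¹, conj_mem (nV hc z) p.2⟩)
        fun p q => Subtype.ext (by simp [mul_assoc])
      have key : ∀ y, ψ (φ y) = φ (π z * y) := fun y => by
        obtain ⟨y, rfl⟩ := hq.surj y
        apply Subtype.ext
        show z * (φ (π y) : G) * (z : G)⁻¹ = _
        rw [← map_mul, hφ, hφ, coe_mul]
        group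
      have e2 := (Finset.prod_range_succ (fun i => φ (π z ^ i * y)) 5).symm.trans (Finset.prod_range_succ' _ 5)
      have z5 : π z ^ 5 = π z ^ 0 := by rw [← oz, pow_orderOf_eq_one, pow_zero]
      rw [z5, mul_left_inj] at e2
      have e3 : ψ (∏ i ∈ Finset.range 5, φ (π z ^ i * y)) = ∏ i ∈ Finset.range 5, φ (π z ^ i * y) := by
        rw [map_prod]
        exact (Finset.prod_congr rfl fun i _ => by rw [key, pow_succ', mul_assoc]).trans e2.symm
      exact Subtype.ext (h.fpf2 (.inl (hz.trans oz)) hV (Subtype.property _)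
        (mul_inv_eq_iff_eq_mul.1 (congrArg Subtype.val e3)))
  have e2 := hφ 1
  rw [map_one, this] at e2
  exact v1 (by simpa using e2.symm)

end CL.O8
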