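/-
Project O8 (helper41), job O8-LA (helper81): the centraliser of `Ω₁Z(T)` (`laThm`) and the uniqueness step `seThm`.
-/
import Cfsg.Agent.O8.A

set_option autoImplicit false
set_option linter.unusedVariables false

open Cfsg Subgroup CL.Grp CL.Even CL.Loc CL.NGrp
open scoped commutatorElement

namespace CL.O8

universe u

namespace LA

section

variable {G : Type*} [Group G]

theorem zp3 {y x : G} (hy : orderOf y = 3) (hx : x ∈ zpowers y) : x = 1 ∨ x = y ∨ x = y⁻¹ := by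
  obtain ⟨n, rfl⟩ := mem_zpowers_iff.1 hx
  have h3 : y ^ (3 : ℤ) = 1 := by
    have := pow_orderOf_eq_one y
    rw [hy] at this
    exact_mod_cast this
  have e : y ^ n = y ^ (n % 3) := by
    conv_lhs => rw [← Int.mul_ediv_add_emod n 3, zpow_add, zpow_mul, h3, one_zpow, one_mul]
  have : n % 3 = 0 ∨ n % 3 = 1 ∨ n % 3 = 2 := by omega
  rcases this with h | h | h <;> rw [e, h]
  · simp
  · simp
  · refine .inr (.inr (eq_inv_of_mul_eq_one_left ?_))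
    rw [← h3]; group

theorem mem3 {R : Subgroup G} {y o : G} (hy : orderOf y = 3) (hn : y ∈ 𝒩(R)) (ho : o ∈ zpowers y ⊔ R) :
    ∃ r ∈ R, o = r ∨ o = y * r ∨ o = y⁻¹ * r := by
  obtain ⟨a, ha, r, hr, rfl⟩ := (mem_sup_nr (zpowers_le.2 hn)).1 ho
  refine ⟨r, hr, ?_⟩
  rcases zp3 hy ha with rfl | rfl | rfl <;> simp

theorem nm3 {R : Subgroup G} (hR : IsPGroup 2 R) {y : G} (hy : orderOf y = 3) : y ∉ R := fun h => by
  have := eq_one_of_coprime_of_mem hR (hy ▸ by decide) h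
  rw [this, orderOf_one] at hy
  omega

theorem two_mem {T R : Subgroup G} (hT : IsPGroup 2 T) {t : G} (ht : t ∈ T) (h : t ^ 3 ∈ R) : t ∈ R := by
  obtain ⟨k, hk⟩ := isPGroup_iff_forall.1 hT t ht
  exact mem_of_pow_mem_of_coprime
    (Nat.Coprime.coprime_dvd_left (orderOf_dvd_of_pow_eq_one hk) (Nat.Coprime.pow_left _ (by decide))) h

variable {H R O : Subgroup G} {y : G}

/-- an element centralising `y` modulo `R` lies in `O = ⟨y⟩ R` -/
theorem plus (F : Fit3 H R O) (hy : orderOf y = 3) (hO : O = zpowers y ⊔ R) {h : G} (hh : h ∈ H)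
    (hc : ⁅h, y⁆ ∈ R) : h ∈ O := by
  have hyO : y ∈ O := hO ▸ mem_sup_left (mem_zpowers y)
  have hn : y ∈ 𝒩(R) := F.nR (F.OH hyO)
  refine F.self h hh fun o ho => ?_
  obtain ⟨r, hr, e⟩ := mem3 hy hn (hO ▸ ho)
  have h1 : ⁅h, r⁆ ∈ R := R.mul_mem (conj_mem (F.nR hh) hr) (R.inv_mem hr)
  rcases e with rfl | rfl | rfl
  · exact h1
  · have : ⁅h, y * r⁆ = ⁅h, y⁆ * (y * ⁅h, r⁆ * y⁻¹) := by simp only [commutatorElement_def]; group
    exact this ▸ R.mul_mem hc (conj_mem hn h1)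
  · have : ⁅h, y⁻¹ * r⁆ = y⁻¹ * (⁅h, y⁆⁻¹ * ⁅h, r⁆) * y := by simp only [commutatorElement_def]; group
    exact this ▸ conj_mem' hn (R.mul_mem (R.inv_mem hc) h1)

theorem minus (F : Fit3 H R O) (hy : orderOf y = 3) (hO : O = zpowers y ⊔ R) {h : G} (hh : h ∈ H)
    (hc : h ∉ O) : h * y * h⁻¹ * y ∈ R := by
  have hyO : y ∈ O := hO ▸ mem_sup_left (mem_zpowers y)
  have hn : y ∈ 𝒩(R) := F.nR (F.OH hyO)
  obtain ⟨r, hr, e⟩ := mem3 hy hn (hO ▸ conj_mem (F.nO hh) hyO)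
  rcases e with e | e | e
  · have : y = h⁻¹ * r * h := by rw [← e]; group
    exact absurd (this ▸ conj_mem' (F.nR hh) hr) (nm3 F.two hy)
  · refine absurd (plus F hy hO hh ?_) hc
    rw [commutatorElement_def, e]
    exact conj_mem hn hr
  · rw [e]
    exact conj_mem' hn hr

theorem mul_mem_O (F : Fit3 H R O) (hy : orderOf y = 3) (hO : O = zpowers y ⊔ R) {h k : G} (hh : h ∈ H)
    (hk : k ∈ H) (h1 : h ∉ O) (h2 : k ∉ O) : h * k ∈ O := by
  have hn : y ∈ 𝒩(R) := F.nR (F.OH (hO ▸ mem_sup_left (mem_zpowers y)))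
  refine plus F hy hO (H.mul_mem hh hk) ?_
  have : ⁅h * k, y⁆ = h * (k * y * k⁻¹ * y) * h⁻¹ * (y * (h * y * h⁻¹ * y)⁻¹ * y⁻¹) := by
    simp only [commutatorElement_def]; group
  exact this ▸ R.mul_mem (conj_mem (F.nR hh) (minus F hy hO hk h2)) (conj_mem hn (R.inv_mem (minus F hy hO hh h1)))

theorem three_mem (F : Fit3 H R O) (hy : orderOf y = 3) (hO : O = zpowers y ⊔ R) {e : G} (he : e ∈ H)
    (h3 : orderOf e = 3) : e ∈ O := by
  by_contra h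
  exact h (mem_of_pow_mem_of_coprime (n := 2) (h3 ▸ by decide) (sq e ▸ mul_mem_O F hy hO he he h h))

theorem le_of_eq (F : Fit3 H R O) (hO : O ≤ R) : H ≤ R := fun h hh =>
  hO (F.self h hh fun o ho => R.mul_mem (conj_mem (F.nR hh) (hO ho)) (R.inv_mem (hO ho)))

variable [Finite G]

theorem le_sup3 (F : Fit3 H R O) {P : Subgroup G} (hP : IsSylowIn 3 P O) : O ≤ R ⊔ P :=
  have := Fact.mk Nat.prime_three
  le_of_syl_of_res hP le_sup_right ((res_le_of_pow fun x hx => ⟨1, by simpa using F.cube x hx⟩).trans le_sup_left)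

/-- if `O` has no subgroup of order 9 then `|O / R| ≤ 3` -/
theorem cyc (h : Ord8 G) (F : Fit3 H R O) (h9 : ∀ e ∈ O, ∀ f ∈ O, ¬ Nine e f) :
    O ≤ R ∨ ∃ y, orderOf y = 3 ∧ O = zpowers y ⊔ R := by
  have := Fact.mk Nat.prime_three
  obtain ⟨P, hP⟩ := exists_isSylowIn 3 O
  by_cases hb : P = ⊥
  · exact .inl (by simpa [hb] using le_sup3 F hP)
  obtain ⟨⟨y, hy⟩, y1⟩ := ne_bot_iff_exists_ne_one.1 (inf_cent_ne_bot hP.2.1 hP.2.1 le_normalizer hb)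
  have y3 : orderOf y = 3 := orderOf_eq_prime (h.three_grp hP.2.1 hy.1) fun e => y1 (Subtype.ext e)
  refine .inr ⟨y, y3, le_antisymm ((le_sup3 F hP).trans (sup_le le_sup_right fun f hf => mem_sup_left ?_))
    (sup_le (zpowers_le.2 (hP.1 hy.1)) F.RO)⟩
  by_contra hn
  exact h9 y (hP.1 hy.1) f (hP.1 hf) ⟨y3, orderOf_eq_prime (h.three_grp hP.2.1 hf) fun e => hn (e ▸ one_mem _),
    (comm_of_mem hy.2 hf).symm, hn⟩

/-- if `O` centralises `Ω₁Z(T)` for a 2-group `R ≤ T ≤ H` then it centralises `Ω₁Z(R)` -/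
theorem cent_oz (F : Fit3 H R O) {T : Subgroup G} (hT : IsPGroup 2 T) (hRT : R ≤ T) (hTH : T ≤ H)
    (hO : O ≤ 𝒞(𝛀[2] T)) : O ≤ 𝒞(𝛀[2] R) := by
  have := Fact.mk Nat.prime_three
  obtain ⟨P, hP⟩ := exists_isSylowIn 3 O
  have nY : H ≤ 𝒩(𝛀[2] R) := le_norm_ozc F.nR
  have hW : ⁅𝛀[2] R, O⁆ ≤ 𝛀[2] R := commutator_le_of_le_norm (F.OH.trans nY)
  have hWP : ⁅𝛀[2] R, P⁆ ≤ 𝛀[2] R := (commutator_mono le_rfl hP.1).trans hW
  have h1 : ⁅𝛀[2] R, O⁆ ≤ ⁅𝛀[2] R, P⁆ := by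
    refine (commutator_mono le_rfl (le_sup3 F hP)).trans (commutator_sup_le ?_ ?_ ?_ le_rfl)
    · exact ((le_cent_ozc R).trans (cent_mono hWP)).trans (cent_le_norm _)
    · exact normalizer_commutator_ge_right _ _
    · rw [commutator_eq_bot_iff'.2 (le_cent_ozc R)]; exact bot_le
  have hc : IsMulCommutative ↥(𝛀[2] R) := (ozc_elem (p := 2) R).1
  have h2 := inf_centralizer_inf_commutator_eq_bot (V := 𝛀[2] R) (A := P) (hP.1.trans (F.OH.trans nY))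
    (IsPGroup.coprime_card_of_ne 3 2 (by decide) _ _ hP.2.1 (ozc_isP R))
  rw [← commutator_eq_bot_iff']
  by_contra hne
  refine inf_cent_ne_bot ((ozc_isP R).to_le hW) hT (hTH.trans (le_norm_commutator nY F.nO)) hne (le_bot_iff.1 ?_)
  rw [← h2]
  refine le_inf (le_inf (inf_le_left.trans hW) ?_) (inf_le_left.trans h1)
  refine le_trans ?_ (le_centralizer_iff.1 (hP.1.trans hO))
  exact le_ozc (elem_of_le (ozc_elem R) (inf_le_left.trans hW)) ((inf_le_left.trans hW).trans ((ozc_le R).trans hRT))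
    inf_le_right

end

/-- a subgroup of characteristic 2 centralising an involution -/
theorem fit (hF : FSThm.{u}) {G : Type u} [Group G] [Finite G] (h : Ord8 G) {H : Subgroup G} {z : G}
    (h1 : z * z = 1) (h2 : z ≠ 1) (hH : ∀ g ∈ H, Commute g z) (hc : IsCharP 2 H) : ∃ O, Fit3 H (pCoreOf 2 H) O := by
  refine (hF G h H (h.solv_of_cent h1 h2 hH) hc).resolve_right ?_
  rintro ⟨x, hx, ho, -⟩
  exact h2 (h.fpf_pow ho (hH x hx) (.inl rfl) (k := 1) (by rw [pow_one, pow_two, h1]))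

end LA

theorem laThm (hF : FSThm.{u}) (h9 : L9Thm.{u}) (hE : E9Thm.{u}) : LAThm.{u} := by
  intro G _ _ h lc T hT hne
  have hZ : 𝛀[2] T ≠ ⊥ := ozc_ne_bot hT.2.1 hne
  have hTC : T ≤ 𝒞(𝛀[2] T) := le_cent_ozc T
  obtain ⟨⟨z, hz⟩, z1⟩ := ne_bot_iff_exists_ne_one.1 hZ
  obtain ⟨O, F⟩ := LA.fit hF h (H := 𝒞(𝛀[2] T)) (z := z) (sq z ▸ (mem_ozc.1 hz).2.2) (fun e => z1 (Subtype.ext e))
    (fun g hg => (comm_of_mem hg hz).symm) (lc.cent (ozc_isP T) hZ)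
  have hRT : pCoreOf 2 𝒞(𝛀[2] T) ≤ T := core_le_syl (hT.of_le hTC le_top)
  generalize pCoreOf 2 𝒞(𝛀[2] T) = R at F hRT
  have hY := LA.cent_oz F hT.2.1 hRT hTC F.OH
  have n9 : ∀ e ∈ O, ∀ f ∈ O, ¬ Nine e f := fun e he f hf hN =>
    LA.nm3 F.two hN.oe (F.chr ⟨F.OH he, ((hE G h R e f F.two hN (F.nR (F.OH he)) (F.nR (F.OH hf))).2.2.1
      fun v hv => ⟨comm_of_mem (hY he) hv, comm_of_mem (hY hf) hv⟩).1⟩)
  rcases LA.cyc h F n9 with hO | ⟨y, hy, hO⟩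
  · have h1 := LA.le_of_eq F hO
    exact ⟨fun e he f hf hN => LA.nm3 F.two hN.oe (h1 he), .inl (le_norm_of_le (h1.trans hRT))⟩
  refine ⟨fun e he f hf hN => n9 e (LA.three_mem F hy hO he hN.oe) f (LA.three_mem F hy hO hf hN.of) hN, ?_⟩
  by_cases hTR : T ≤ R
  · exact .inl (le_antisymm hRT hTR ▸ F.nR)
  obtain ⟨t, ht, htR⟩ := SetLike.not_le_iff_exists.1 hTR
  have hyO : y ∈ O := hO ▸ mem_sup_left (mem_zpowers y)
  have nO : ∀ s ∈ T, s ∉ R → s ∉ O := fun s hs h1 h2 => h1 (LA.two_mem hT.2.1 hs (F.cube s h2))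
  have hOT : O ≤ T ⊔ zpowers y := hO ▸ sup_le le_sup_right (hRT.trans le_sup_left)
  refine .inr ⟨R, y, ⟨hT.2.1, hRT, ?_, hy, F.nR (F.OH hyO), fun s hs h1 => LA.minus F hy hO (hTC hs) (nO s hs h1)⟩,
    le_antisymm (sup_le hTC (zpowers_le.2 (F.OH hyO))) fun g hg => ?_⟩
  · have h2 : (R.subgroupOf T).index = 2 := by
      refine index_eq_two_iff.2 ⟨⟨t, ht⟩, fun b => ?_⟩
      by_cases hb : (b : G) ∈ R
      · exact .inr ⟨hb, fun h1 => htR ((R.mul_mem_cancel_left hb).1 h1)⟩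
      · exact .inl ⟨LA.two_mem hT.2.1 (T.mul_mem b.2 ht)
          (F.cube _ (LA.mul_mem_O F hy hO (hTC b.2) (hTC ht) (nO b b.2 hb) (nO t ht htR))), hb⟩
    rw [← (R.subgroupOf T).index_mul_card, h2, Nat.card_congr (subgroupOfEquivOfLe hRT).toEquiv]
  · by_cases hgO : g ∈ O
    · exact hOT hgO
    · exact ((T ⊔ zpowers y).mul_mem_cancel_right (mem_sup_left ht)).1
        (hOT (LA.mul_mem_O F hy hO hg (hTC ht) hgO (nO t ht htR)))

theorem seThm (hP : ParThm.{u}) (hF : FSThm.{u}) (h9 : L9Thm.{u}) (h2 : LY2Thm.{u}) (hA : LAThm.{u}) :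
    SEThm.{u} := by
  intro G _ _ h lc T U U' y y' z hT P P' hy hz z1 hzy hn
  have zz : z * z = 1 := sq z ▸ (mem_ozc.1 hz).2.2
  have hZ : 𝒞(𝛀[2] T) ≤ 𝒞(zpowers z) := cent_mono (zpowers_le.2 hz)
  have hTH : T ≤ 𝒞(zpowers z) := (le_cent_ozc T).trans hZ
  have hy' : y' ∈ 𝒞(zpowers z) :=
    le_centralizer_iff.1 (zpowers_le.2 (mem_centralizer_iff.2 fun g hg => by
      obtain ⟨n, rfl⟩ := mem_zpowers_iff.1 hg
      exact (hzy.zpow_right n).symm.eq)) (mem_zpowers y')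
  obtain ⟨O, F⟩ := LA.fit hF h zz z1 (fun g hg => (comm_of_mem hg (mem_zpowers z)).symm) (lc.cent_zp zz z1)
  have hRT : pCoreOf 2 𝒞(zpowers z) ≤ T := core_le_syl (hT.of_le hTH le_top)
  generalize pCoreOf 2 𝒞(zpowers z) = R at F hRT
  have hRU : R ≤ U := (hP G T U y P).core ▸
    le_core (hRT.trans le_sup_left) F.two ((sup_le hTH (zpowers_le.2 (hZ hy))).trans F.nR)
  have hRU' : R ≤ U' := (hP G T U' y' P').core ▸
    le_core (hRT.trans le_sup_left) F.two ((sup_le hTH (zpowers_le.2 hy')).trans F.nR)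
  have hc : Nat.card U = Nat.card U' := by have := P.card; have := P'.card; omega
  by_cases e : U = R
  · exact eq_of_le_of_card_ge (e ▸ hRU') hc.ge
  by_cases e' : U' = R
  · exact (eq_of_le_of_card_ge (e' ▸ hRU) hc.le).symm
  obtain ⟨-, yO, c1, c2, -⟩ := h2 G h _ R O U y F (P.two.to_le P.le) hRU (P.le.trans hTH) e (hZ hy) P.ord P.nU
  obtain ⟨-, yO', -⟩ := h2 G h _ R O U' y' F (P'.two.to_le P'.le) hRU' (P'.le.trans hTH) e' hy' P'.ord P'.nU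
  obtain ⟨r, hr, hN⟩ := h9 G h R y y' F.two P.ord (F.nR (hZ hy)) (F.nR hy') (F.cube _ yO') (c1 _ yO')
    fun h1 => hn (sup_le le_sup_right (hRT.trans le_sup_left) h1)
  refine absurd hN ((hA G h lc T hT fun hb => z1 (mem_bot.1 (hb ▸ ozc_le T hz))).1 y hy _
    (mem_centralizer_iff.2 fun d hd => ?_))
  exact (c2 _ (O.mul_mem yO' (F.RO hr)) hN.comm.symm hN.of d
    (F.chr ⟨hTH (ozc_le T hd), cent_mono hRT (ozc_le_cent T hd)⟩) (comm_of_mem hy hd)).eq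

end CL.O8
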