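/-
Project O8 (S3432): the step `LF`.
-/
import Cfsg.Agent.O8.B
import Cfsg.Agent.O8.S5K

set_option autoImplicit false
set_option linter.unusedVariables false

open Cfsg Subgroup CL.Grp CL.Even CL.Loc CL.NGrp
open scoped commutatorElement

namespace CL.O8

universe u

namespace LF

section

variable {X : Type u} [Group X] {p : ℕ} {z a b c d x : X}

theorem mem2 (h : z * z = 1) (hx : x ∈ zpowers z) : x = 1 ∨ x = z := by
  obtain ⟨k, rfl⟩ := mem_zpowers_iff.mp hx
  have h2 : z ^ (2 : ℤ) = 1 := by rw [zpow_two, h]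
  rcases Int.even_or_odd' k with ⟨m, rfl | rfl⟩
  · left; rw [zpow_mul, h2, one_zpow]
  · right; rw [zpow_add, zpow_mul, h2, one_zpow, one_mul, zpow_one]

theorem cl2 (a b : X) : closure {a, b} = zpowers a ⊔ zpowers b := by
  rw [Set.insert_eq, Subgroup.closure_union, zpowers_eq_closure, zpowers_eq_closure]

theorem cl3 (a b c : X) : closure {a, b, c} = closure {a, b} ⊔ zpowers c := by
  rw [zpowers_eq_closure, ← Subgroup.closure_union]; congr 1; ext; simp [or_assoc]; tauto

theorem cl4 (a b c d : X) : closure {a, b, c, d} = closure {a, b} ⊔ zpowers c ⊔ zpowers d := by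
  rw [zpowers_eq_closure, zpowers_eq_closure, ← Subgroup.closure_union, ← Subgroup.closure_union]; congr 1; ext; simp [or_assoc]; tauto

theorem mem4 (zz : z * z = 1) (aa : a * a = 1) (za : a * z = z * a) (hx : x ∈ closure {z, a}) :
    x = 1 ∨ x = z ∨ x = a ∨ x = a * z := by
  rw [cl2] at hx
  obtain ⟨r, hr, s, hs, rfl⟩ := (mem_sup_nl (zpowers_le.2 (cent_le_norm _ fun w hw => by
    rcases mem2 zz hw with rfl | rfl <;> simp [za]))).1 hx
  rcases mem2 zz hr with rfl | rfl <;> rcases mem2 aa hs with rfl | rfl <;> simp [za]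

theorem l1 : z ∈ closure {z, a} := subset_closure (by simp)

theorem l2 : a ∈ closure {z, a} := subset_closure (by simp)

variable (h : DX p z a b c d)
include h

theorem zT : z ∈ closure {a, b} := h.ab ▸ mul_mem (mul_mem l1 l2) (mul_mem l1 l2)

theorem inf : closure {z, a} ⊓ closure {z, b} = closure {z} := by
  refine le_antisymm (fun x hx => ?_) (le_inf (closure_mono (by simp)) (closure_mono (by simp)))
  have h1 : a ∉ closure {z, b} := fun e => h.z1 (by
    have : b * a = a * b := by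
      rcases mem4 h.zz h.bb h.zb e with e | e | e | e <;> rw [e]
      exacts [by simp, h.zb, by rw [mul_assoc, ← h.zb]]
    rw [← h.ab, mul_assoc, ← mul_assoc b, this, mul_assoc, h.bb, mul_one, h.aa])
  rcases mem4 h.zz h.aa h.za hx.1 with e | e | e | e <;> rw [e] at hx ⊢
  exacts [one_mem _, subset_closure rfl, (h1 hx.2).elim, (h1 ((mul_mem_cancel_right l1).1 hx.2)).elim]

theorem sup : closure {z, a} ⊔ closure {z, b} = closure {a, b} :=
  le_antisymm (sup_le ((closure_le _).2 (Set.insert_subset (zT h) (Set.singleton_subset_iff.2 l1)))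
    ((closure_le _).2 (Set.insert_subset (zT h) (Set.singleton_subset_iff.2 l2))))
    ((closure_le _).2 (Set.insert_subset (mem_sup_left l2) (Set.singleton_subset_iff.2 (mem_sup_right l2))))

theorem inv [Finite X] (hx : x ∈ closure {a, b}) (xx : x * x = 1) : x ∈ closure {z, a} ∨ x ∈ closure {z, b} := by
  have hn : b ∈ 𝒩(closure {z, a}) := mem_norm_of_cj_le (map_le_iff_le_comap.2 ((closure_le _).2
    (Set.insert_subset (show b * z * b⁻¹ ∈ closure {z, a} by rw [h.zb, mul_inv_cancel_right]; exact l1)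
      (Set.singleton_subset_iff.2 (show b * a * b⁻¹ ∈ closure {z, a} by
        rw [inv_eq_of_mul_eq_one_right h.bb, ← mul_mem_cancel_right (l2 (z := z)), mul_assoc, h.ba]; exact l1)))))
  have hle : closure {a, b} ≤ closure {z, a} ⊔ zpowers b := (closure_le _).2
    (Set.insert_subset (mem_sup_left l2) (Set.singleton_subset_iff.2 (mem_sup_right (mem_zpowers b))))
  obtain ⟨r, hr, s, hs, rfl⟩ := (mem_sup_nl (zpowers_le.2 hn)).1 (hle hx)
  rcases mem2 h.bb hs with e | e <;> rw [e] at xx ⊢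
  · exact .inl (by rwa [mul_one])
  rcases mem4 h.zz h.aa h.za hr with e | e | e | e <;> rw [e] at xx ⊢
  · exact .inr (by rw [one_mul]; exact l2)
  · exact .inr (mul_mem l1 l2)
  · exact (h.z1 (h.ab.symm.trans xx)).elim
  · refine (h.z1 (h.ab.symm.trans (Eq.trans ?_ xx))).elim
    calc a * b * (a * b) = a * (z * z) * b * (a * b) := by rw [h.zz, mul_one]
      _ = a * z * (z * b * a) * b := by group
      _ = _ := by rw [← h.zb, mul_assoc b, ← h.za]; group

theorem cnj [Finite X] (hx : x ∈ closure {a, b}) (xx : x * x = 1) (x1 : x ≠ 1) : ∃ k, k * z * k⁻¹ = x := by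
  rcases inv h hx xx with e | e
  · rcases mem4 h.zz h.aa h.za e with e | e | e | e
    exacts [(x1 e).elim, ⟨1, by simp [e]⟩, ⟨c, e ▸ h.cz⟩, ⟨c * c, by rw [e, ← h.ca, ← h.cz]; group⟩]
  · rcases mem4 h.zz h.bb h.zb e with e | e | e | e
    exacts [(x1 e).elim, ⟨1, by simp [e]⟩, ⟨d, e ▸ h.dz⟩, ⟨d * d, by rw [e, ← h.db, ← h.dz]; group⟩]

end

variable {G X : Type*} [Group G] [Group X] {M Q : Subgroup G} {π : M →* X}

theorem prm_sub (Y : Subgroup X) : (prm π Y).subgroupOf M = Y.comap π :=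
  comap_map_eq_self_of_injective M.subtype_injective _

theorem prm_top : prm π ⊤ = M := by rw [prm, comap_top, ← MonoidHom.range_eq_map, range_subtype]

theorem le_prm (q : Quo M Q π) (hQ : Q ≤ M) (Y : Subgroup X) : Q ≤ prm π Y := fun g hg =>
  (mem_prm (m := ⟨g, hQ hg⟩)).2 ((q.ker ⟨g, hQ hg⟩).2 hg ▸ one_mem _)

theorem prm_z (q : Quo M Q π) (Y : Subgroup X) (y : M) :
    prm π Y ⊔ zpowers (y : G) = prm π (Y ⊔ zpowers (π y)) := by
  have e := comap_map_eq π (Y.comap π ⊔ zpowers y)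
  rw [Subgroup.map_sup, map_comap_eq_self_of_surjective q.surj, MonoidHom.map_zpowers,
    sup_eq_left.2 ((ker_le_comap π Y).trans le_sup_left)] at e
  rw [prm, prm, e, Subgroup.map_sup, MonoidHom.map_zpowers]; rfl

theorem prm_img (q : Quo M Q π) {Y : Subgroup G} (h1 : Q ≤ Y) (h2 : Y ≤ M) :
    prm π ((Y.subgroupOf M).map π) = Y := by
  rw [prm, comap_map_eq_self (H := Y.subgroupOf M) fun m hm => h1 ((q.ker m).1 hm), map_subgroupOf_eq_of_le h2]

theorem card_prm (q : Quo M Q π) (hQ : Q ≤ M) (Y : Subgroup X) : Nat.card (prm π Y) = Nat.card Y * Nat.card Q := by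
  have e := (π.ker.subgroupOf (Y.comap π)).index_mul_card
  rw [← relIndex, relIndex_ker, map_comap_eq_self_of_surjective q.surj,
    Nat.card_congr (subgroupOfEquivOfLe (ker_le_comap π Y)).toEquiv,
    show π.ker = Q.subgroupOf M from Subgroup.ext q.ker, Nat.card_congr (subgroupOfEquivOfLe hQ).toEquiv] at e
  rw [prm, card_map_of_injective M.subtype_injective, e]

end LF

open LF in
theorem lfThm (hS : SDThm.{u}) : LFThm.{u} := by
  intro G _ _ h8 p M Q X _ π z a b c d y1 y2 lc q dx e1 e2 o1 o2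
  obtain ⟨s1, s2⟩ := hS G h8 p M Q X π z a b c d y1 y2 lc q dx e1 e2 o1 o2
  have := Finite.of_surjective π q.surj
  have hinv : ∀ t ∈ prm π (closure {a, b}), t * t ∈ Q → t ∈ prm π (closure {z, a}) ∨ t ∈ prm π (closure {z, b}) :=
    fun t ht tt => by
      lift t to M using prm_le ht
      simp only [mem_prm] at ht ⊢
      exact inv dx ht (by rw [← map_mul]; exact (q.ker _).2 tt)
  have ord : ∀ (m : M) (n : ℕ), 5 ≤ n → orderOf (π m) = n → orderOf (m : G) = n := fun m n hn e =>
    h8.eq_of_dvd hn (by rw [orderOf_coe, ← e]; exact orderOf_map_dvd π m)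
  refine ⟨dx.hp, lc, ⟨prm_le, s1.par.two, ?_⟩, le_prm q lc.le _, ?_, s1, s2, ?_, ?_, hinv, fun A hA sq => ?_,
    fun Y h1 h2 h3 => ?_, fun Y h1 h2 => ?_, ?_, ?_, fun D hD hn t ht t1 tt => ?_⟩
  · rw [relIndex, prm_sub, index_comap_of_surjective _ q.surj, ← relIndex_top_right]
    exact dx.syl.not_dvd
  · have := Fact.mk Nat.prime_two
    rw [card_prm q lc.le, ← zpowers_eq_closure, Nat.card_zpowers, orderOf_eq_prime (by rw [pow_two, dx.zz]) dx.z1]
  · rw [← inf dx, prm, prm, prm, comap_inf, map_inf _ _ _ M.subtype_injective]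
  · rw [← sup dx, prm, prm, prm, ← comap_sup_eq _ _ _ q.surj, Subgroup.map_sup]
  · by_contra hc
    rw [not_or] at hc
    obtain ⟨s, hs, n1⟩ := SetLike.not_le_iff_exists.1 hc.1
    obtain ⟨r, hr, n2⟩ := SetLike.not_le_iff_exists.1 hc.2
    rcases hinv _ (hA (mul_mem hr hs)) (sq _ (mul_mem hr hs)) with e | e
    · exact n1 ((mul_mem_cancel_left ((hinv r (hA hr) (sq r hr)).resolve_right n2)).1 e)
    · exact n2 ((mul_mem_cancel_right ((hinv s (hA hs) (sq s hs)).resolve_left n1)).1 e)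
  · obtain ⟨m, hm⟩ := q.surj (a * b)
    have hmT : (m : G) ∈ prm π (closure {a, b}) := mem_prm.2 (hm ▸ mul_mem l1 l2)
    have hY : (m : G) * m ∈ Y := by
      have e := (Y.subgroupOf (prm π (closure {a, b}))).index_mul_card
      rw [Nat.card_congr (subgroupOfEquivOfLe h2).toEquiv] at e
      have e2 : (Y.subgroupOf (prm π (closure {a, b}))).index ≤ 2 :=
        Nat.le_of_mul_le_mul_right (e ▸ h3) Nat.card_pos
      have e3 := (Y.subgroupOf (prm π (closure {a, b}))).index_ne_zero_of_finite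
      by_cases e4 : (Y.subgroupOf (prm π (closure {a, b}))).index = 1
      · exact relIndex_eq_one.1 e4 (mul_mem hmT hmT)
      · exact mul_self_mem_of_index_two (H := Y.subgroupOf (prm π (closure {a, b}))) (by omega) ⟨_, hmT⟩
    intro g hg
    lift g to M using prm_le hg
    rw [mem_prm, ← zpowers_eq_closure] at hg
    rcases mem2 dx.zz hg with e | e
    · exact h1 ((q.ker g).1 e)
    · exact (mul_mem_cancel_right (inv_mem hY)).1 (h1 ((q.eq_iff (b := m * m)).1 (by rw [e, map_mul, hm, dx.ab])))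
  · have e := prm_img q ((le_prm q lc.le _).trans h1) h2
    have hle : closure {a, b} ≤ (Y.subgroupOf M).map π := fun x hx => by
      obtain ⟨m, rfl⟩ := q.surj x
      exact mem_map_of_mem π (h1 (mem_prm.2 hx))
    rw [prm_z q, prm_z q, e1, e2, ← cl3, ← cl3, ← e]
    rcases dx.ovr _ hle with e | e | e | e <;> simp [e, prm_top]
  · rw [prm_z q, prm_z q, e1, e2, ← cl4, dx.top, prm_top]
  · obtain ⟨x, hx⟩ : ∃ x : X, orderOf x = p := by
      rcases dx.hp with e | e
      · exact let ⟨_, h⟩ := dx.g5 e; ⟨_, e ▸ h⟩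
      · exact let ⟨_, _, h⟩ := dx.g7 e; ⟨_, e ▸ h⟩
    obtain ⟨m, rfl⟩ := q.surj x
    exact ⟨m, m.2, ord m p (by rcases dx.hp with e | e <;> omega) hx⟩
  · lift t to M using prm_le ht
    obtain ⟨k, hk⟩ := cnj dx (mem_prm.1 ht) (by rw [← map_mul]; exact (q.ker _).2 tt) fun e => t1 ((q.ker t).1 e)
    refine ⟨fun e => ?_, fun e => ?_⟩
    · obtain ⟨g, hg⟩ := dx.g5 e
      obtain ⟨m, hm⟩ := q.surj (k * g * k⁻¹)
      have o := ord (t * (m * t * m⁻¹)) 5 le_rfl (by
        rw [← hg, ← (MulAut.conj k).orderOf_eq (z * _)]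
        simp [hm, ← hk, mul_assoc])
      have := card_le_ix2 (V := D) (a := t) (b := m * t * (m : G)⁻¹) (eq_bot_iff.2 fun v hv => by
        rw [← h8.fx_eq_bot (.inl o) hD]
        exact mem_fx.2 ⟨hv.1.1, (mem_fx.1 hv.1).2.mul_right (mem_fx.1 hv.2).2⟩)
      rwa [S5K.ix_conj (hn m.2), ← sq] at this
    · obtain ⟨g, g', hg⟩ := dx.g7 e
      obtain ⟨m, hm⟩ := q.surj (k * g * k⁻¹)
      obtain ⟨m', hm'⟩ := q.surj (k * g' * k⁻¹)
      have o := ord (t * (m * t * m⁻¹) * (m' * t * m'⁻¹)) 7 (by decide) (by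
        rw [← hg, ← (MulAut.conj k).orderOf_eq (z * _ * _)]
        simp [hm, hm', ← hk, mul_assoc])
      have := card_le_ix3 (V := D) (a := t) (b := m * t * (m : G)⁻¹) (c := m' * t * (m' : G)⁻¹)
        (eq_bot_iff.2 fun v hv => by
          rw [← h8.fx_eq_bot (.inr o) hD]
          exact mem_fx.2 ⟨hv.2.1, ((mem_fx.1 hv.1.1).2.mul_right (mem_fx.1 hv.1.2).2).mul_right (mem_fx.1 hv.2).2⟩)
      rwa [S5K.ix_conj (hn m.2), S5K.ix_conj (hn m'.2), ← pow_three'] at this

end CL.O8
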