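/-
Project O8 (S3432), job O8-LY1: an element of order 3 centralized modulo `O₂(H)` by an involution.
-/
import Cfsg.Agent.O8.A

set_option autoImplicit false
set_option linter.unusedVariables false

open Cfsg Subgroup CL.Grp CL.Even CL.Loc CL.NGrp
open scoped commutatorElement

namespace CL.O8

universe u

namespace LY1

section Gen

variable {G : Type*} [Group G]

theorem engel {a x : G} (h1 : a ^ 3 = 1) (h2 : (a⁻¹ * x) ^ 3 = 1) (h3 : (x * a) ^ 3 = 1) :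
    a * x * a⁻¹ * x = (a⁻¹ * x * a)⁻¹ ∧ x * (a * x * a⁻¹) = (a⁻¹ * x * a)⁻¹ := by
  constructor
  · refine eq_inv_of_mul_eq_one_left ?_
    calc a * x * a⁻¹ * x * (a⁻¹ * x * a) = a ^ 3 * a⁻¹ * (a⁻¹ * x) ^ 3 * a := by simp only [pow_three]; group
      _ = 1 := by rw [h1, h2]; group
  · refine eq_inv_of_mul_eq_one_left ?_
    calc x * (a * x * a⁻¹) * (a⁻¹ * x * a) = x * a * x * (a ^ 3)⁻¹ * a * x * a := by simp only [pow_three]; group
      _ = (x * a) ^ 3 := by rw [h1]; simp only [pow_three]; group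
      _ = 1 := h3

theorem fixed {q a : G} (hq : q * q = 1) (h : (a⁻¹ * (q * a * q⁻¹)) ^ 3 = 1) :
    Commute q (a * (q * a * q⁻¹)⁻¹ * a) := by
  have e : q⁻¹ = q := inv_eq_of_mul_eq_one_right hq
  have h1 : a * (q * a * q⁻¹)⁻¹ * a = q * a * q⁻¹ * a⁻¹ * (q * a * q⁻¹) := by
    calc a * (q * a * q⁻¹)⁻¹ * a = a * (q * a * q⁻¹)⁻¹ * a * (a⁻¹ * (q * a * q⁻¹)) ^ 3 := by rw [h, mul_one]
      _ = _ := by simp only [pow_three]; group
  change q * _ = _ * q
  conv_rhs => rw [h1]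
  calc q * (a * (q * a * q⁻¹)⁻¹ * a) = q * a * q * a⁻¹ * q⁻¹ * a := by group
    _ = q * a * q⁻¹ * a⁻¹ * q * a * (q⁻¹ * q) := by rw [e, hq, mul_one]
    _ = _ := by group

theorem three_cases [Finite G] {x y : G} (h : y ^ 3 = 1) (hx : x ∈ zpowers y) : x = 1 ∨ x = y ∨ x * y = 1 := by
  obtain ⟨k, rfl⟩ := mem_powers_iff_mem_zpowers.2 hx
  have h3 := Nat.mod_lt k (by norm_num : 0 < 3)
  simp only
  rw [pow_eq_pow_mod k h]
  interval_cases k % 3
  exacts [.inl (pow_zero y), .inr (.inl (pow_one y)), .inr (.inr (by rw [← pow_succ, h]))]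

variable {R : Subgroup G} [R.Normal]

theorem mem_iff {x : G} : x ∈ R ↔ QuotientGroup.mk' R x = 1 := (QuotientGroup.eq_one_iff x).symm

theorem comm_iff {a b : G} : ⁅a, b⁆ ∈ R ↔ Commute (QuotientGroup.mk' R a) (QuotientGroup.mk' R b) := by
  rw [mem_iff, map_commutatorElement, commutatorElement_eq_one_iff_commute]

theorem sup_iff {x y : G} : x ∈ zpowers y ⊔ R ↔ QuotientGroup.mk' R x ∈ zpowers (QuotientGroup.mk' R y) := by
  rw [← MonoidHom.map_zpowers, ← mem_comap, comap_map_eq, QuotientGroup.ker_mk']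

theorem card_conj (g x : G) : Nat.card (fx R (g * x * g⁻¹)) = Nat.card (fx R x) := by
  rw [← card_cj g (fx R x), cj_inf, cj_eq (le_normalizer_of_normal (mem_top g)), cj_cent_singleton]

theorem card_fx_le [Finite G] (hR : IsPGroup 2 R) {e x : G} (he : e ^ 3 = 1) (hx : x ^ 3 = 1) (h : x ∈ zpowers e ⊔ R) :
    Nat.card (fx R e) ≤ Nat.card (fx R x) := by
  have : Fact (Nat.Prime 3) := ⟨Nat.prime_three⟩
  have hS : IsSylowIn 3 (zpowers e) (zpowers e ⊔ R) := ⟨le_sup_left, isPGroup_zpowers (k := 1) he, fun h3 => by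
    have h1 := card_sup_dvd_of_normal (zpowers e) R
    rw [← card_mul_relIndex (le_sup_left : zpowers e ≤ zpowers e ⊔ R)] at h1
    obtain ⟨k, hk⟩ := IsPGroup.iff_card.1 hR
    have h2 := h3.trans (Nat.dvd_of_mul_dvd_mul_left Nat.card_pos h1)
    exact absurd (Nat.prime_three.dvd_of_dvd_pow (hk ▸ h2)) (by norm_num)⟩
  obtain ⟨g, -, hg⟩ := syl_conj_le hS (isPGroup_zpowers (k := 1) hx) (zpowers_le.2 h)
  obtain ⟨k, hk⟩ := hg (conj_mem_cj g (mem_zpowers x))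
  rw [← card_conj g x]
  exact card_le_of_le fun d hd => mem_fx.2 ⟨hd.1, hk ▸ (mem_fx.1 hd).2.zpow_right k⟩

end Gen

theorem core (hCl : ClThm.{u}) (h9 : L9Thm.{u}) (hE : E9Thm.{u}) {G : Type u} [Group G] [Finite G] (h : Ord8 G)
    {R O : Subgroup G} [R.Normal] [hO : O.Normal] (hR : IsPGroup 2 R) (chr : 𝒞(R) ≤ R) (cube : ∀ o ∈ O, o ^ 3 ∈ R)
    {y q : G} (hy : orderOf y = 3) (q1 : q ∉ R) (q2 : q * q ∈ R) (q3 : ⁅q, y⁆ ∈ R) :
    (∀ o ∈ O, ⁅o, y⁆ ∈ R) ∧ (∀ o ∈ O, ⁅o, y⁆ ∈ R → ⁅q, o⁆ ∈ R → o ∈ zpowers y ⊔ R) ∧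
      ∀ e ∈ O, Commute e y → ∀ d ∈ R, Commute d y → Commute d e := by
  have : Fact (Nat.Prime 3) := ⟨Nat.prime_three⟩
  have nR : ∀ x, x ∈ 𝒩(R) := fun x => le_normalizer_of_normal (mem_top x)
  set π := QuotientGroup.mk' R with hπ
  have y3 : y ^ 3 = 1 := hy ▸ pow_orderOf_eq_one y
  have πy3 : π y ^ 3 = 1 := by rw [← map_pow, y3, map_one]
  have o3 : ∀ x, orderOf x = 3 → π x ≠ 1 := fun x hx e => by
    have := eq_one_of_coprime_of_mem hR (by rw [hx]; decide) (mem_iff.2 e)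
    rw [this, orderOf_one] at hx
    omega
  have nO : (O.map π).Normal := hO.map _ (QuotientGroup.mk'_surjective R)
  let P := O.map π ⊔ zpowers (π y)
  have hP : IsPGroup 3 P := IsPGroup.to_sup_of_normal_left (isPGroup_iff_forall.2 (by
    rintro _ ⟨o, ho, rfl⟩
    exact ⟨1, by rw [pow_one, ← map_pow]; exact mem_iff.1 (cube o ho)⟩)) (isPGroup_zpowers (k := 1) πy3)
  have P3 : ∀ x ∈ P, x ^ 3 = 1 := fun x hx => (h.quot R).three_grp hP hx
  have yP : π y ∈ P := mem_sup_right (mem_zpowers _)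
  have OP : ∀ o ∈ O, π o ∈ P := fun o ho => mem_sup_left (mem_map_of_mem π ho)
  have qy : Commute (π q) (π y) := comm_iff.1 q3
  have qP : π q ∈ 𝒩(P) := zpowers_le.1 (le_norm_sup le_normalizer_of_normal (le_trans (by
    rw [cent_zpowers, zpowers_le]; exact mem_centralizer_singleton_iff.2 qy) (cent_le_norm (zpowers (π y)))))
  have πr : ∀ x, ∀ r ∈ R, π (x * r) = π x := fun x r hr => by rw [map_mul, mem_iff.1 hr, mul_one]
  have nine : ∀ f, π f ∈ P → Commute (π f) (π y) → π f ∉ zpowers (π y) → ∃ e, π e = π f ∧ Nine y e := fun f f1 f2 f3 =>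
    have ⟨r, hr, n⟩ := h9 G h R y f hR hy (nR _) (nR _) (mem_iff.2 (by rw [map_pow]; exact P3 _ f1)) (comm_iff.2 f2)
      (mt sup_iff.1 f3)
    ⟨_, πr f r hr, n⟩
  have ha : ∀ f, π f ∈ P → Commute (π f) (π y) → Commute (π q) (π f) → π f ∈ zpowers (π y) := fun f f1 f2 f3 => by
    by_contra f4
    obtain ⟨e, e1, n⟩ := nine f f1 f2 f4
    obtain ⟨r, hr, c⟩ := (hE G h R y e hR n (nR _) (nR _)).2.2.2.1 q (nR _) q2 q3 (comm_iff.2 (e1 ▸ f3))
    exact q1 ((R.mul_mem_cancel_right hr).1 (chr c))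
  obtain ⟨r, hr, c1, c2, c3⟩ := hCl G h R y q hR hy (nR _) (nR _) q2 q3
  have πq := πr q r hr
  generalize q * r = s at c1 c2 c3 πq
  have sD : s ∈ 𝒞(fx R y) := mem_centralizer_iff.2 fun d hd => c3 d hd.1 (mem_fx.1 hd).2
  have hb : ∀ e, π e ∈ P → Commute e y → e ∈ 𝒞(fx R y) := fun e e1 e2 => by
    have a1 : π s * π e * (π s)⁻¹ ∈ P := πq ▸ conj_mem qP e1
    have a2 : Commute (e * (s * e * s⁻¹)⁻¹ * e) y :=
      (e2.mul_left ((c1.mul_left e2).mul_left c1.inv_left).inv_left).mul_left e2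
    have a3 := ha (e * (s * e * s⁻¹)⁻¹ * e) (by
      simp only [map_mul, map_inv]; exact mul_mem (mul_mem e1 (inv_mem a1)) e1) (a2.map π) (by
      simp only [map_mul, map_inv, ← πq]
      exact fixed (by rw [← map_mul, c2, map_one]) (P3 _ (mul_mem (inv_mem e1) a1)))
    obtain ⟨_, ⟨k, rfl⟩, d, hd, a4⟩ := (mem_sup_nr le_normalizer_of_normal).1 (sup_iff.2 a3)
    have a5 : Commute d y := by
      rw [eq_inv_mul_of_mul_eq a4]; exact (Commute.zpow_self y k).inv_left.mul_left a2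
    have a6 : e * (s * e * s⁻¹)⁻¹ * e ∈ 𝒞(fx R y) := a4 ▸ mul_mem
      (zpow_mem (mem_centralizer_iff.2 fun w hw => (mem_fx.1 hw).2) k)
      (mem_centralizer_iff.2 fun w hw => h.comm hy hR hw.1 hd (mem_fx.1 hw).2 a5)
    have a7 : e ∈ 𝒩(𝒞(fx R y)) := norm_le_norm_cent _ (zpowers_le.1 (le_norm_inf le_normalizer_of_normal
      (zpowers_le.2 (le_normalizer (mem_centralizer_singleton_iff.2 e2)))))
    have a8 := mul_mem a6 (mul_mem (conj_mem' a7 sD) (inv_mem sD))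
    rwa [show e * (s * e * s⁻¹)⁻¹ * e * (e⁻¹ * s * e * s⁻¹) = e by group] at a8
  have hc : ∀ a, π a ∈ P → Commute (π a) (π y) := fun a a1 => by
    obtain ⟨b1, b2⟩ := engel (P3 _ a1) (P3 _ (mul_mem (inv_mem a1) yP)) (P3 _ (mul_mem yP a1))
    by_cases f4 : π a * π y * (π a)⁻¹ ∈ zpowers (π y)
    · rcases three_cases πy3 f4 with e | e | e
      · exact absurd (conj_eq_one_iff.1 e) (o3 y hy)
      · exact mul_inv_eq_iff_eq_mul.1 e
      · rw [e, eq_comm, inv_eq_one] at b1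
        exact absurd (by simpa [mul_assoc] using congrArg (fun x => π a * x * (π a)⁻¹) b1) (o3 y hy)
    exfalso
    have f0 : π (a * y * a⁻¹) = π a * π y * (π a)⁻¹ := by rw [map_mul, map_mul, map_inv]
    have f1 : π (a * y * a⁻¹) ∈ P := f0 ▸ conj_mem (le_normalizer a1) yP
    obtain ⟨e, e1, n⟩ := nine _ f1 (f0 ▸ b1.trans b2.symm) (f0 ▸ f4)
    have e3 : e ^ 3 = 1 := n.of ▸ pow_orderOf_eq_one e
    have eD := hb e (e1 ▸ f1) n.comm.symm
    have D1 : fx R y ≤ fx R e := fun d hd => mem_fx.2 ⟨hd.1, comm_of_mem eD hd⟩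
    have D2 : fx R y ≤ fx R (y * e) := fun d hd => mem_fx.2 ⟨hd.1, (mem_fx.1 hd).2.mul_right (mem_fx.1 (D1 hd)).2⟩
    have D3 : fx R y ≤ centralizer {y * e⁻¹} := fun d hd =>
      mem_centralizer_singleton_iff.2 ((mem_fx.1 hd).2.mul_right (mem_fx.1 (D1 hd)).2.inv_right)
    have E1 := eq_of_le_of_card_ge D1 ((card_fx_le hR e3 (by rw [conj_pow, y3]; group)
      (sup_iff.2 (e1 ▸ mem_zpowers _))).trans (card_conj a y).le)
    have E2 := eq_of_le_of_card_ge D2 ((card_fx_le hR (by rw [n.comm.mul_pow, y3, e3, one_mul])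
      (x := a⁻¹ * y * a⁻¹⁻¹) (by rw [conj_pow, y3]; group) (sup_iff.2 (by
        rw [map_mul π y, e1, f0, b2, zpowers_inv, inv_inv, map_mul, map_mul, map_inv]
        exact mem_zpowers _))).trans (card_conj a⁻¹ y).le)
    have E3 := (hE G h R y e hR n (nR _) (nR _)).1
    rw [← E1, ← E2, sup_idem, sup_idem] at E3
    have E4 := mem_iff.1 (chr (mem_centralizer_iff.2 fun w hw =>
      mem_centralizer_singleton_iff.1 (E3.trans (sup_le D3 inf_le_right) hw)))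
    rw [map_mul, map_inv, mul_inv_eq_one, e1, f0] at E4
    exact f4 (E4 ▸ mem_zpowers _)
  exact ⟨fun o ho => comm_iff.2 (hc o (OP o ho)), fun o ho h1 h2 => sup_iff.2 (ha o (OP o ho) (comm_iff.1 h1) (comm_iff.1 h2)),
    fun e he h1 d hd h2 => comm_of_mem (hb e (OP e he) h1) (mem_fx.2 ⟨hd, h2⟩)⟩

end LY1

theorem ly1Thm (hCl : ClThm.{u}) (h9 : L9Thm.{u}) (hE : E9Thm.{u}) : LY1Thm.{u} := by
  intro G _ _ h H R O y q F yH hy qH q1 q2 q3
  have RH := F.RO.trans F.OH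
  have := (normal_subgroupOf_iff_le_normalizer RH).2 F.nR
  have := (normal_subgroupOf_iff_le_normalizer F.OH).2 F.nO
  obtain ⟨a, b, c⟩ := LY1.core hCl h9 hE (h.sub H) (R := R.subgroupOf H) (O := O.subgroupOf H) F.two.comap_subtype
    (fun x hx => F.chr ⟨x.2, mem_centralizer_iff.2 fun r hr =>
      congrArg Subtype.val (mem_centralizer_iff.1 hx ⟨r, RH hr⟩ hr)⟩) (fun o ho => F.cube o ho)
    (y := ⟨y, yH⟩) (q := ⟨q, qH⟩) (by rw [orderOf_mk, hy]) q1 q2 q3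
  have a' : ∀ o ∈ O, ⁅o, y⁆ ∈ R := fun o ho => a ⟨o, F.OH ho⟩ ho
  refine ⟨F.self y yH fun o ho => ?_, a', fun o ho h1 => ?_, fun e he h1 _ d hd h2 => ?_⟩
  · rw [← commutatorElement_inv]; exact inv_mem (a' o ho)
  · have := mem_map_of_mem H.subtype (b ⟨o, F.OH ho⟩ ho (a' o ho) h1)
    rwa [Subgroup.map_sup, MonoidHom.map_zpowers, map_subgroupOf_eq_of_le RH] at this
  · exact congrArg Subtype.val (c ⟨e, F.OH he⟩ he (Subtype.ext h1) ⟨d, RH hd⟩ hd (Subtype.ext h2))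

end CL.O8
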