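/-
Project O8, job LY2: a 2-subgroup over `O₂(H)` normalized by an element of order 3.
-/
import Cfsg.Agent.O8.A
import Cfsg.Agent.Even.XS2

set_option autoImplicit false
set_option linter.unusedVariables false

open Cfsg Subgroup CL.Grp CL.Even CL.Loc CL.NGrp
open scoped commutatorElement

namespace CL.O8

universe u

namespace LY2

variable {X : Type u} [Group X] [Finite X] {O U : Subgroup X} {y : X}

theorem gen2 {A M : Subgroup X} (hA : ∀ a ∈ A, a * a = 1) (hO : IsPGroup 3 O) [O.Normal] {a b : X} (ha : a ∈ A)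
    (hb : b ∈ A) (a1 : a ≠ 1) (b1 : b ≠ 1) (ab : a ≠ b) (hM : ∀ a ∈ A, a ≠ 1 → fx O a ≤ M) : O ≤ M := by
  have := Fact.mk Nat.prime_two
  have := Fact.mk Nat.prime_three
  have : IsMulCommutative A := ⟨⟨fun x y => Subtype.ext (by
    rw [coe_mul, coe_mul, ← inv_eq_of_mul_eq_one_right (hA _ (mul_mem x.2 y.2)), mul_inv_rev,
      inv_eq_of_mul_eq_one_right (hA _ x.2), inv_eq_of_mul_eq_one_right (hA _ y.2)])⟩⟩
  refine le_of_forall_centralizer_le (fun hc => ?_) le_normalizer_of_normal (IsPGroup.coprime_card_of_ne 2 3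
    (by norm_num) A O (fun x => ⟨1, Subtype.ext ((pow_two _).trans (hA _ x.2))⟩) hO) hM
  obtain ⟨g, hg⟩ := IsCyclic.exists_generator (α := A)
  have k : ∀ x ∈ A, x ≠ 1 → x = g := fun x hx x1 => by
    have e := hg ⟨x, hx⟩
    have g1 : g ≠ 1 := fun e1 => by
      rw [e1, zpowers_one_eq_bot, mem_bot] at e
      exact x1 (congrArg Subtype.val e)
    exact congrArg Subtype.val (((mem_zpowers_two (orderOf_eq_prime (Subtype.ext ((pow_two _).trans (hA _ g.2))) g1)).1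
      e).resolve_left fun e1 => x1 (congrArg Subtype.val e1))
  exact ab ((k a ha a1).trans (k b hb b1).symm)

theorem dis (hO : IsPGroup 3 O) (hU : IsPGroup 2 U) {a : X} (ha : a ∈ U) (ha' : a ∈ O) : a = 1 :=
  have := Fact.mk Nat.prime_two
  have := Fact.mk Nat.prime_three
  disjoint_def.1 (IsPGroup.disjoint_of_ne 2 3 (by norm_num) U O hU hO) ha ha'

theorem step1 (h : Ord8 X) [hN : O.Normal] (hO : IsPGroup 3 O) (hC : 𝒞(O) ≤ O) (hU : IsPGroup 2 U) (hne : U ≠ ⊥)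
    (hy : orderOf y = 3) (hn : y ∈ 𝒩(U)) : ∃ k ∈ U, k ≠ 1 ∧ k * k = 1 ∧ Commute k y := by
  have := Fact.mk Nat.prime_two
  by_contra! hk
  obtain ⟨⟨a, ha⟩, a1⟩ := ne_bot_iff_exists_ne_one.1 (ozc_ne_bot hU hne)
  replace a1 : a ≠ 1 := fun e => a1 (Subtype.ext e)
  have V1 : ∀ v ∈ 𝛀[2] U, v * v = 1 := fun v hv => (pow_two v).symm.trans (mem_ozc.1 hv).2.2
  have V2 : ∀ v ∈ 𝛀[2] U, ∀ w ∈ 𝛀[2] U, Commute v w := fun v hv w hw => comm_of_mem (ozc_le_cent U hw) (ozc_le U hv)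
  have V3 : ∀ v ∈ 𝛀[2] U, y * v * y⁻¹ ∈ 𝛀[2] U := fun v hv => conj_mem (norm_le_norm_ozc U hn) hv
  have y3 : y ^ 3 = 1 := hy ▸ pow_orderOf_eq_one y
  obtain ⟨b, eb⟩ : ∃ b, b = y * a * y⁻¹ := ⟨_, rfl⟩
  obtain ⟨c, ec⟩ : ∃ c, c = y * b * y⁻¹ := ⟨_, rfl⟩
  have hb : b ∈ 𝛀[2] U := eb ▸ V3 a ha
  have hc : c ∈ 𝛀[2] U := ec ▸ V3 b hb
  have ea : a = y * c * y⁻¹ :=
    calc a = y ^ 3 * a * (y ^ 3)⁻¹ := by rw [y3]; group
      _ = _ := by rw [ec, eb]; simp only [pow_three, mul_inv_rev, mul_assoc]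
  have abc : c = a * b := by
    have m := mul_mem (mul_mem ha hb) hc
    have e : a * b * c = 1 := by_contra fun n => hk _ (ozc_le U m) n (V1 _ m) (Commute.symm (mul_inv_eq_iff_eq_mul.1 (by
      rw [← conj_mul, ← conj_mul, ← eb, ← ec, ← ea, mul_assoc a, (V2 a ha _ (mul_mem hb hc)).eq])))
    rw [eq_inv_of_mul_eq_one_right e, inv_eq_of_mul_eq_one_right (V1 _ (mul_mem ha hb))]
  have ab : a ≠ b := fun e => hk a (ozc_le U ha) a1 (V1 a ha) (Commute.symm (mul_inv_eq_iff_eq_mul.1 (eb.symm.trans e.symm)))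
  obtain ⟨o, ho, o1, o2⟩ : ∃ o ∈ O, Commute o a ∧ ¬ Commute o b := by
    by_contra! H
    have st : ∀ v w, (∀ o ∈ O, Commute o v → Commute o w) → ∀ o ∈ O, Commute o (y * v * y⁻¹) → Commute o (y * w * y⁻¹) :=
      fun v w k o ho e => by
        simpa [mul_assoc] using (k _ (hN.conj_mem o ho y⁻¹) (by simpa [mul_assoc] using e.conj y⁻¹)).conj y
    have H2 := st a b H
    rw [← eb, ← ec] at H2
    have H3 := st b c H2
    rw [← ec, ← ea] at H3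
    have e := gen2 (A := closure {a, b}) (M := centralizer {a}) (fun v hv => V1 v ((closure_le _).2 (by
      rintro _ (rfl | rfl) <;> assumption) hv)) hO (subset_closure (.inl rfl)) (subset_closure (.inr rfl)) a1
      (fun e => a1 (by rwa [eb, conj_eq_one_iff] at e)) ab fun v hv v1 o ho => mem_centralizer_singleton_iff.2 (by
        obtain ⟨p1, p2⟩ := mem_fx.1 ho
        rcases (mem_closure_pair_two (V1 a ha) (V1 b hb) (V2 a ha b hb)).1 hv with rfl | rfl | rfl | rfl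
        exacts [(v1 rfl).elim, p2, H3 o p1 (H2 o p1 p2), H3 o p1 (abc ▸ p2)])
    exact a1 (dis hO hU (ozc_le U ha) (hC fun o ho => mem_centralizer_singleton_iff.1 (e ho)))
  obtain ⟨f, ef⟩ : ∃ f, f = b * o * b⁻¹ * o⁻¹ := ⟨_, rfl⟩
  have fO : f ∈ O := ef ▸ mul_mem (hN.conj_mem o ho b) (inv_mem ho)
  have fa : a * f * a⁻¹ = f := Commute.mul_inv_cancel (ef ▸ (((V2 a ha b hb).mul_right o1.symm).mul_right
    (V2 a ha b hb).inv_right).mul_right o1.symm.inv_right)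
  have fb : b * f * b⁻¹ = f⁻¹ :=
    calc _ = b * b * o * b * (b * b)⁻¹ * o⁻¹ * b⁻¹ := by rw [ef]; group
      _ = _ := by rw [V1 b hb, ef]; group
  have fc : c * f * c⁻¹ = f⁻¹ :=
    calc _ = a * (b * f * b⁻¹) * a⁻¹ := by rw [abc]; group
      _ = _ := by rw [fb, ← conj_inv, fa]
  have f2 : a * (y * f * y⁻¹) * a⁻¹ = (y * f * y⁻¹)⁻¹ :=
    calc _ = y * (c * f * c⁻¹) * y⁻¹ := by rw [ea]; group
      _ = _ := by rw [fc, conj_inv]
  have f3 : a * (y * (y * f * y⁻¹) * y⁻¹) * a⁻¹ = (y * (y * f * y⁻¹) * y⁻¹)⁻¹ :=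
    calc _ = y * (y * (b * f * b⁻¹) * y⁻¹) * y⁻¹ := by rw [ea, ec]; group
      _ = _ := by rw [fb, conj_inv, conj_inv]
  have e1 : f * (y * f * y⁻¹) * (y * (y * f * y⁻¹) * y⁻¹) = 1 := by
    rw [← h.three_grp (isPGroup_sup' hO (isPGroup_zpowers (k := 1) y3) le_normalizer_of_normal)
      (mul_mem (mem_sup_left fO) (mem_sup_right (mem_zpowers y))), ← mul_one (_ * _), ← y3]
    simp only [pow_three, mul_assoc, inv_mul_cancel_left]
  have m2 := hN.conj_mem f fO y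
  have p2 := h.three_grp hO m2
  have p3 := h.three_grp hO (hN.conj_mem _ m2 y)
  generalize y * (y * f * y⁻¹) * y⁻¹ = s at *
  generalize y * f * y⁻¹ = t at *
  have e2 : f * t⁻¹ * s⁻¹ = 1 := by rw [← f2, ← f3, ← fa, conj_mul, conj_mul, e1, mul_one, mul_inv_cancel]
  have e3 : t * s = t⁻¹ * s⁻¹ := mul_left_cancel (a := f) (by rw [← mul_assoc, ← mul_assoc, e1, e2])
  have e4 : t⁻¹ * s⁻¹ = 1 :=
    calc _ = (t ^ 3)⁻¹ * (t * (t * s) * s) * (s ^ 3)⁻¹ := by simp [pow_three, mul_assoc]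
      _ = _ := by rw [e3, p2, p3]; group
  rw [mul_assoc, e4, mul_one, ef] at e2
  exact o2 (Commute.symm (mul_inv_eq_iff_eq_mul.1 (mul_inv_eq_one.1 e2)))

theorem step2 [hN : O.Normal] (hO : IsPGroup 3 O) (hU : IsPGroup 2 U) (hn : y ∈ 𝒩(U)) (yO : y ∈ O) {a : X}
    (ha : a ∈ U) : Commute a y :=
  mul_inv_eq_iff_eq_mul.1 (mul_inv_eq_one.1 (dis hO hU (by
    simpa only [mul_assoc] using mul_mem ha (conj_mem hn (inv_mem ha))) (mul_mem (hN.conj_mem y yO a) (inv_mem yO))))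

theorem step3 (h : Ord8 X) [hN : O.Normal] (hO : IsPGroup 3 O) (hC : 𝒞(O) ≤ O) (hU : IsPGroup 2 U)
    (hy : orderOf y = 3) (hn : y ∈ 𝒩(U)) (yO : y ∈ O) (hM : ∀ a ∈ U, a ≠ 1 → fx O a ≤ zpowers y) {a b : X} (ha : a ∈ U)
    (hb : b ∈ U) (a1 : a ≠ 1) (b1 : b ≠ 1) : a = b := by_contra fun ab =>
  a1 (dis hO hU ha (hC fun o ho => by
    obtain ⟨n, rfl⟩ := gen2 (fun a ha => h.sq hy hU ha (step2 hO hU hn yO ha)) hO ha hb a1 b1 ab hM ho
    exact ((step2 hO hU hn yO ha).zpow_right n).symm))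

theorem bar {G : Type u} [Group G] [Finite G] (h : Ord8 G) {H R O U : Subgroup G} {y : G} (F : Fit3 H R O)
    (hU : IsPGroup 2 U) (RU : R ≤ U) (UH : U ≤ H) (ne : U ≠ R) (yH : y ∈ H) (hy : orderOf y = 3) (hn : y ∈ 𝒩(U)) :
    (∃ q ∈ U, q ∉ R ∧ q * q ∈ R ∧ ⁅q, y⁆ ∈ R) ∧ (y ∈ O → (∀ a ∈ U, a * a ∈ R ∧ ⁅a, y⁆ ∈ R) ∧
      ((∀ a ∈ U, a ∉ R → ∀ o ∈ O, ⁅a, o⁆ ∈ R → o ∈ zpowers y ⊔ R) →
        ∀ a ∈ U, ∀ b ∈ U, a ∉ R → b ∉ R → a * b⁻¹ ∈ R)) := by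
  have := Fact.mk Nat.prime_three
  have := (normal_subgroupOf_iff_le_normalizer (F.RO.trans F.OH)).2 F.nR
  have hX := (h.sub H).quot (R.subgroupOf H)
  have hπ : Quo H R (QuotientGroup.mk' (R.subgroupOf H)) :=
    ⟨QuotientGroup.mk'_surjective _, fun m => (QuotientGroup.eq_one_iff m).trans mem_subgroupOf⟩
  generalize QuotientGroup.mk' (R.subgroupOf H) = π at hπ
  have cm : ∀ a b : H, Commute (π a) (π b) ↔ ⁅(a : G), (b : G)⁆ ∈ R := fun a b => by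
    rw [← commutatorElement_eq_one_iff_commute, ← map_commutatorElement, hπ.ker]; rfl
  have := ((normal_subgroupOf_iff_le_normalizer F.OH).2 F.nO).map π hπ.surj
  have hO : IsPGroup 3 ((O.subgroupOf H).map π) := by
    rintro ⟨_, m, hm, rfl⟩
    exact ⟨1, Subtype.ext ((map_pow π m 3).symm.trans ((hπ.ker _).2 (F.cube m hm)))⟩
  have hC : 𝒞((O.subgroupOf H).map π) ≤ (O.subgroupOf H).map π := fun x hx => by
    obtain ⟨m, rfl⟩ := hπ.surj x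
    exact ⟨m, F.self m m.2 fun o ho => (cm m ⟨o, F.OH ho⟩).1 (hx _ ⟨_, ho, rfl⟩).symm, rfl⟩
  have hU' : IsPGroup 2 ((U.subgroupOf H).map π) := (hU.comap_of_injective H.subtype H.subtype_injective).map π
  have hy' : orderOf (π ⟨y, yH⟩) = 3 := orderOf_eq_prime
    (by rw [← map_pow, hπ.ker, coe_pow, ← hy, pow_orderOf_eq_one]; exact one_mem _) fun e => by
      rw [eq_one_of_coprime_of_mem (x := y) F.two (by rw [hy]; decide) ((hπ.ker _).1 e), orderOf_one] at hy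
      exact absurd hy (by decide)
  have hn' : π ⟨y, yH⟩ ∈ 𝒩((U.subgroupOf H).map π) := mem_norm_of_cj_le (by
    rintro _ ⟨_, ⟨m, hm, rfl⟩, rfl⟩
    exact ⟨⟨y, yH⟩ * m * ⟨y, yH⟩⁻¹, conj_mem hn hm, by simp⟩)
  refine ⟨?_, fun yO => ⟨fun a ha => ?_, fun k a ha b hb a1 b1 => ?_⟩⟩
  · obtain ⟨_, ⟨m, hm, rfl⟩, m1, m2, m3⟩ := step1 hX hO hC hU' (fun e => ne (le_antisymm (fun a ha =>
      (hπ.ker ⟨a, UH ha⟩).1 (mem_bot.1 (e ▸ ⟨_, ha, rfl⟩))) RU)) hy' hn'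
    exact ⟨m, hm, fun e => m1 ((hπ.ker m).2 e), (hπ.ker (m * m)).1 ((map_mul π m m).trans m2), (cm _ _).1 m3⟩
  · have e := step2 hO hU' hn' ⟨_, yO, rfl⟩ (a := π ⟨a, UH ha⟩) ⟨_, ha, rfl⟩
    exact ⟨(hπ.ker (⟨a, UH ha⟩ * ⟨a, UH ha⟩)).1 ((map_mul π _ _).trans (hX.sq hy' hU' ⟨_, ha, rfl⟩ e)), (cm _ _).1 e⟩
  · refine (hπ.eq_iff (a := ⟨a, UH ha⟩) (b := ⟨b, UH hb⟩)).1 (step3 hX hO hC hU' hy' hn' ⟨_, yO, rfl⟩ ?_ ⟨_, ha, rfl⟩
      ⟨_, hb, rfl⟩ (fun e => a1 ((hπ.ker _).1 e)) fun e => b1 ((hπ.ker _).1 e))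
    rintro _ ⟨m, hm, rfl⟩ m1 x hx
    obtain ⟨⟨o, ho, rfl⟩, e⟩ := mem_fx.1 hx
    obtain ⟨_, ⟨n, rfl⟩, r, hr, e1⟩ := (mem_sup_nr (zpowers_le.2 (F.nR yH))).1
      (k m hm (fun e => m1 ((hπ.ker m).2 e)) o ho ((cm _ _).1 e.symm))
    refine ⟨n, (map_zpow π _ n).symm.trans (hπ.eq_iff.2 ?_)⟩
    rw [← e1, mul_inv_rev, ← mul_assoc]
    exact conj_mem (zpow_mem (F.nR yH) n) (inv_mem hr)

end LY2

theorem ly2Thm (hCl : ClThm.{u}) (h9 : L9Thm.{u}) (hE : E9Thm.{u}) (h1 : LY1Thm.{u}) : LY2Thm.{u} := by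
  intro G _ _ h H R O U y F hU RU UH ne yH hy hn
  obtain ⟨⟨p, pU, pR, p2, py⟩, k⟩ := LY2.bar h F hU RU UH ne yH hy hn
  obtain ⟨yO, c3, -, c4⟩ := h1 G h H R O y p F yH hy (UH pU) pR p2 py
  obtain ⟨k1, k2⟩ := k yO
  replace k2 := k2 fun a ha aR => (h1 G h H R O y a F yH hy (UH ha) aR (k1 a ha).1 (k1 a ha).2).2.2.1
  obtain ⟨r, hr, qy, q2, qd⟩ := hCl G h R y p F.two hy (F.nR yH) (F.nR (UH pU)) p2 py
  have qU := mul_mem pU (RU hr)
  have qR : p * r ∉ R := fun e => pR ((mul_mem_cancel_right hr).1 e)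
  generalize p * r = q at qy q2 qd qU qR
  obtain ⟨o, ho, oq⟩ : ∃ o ∈ O, ⁅q, o⁆ ∉ R := by
    by_contra! e
    have := F.cube q (F.self q (UH qU) e)
    rw [pow_three', q2, one_mul] at this
    exact qR this
  have fO : ⁅q, o⁆ ∈ O := mul_mem (conj_mem (F.nO (UH qU)) ho) (inv_mem ho)
  have fq : q * ⁅q, o⁆ * q⁻¹ = ⁅q, o⁆⁻¹ :=
    calc _ = q * q * o * q * (q * q)⁻¹ * o⁻¹ * q⁻¹ := by rw [commutatorElement_def]; group
      _ = _ := by rw [q2, commutatorElement_def]; group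
  generalize ⁅q, o⁆ = f at fO fq oq
  obtain ⟨s, hs, N⟩ := h9 G h R y f F.two hy (F.nR yH) (F.nR (F.OH fO)) (F.cube f fO) (c3 f fO) fun e => by
    obtain ⟨_, ⟨n, rfl⟩, s, hs, e1⟩ := (mem_sup_nr (zpowers_le.2 (F.nR yH))).1 e
    have e2 := mul_mem (inv_mem (conj_mem (F.nR (UH qU)) hs)) hs
    have e3 : (q * s * q⁻¹)⁻¹ * s = f * f :=
      calc _ = (q * y ^ n * q⁻¹ * (q * s * q⁻¹))⁻¹ * (y ^ n * s) := by rw [(qy.zpow_right n).mul_inv_cancel]; group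
        _ = _ := by rw [conj_mul, show y ^ n * s = f from e1, fq, inv_inv]
    exact oq ((mul_mem_cancel_left (e3 ▸ e2)).1 (pow_three' f ▸ F.cube f fO))
  have eO := mul_mem fO (F.RO hs)
  refine ⟨?_, yO, c3, c4, fun d hd dy a ha => ?_, q, qU, qR, q2, qy, _, eO, N, ?_⟩
  · rw [← (R.subgroupOf U).card_mul_index, Nat.card_congr (subgroupOfEquivOfLe RU).toEquiv, mul_comm]
    exact congrArg (· * _) (relIndex_eq_two_iff_exists_notMem_and.2 ⟨q⁻¹, inv_mem qU, fun e => qR (inv_mem_iff.1 e),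
      fun b hb => (em _).symm.imp (fun e => k2 b hb q qU e qR) id⟩)
  · have e := (hE G h R y _ F.two N (F.nR yH) (F.nR (F.OH eO))).2.1 d hd dy (c4 _ eO N.comm.symm N.of d hd dy)
    by_cases aR : a ∈ R
    · exact e a aR
    · simpa using (Commute.mul_left (e _ (k2 a ha q qU aR qR)) (qd d hd dy).symm).eq
  · rw [← conj_mul, fq, ← mul_assoc]
    exact mul_mem (conj_mem' (F.nR (F.OH fO)) (conj_mem (F.nR (UH qU)) hs)) hs

end CL.O8
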