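/-
Project O8 (S3432): elementary facts on `L₃(4)`.
-/
import Cfsg.Agent.O8.A
import Cfsg.Agent.Cls.SLnCard

set_option autoImplicit false
set_option linter.unusedVariables false

open Cfsg Subgroup CL.Grp CL.Even CL.Loc CL.NGrp Matrix
open scoped commutatorElement MatrixGroups

namespace CL.O8

universe u

namespace M34A

def ma : SL(3, ZMod 2) := ⟨!![1, 0, 1; 0, 1, 0; 0, 0, 1], by decide⟩
def mb : SL(3, ZMod 2) := ⟨!![1, 0, 0; 0, 1, 1; 0, 0, 1], by decide⟩
def my : SL(3, ZMod 2) := ⟨!![0, 1, 0; 1, 1, 0; 0, 0, 1], by decide⟩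
def mx : SL(3, ZMod 2) := ⟨!![0, 0, 1; 1, 0, 1; 0, 1, 0], by decide⟩
def mt : SL(3, ZMod 2) := ⟨!![1, 0, 0; 0, 0, 1; 0, 1, 1], by decide⟩

theorem rel : ma * ma = 1 ∧ mb * mb = 1 ∧ ma * mb = mb * ma ∧ ma ≠ 1 ∧ my * ma = mb * my ∧ my * mb = ma * mb * my ∧
    my * my * my = 1 ∧ my ≠ 1 ∧ mx * mx * mx * mx * mx * mx * mx = 1 ∧ mx ≠ 1 ∧ mt * mx = mx * mx * mt := by
  decide +kernel

theorem of_hom {S : Type*} [Group S] (φ : SL(3, ZMod 2) →* S) (hφ : Function.Injective φ) : Q4 S ∧ F7 S := by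
  obtain ⟨h1, h2, h3, h4, h5, h6, h7, h8, h9, h10, h11⟩ := rel
  have : Fact (Nat.Prime 7) := ⟨by norm_num⟩
  refine ⟨⟨φ ma, φ mb, φ my, by rw [← map_mul, h1, map_one], by rw [← map_mul, h2, map_one],
    by rw [← map_mul, h3, map_mul], fun e => h4 (hφ (e.trans φ.map_one.symm)),
    by rw [← map_mul, h5, map_mul, mul_inv_cancel_right],
    by rw [← map_mul, h6, map_mul, mul_inv_cancel_right, map_mul], ?_⟩,
    φ mx, φ mt, ?_, by rw [← map_mul, h11, map_mul, mul_inv_cancel_right, map_mul, sq]⟩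
  · rw [orderOf_injective φ hφ]
    exact orderOf_eq_prime (by rw [pow_three', h7]) h8
  · rw [orderOf_injective φ hφ]
    exact orderOf_eq_prime (by simpa only [pow_succ, pow_zero, one_mul] using h9) h10

variable {F : Type} [Field F] [CharP F 2]

theorem inj : Function.Injective ((QuotientGroup.mk' (center SL(3, F))).comp
    (SpecialLinearGroup.map (n := Fin 3) (ZMod.castHom (dvd_refl 2) F))) := by
  refine (injective_iff_map_eq_one _).2 fun g hg => ?_
  obtain ⟨r, h1, h2⟩ := Matrix.SpecialLinearGroup.mem_center_iff.1 ((QuotientGroup.eq_one_iff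
    (SpecialLinearGroup.map (n := Fin 3) (ZMod.castHom (dvd_refl 2) F) g)).1 hg)
  have h3 : ∀ i j, (scalar (Fin 3) r) i j = ZMod.castHom (dvd_refl 2) F (g.1 i j) := fun i j =>
    congrFun (congrFun h2 i) j
  ext i j
  have h4 := h3 i j
  by_cases e : i = j
  · subst e
    rw [scalar_apply, diagonal_apply_eq] at h4
    have h5 : g.1 i i ≠ 0 := fun k => by
      rw [h4, k, map_zero] at h1
      simp at h1
    exact ((by decide : ∀ c : ZMod 2, c ≠ 0 → c = 1) _ h5).trans (one_apply_eq i).symm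
  · rw [scalar_apply, diagonal_apply_ne _ e, eq_comm, map_eq_zero] at h4
    exact h4.trans (one_apply_ne e).symm

theorem pow_four {s : SL(3, F)} (h : s ^ 8 = 1) : s ^ 4 = 1 := by
  have h1 : s.1 ^ 2 ^ 3 = 1 := (Matrix.SpecialLinearGroup.coe_pow s 8).symm.trans (congrArg Subtype.val h)
  have h2 : IsNilpotent (s.1 - 1) :=
    ⟨2 ^ 3, by rw [sub_pow_char_pow_of_commute _ _ (Commute.one_right _), h1, one_pow, sub_self]⟩
  have h3 := aeval_self_charpoly (s.1 - 1)
  rw [sub_eq_zero.1 (isNilpotent_charpoly_sub_pow_of_isNilpotent h2).eq_zero, map_pow, Polynomial.aeval_X,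
    Fintype.card_fin] at h3
  have h4 : (s.1 - 1) ^ 2 ^ 2 = 0 := by rw [show 2 ^ 2 = 3 + 1 from rfl, pow_succ, h3, zero_mul]
  rw [sub_pow_char_pow_of_commute _ _ (Commute.one_right _), one_pow, sub_eq_zero] at h4
  exact Subtype.ext ((Matrix.SpecialLinearGroup.coe_pow s 4).trans h4)

theorem pow_four' {g : ProjectiveSpecialLinearGroup (Fin 3) F} (h : g ^ 8 = 1) : g ^ 4 = 1 := by
  obtain ⟨s, rfl⟩ := QuotientGroup.mk'_surjective (center SL(3, F)) g
  obtain ⟨r, h1, h2⟩ := Matrix.SpecialLinearGroup.mem_center_iff.1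
    ((QuotientGroup.eq_one_iff (s ^ 8)).1 ((map_pow (QuotientGroup.mk' (center SL(3, F))) s 8).trans h))
  rw [Fintype.card_fin] at h1
  have h3 : (s ^ 8) ^ 3 = 1 := Subtype.ext ((Matrix.SpecialLinearGroup.coe_pow _ 3).trans (by
    rw [← h2, ← map_pow, h1, map_one]; rfl))
  have h4 := pow_four (s := s ^ 9) (by rw [← pow_mul, show 9 * 8 = 8 * 3 * 3 from rfl, pow_mul, pow_mul, h3, one_pow])
  have h5 := congrArg (QuotientGroup.mk' (center SL(3, F))) h4
  rwa [map_pow, map_pow, map_one, pow_succ _ 8, h, one_mul] at h5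

end M34A

open M34A in
theorem m34a (S : Type u) [Group S] (h : IsL3 S 4) :
    Nat.card S = 20160 ∧ Q4 S ∧ F7 S ∧ ∀ g : S, orderOf g ≠ 8 := by
  obtain ⟨F, _, _, hF, ⟨e⟩⟩ := h
  have : CharP F 2 := charP_of_card_eq_prime_pow (p := 2) (f := 2) hF
  have h1 := CL.SLn.card_PSL_mul (ι := Fin 3) (F := F)
  rw [CL.SLn.card_SL, ← Nat.card_congr e.toEquiv, hF, Fintype.card_fin] at h1
  simp [Finset.prod_range_succ] at h1
  obtain ⟨h2, h3⟩ := of_hom (e.symm.toMonoidHom.comp _) (e.symm.injective.comp (inj (F := F)))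
  refine ⟨by omega, h2, h3, fun g hg => ?_⟩
  rw [← e.orderOf_eq] at hg
  have h4 := orderOf_dvd_of_pow_eq_one (pow_four' (hg ▸ pow_orderOf_eq_one (e g)))
  rw [hg] at h4
  omega

end CL.O8
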