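/-
Project O8 (S3432): the configuration `C34` in `L₃(4)`.
-/
import Cfsg.Agent.O8.A
import Cfsg.Agent.Cls.SLnCard
import Cfsg.Agent.SG2.F4

set_option autoImplicit false
set_option linter.unusedVariables false

open Cfsg Subgroup CL.Grp CL.Even CL.Loc CL.NGrp Matrix
open scoped commutatorElement MatrixGroups

namespace CL.O8

universe u

namespace M34B

open CL.SG2 CL.SG2.F4

abbrev S : Type := SL(3, F4)

def e : S := ⟨!![o, i, o; o, o, i; i, o, o], by decide⟩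
def f : S := ⟨!![i, o, o; o, w, o; o, o, v], by decide⟩
def z : S := ⟨!![w, o, o; o, w, o; o, o, w], by decide⟩
def x : S := ⟨!![o, o, i; o, i, i; i, i, o], by decide⟩
def g : S := ⟨!![i, i, i; i, v, w; i, w, v], by decide⟩
def h : S := ⟨!![i, i, v; w, v, v; i, v, i], by decide⟩
def k : S := ⟨!![i, i, w; v, w, w; i, w, i], by decide⟩
def x0 : S := ⟨!![o, o, i; o, i, o; i, i, w], by decide⟩
def g0 : S := ⟨!![i, o, o; o, o, i; w, i, i], by decide⟩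
def x1 : S := ⟨!![o, o, i; i, v, v; v, v, i], by decide⟩
def g1 : S := ⟨!![o, i, o; o, o, v; w, w, v], by decide⟩
def x2 : S := ⟨!![o, o, i; o, i, o; i, v, v], by decide⟩
def g2 : S := ⟨!![i, o, o; o, o, i; w, i, i], by decide⟩
def x3 : S := ⟨!![o, o, v; i, w, i; v, v, i], by decide⟩
def g3 : S := ⟨!![o, i, o; o, o, v; w, i, i], by decide⟩
def x4 : S := ⟨!![o, o, w; v, w, w; i, w, i], by decide⟩
def g4 : S := ⟨!![o, i, o; o, o, v; w, w, v], by decide⟩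

theorem rel1 : e ^ 3 = 1 ∧ f ^ 3 = 1 ∧ e * f ≠ f * e ∧ e * f = f * e * z ∧ x ^ 7 = 1 ∧ x * e ≠ e * x ∧
    e * x = x ^ 2 * e ∧ g * e = f * g ∧ h * e = e * f * h ∧ k * e = e * f ^ 2 * k := by decide +kernel

theorem rel2 : (x0 ^ 5 = 1 ∧ x0 * e ≠ e * x0) ∧ (x1 ^ 5 = 1 ∧ x1 * e ≠ e * x1) ∧ (x2 ^ 5 = 1 ∧ x2 * e ≠ e * x2) ∧
    (x3 ^ 5 = 1 ∧ x3 * e ≠ e * x3) ∧ x4 ^ 5 = 1 ∧ x4 * e ≠ e * x4 := by decide +kernel

theorem rel3 : x0 ^ 0 * g0 = x2 ^ 0 * g2 * z ^ 0 * e ^ 0 * f ^ 0 ∧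
    x0 ^ 1 * g0 = x4 ^ 1 * g4 * z ^ 2 * e ^ 2 * f ^ 1 ∧
    x0 ^ 2 * g0 = x3 ^ 1 * g3 * z ^ 2 * e ^ 2 * f ^ 0 ∧
    x0 ^ 3 * g0 = x2 ^ 1 * g2 * z ^ 2 * e ^ 0 * f ^ 2 ∧
    x0 ^ 4 * g0 = 1 * z ^ 0 * e ^ 1 * f ^ 0 ∧
    x1 ^ 0 * g1 = x4 ^ 0 * g4 * z ^ 0 * e ^ 0 * f ^ 0 ∧
    x1 ^ 1 * g1 = x2 ^ 3 * g2 * z ^ 0 * e ^ 1 * f ^ 0 ∧
    x1 ^ 2 * g1 = x3 ^ 2 * g3 * z ^ 1 * e ^ 0 * f ^ 2 ∧
    x1 ^ 3 * g1 = x3 ^ 3 * g3 * z ^ 1 * e ^ 0 * f ^ 1 ∧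
    x1 ^ 4 * g1 = x4 ^ 4 * g4 * z ^ 0 * e ^ 0 * f ^ 1 ∧
    x2 ^ 2 * g2 = x3 ^ 0 * g3 * z ^ 0 * e ^ 0 * f ^ 2 ∧
    x2 ^ 4 * g2 = x4 ^ 2 * g4 * z ^ 1 * e ^ 1 * f ^ 0 ∧
    x3 ^ 4 * g3 = x4 ^ 3 * g4 * z ^ 1 * e ^ 1 * f ^ 1 := by decide +kernel

theorem z_mem : z ∈ center S := Matrix.SpecialLinearGroup.mem_center_iff.2 ⟨w, by decide, by decide +kernel⟩

theorem of_hom {X : Type u} [Group X] (π : S →* X) (hπ : π.ker = center S) : C34 X := by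
  obtain ⟨e3, f3, ef, efz, x7, xe, ex, ge, he, ke⟩ := rel1
  have n1 : ∀ {a b : S}, a * b ≠ b * a → π a ≠ 1 := fun {a b} h m =>
    h (mem_center_iff.1 (hπ.le (MonoidHom.mem_ker.2 m)) b).symm
  have od : ∀ {a b : S} (p : ℕ), p.Prime → a ^ p = 1 → a * b ≠ b * a → orderOf (π a) = p := fun p hp h1 h2 =>
    have := Fact.mk hp
    orderOf_eq_prime (by rw [← map_pow, h1, map_one]) (n1 h2)
  have hz : π z = 1 := MonoidHom.mem_ker.1 (hπ.ge z_mem)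
  have fi : (π f)⁻¹ = π f ^ 2 := inv_eq_of_mul_eq_one_right (by rw [← pow_succ', ← map_pow, f3, map_one])
  refine ⟨π e, π f, π x, π g, π h, π k, ⟨od 3 Nat.prime_three e3 ef, od 3 Nat.prime_three f3 ef.symm,
    by rw [commute_iff_eq, ← map_mul, efz, map_mul, hz, mul_one, map_mul], ?_⟩, od 7 (by norm_num) x7 xe,
    .inl (by rw [← map_mul, ex, map_mul, mul_inv_cancel_right, map_pow]),
    by rw [← map_mul, ge, map_mul, mul_inv_cancel_right],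
    by rw [← map_mul, he, map_mul, mul_inv_cancel_right, map_mul],
    by rw [← map_mul, ke, map_mul, mul_inv_cancel_right, map_mul, map_pow, fi], fun A _ φ hv h1 h2 hN => ?_⟩
  · rintro ⟨n, hn⟩
    have h1 : (e ^ n)⁻¹ * f ∈ center S := hπ.le (MonoidHom.mem_ker.2 (by
      rw [map_mul, map_inv, map_zpow, ← hn, inv_mul_cancel]))
    have h2 : Commute e ((e ^ n)⁻¹ * f) := mem_center_iff.1 h1 e
    exact ef (by simpa [commute_iff_eq] using ((Commute.refl e).zpow_right n).mul_right h2)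
  have p1 : ∀ {t : X}, (∀ m, φ (m * t) = φ m) → ∀ (n : ℕ) m, φ (m * t ^ n) = φ m := fun {t} ht n => by
    induction n with
    | zero => simp
    | succ n ih => exact fun m => by rw [pow_succ, ← mul_assoc, ht, ih]
  have q : ∀ {y y' : S} {a b c : ℕ}, y = y' * z ^ a * e ^ b * f ^ c → φ (π y) = φ (π y') := by
    rintro _ y a b c rfl
    rw [map_mul, map_mul, map_mul, map_pow, map_pow, map_pow, p1 h2, p1 h1, hz, one_pow, mul_one]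
  have N : ∀ {a : S} (b : S), a ^ 5 = 1 ∧ a * e ≠ e * a → φ (π (a ^ 0 * b)) * φ (π (a ^ 1 * b)) * φ (π (a ^ 2 * b)) *
      φ (π (a ^ 3 * b)) * φ (π (a ^ 4 * b)) = 1 := fun b h => by
    simpa only [Finset.prod_range_succ, Finset.prod_range_zero, one_mul, ← map_pow, ← map_mul] using
      hN (π b) _ (od 5 Nat.prime_five h.1 h.2)
  obtain ⟨r0, r1, r2, r3, r4⟩ := rel2
  obtain ⟨q0, q1, q2, q3, qc, q4, q5, q6, q7, q8, q9, q10, q11⟩ := rel3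
  have H0 := N g0 r0
  have H1 := N g1 r1
  have H2 := N g2 r2
  have H3 := N g3 r3
  have H4 := N g4 r4
  rw [q q0, q q1, q q2, q q3, q qc, map_one] at H0
  rw [q q4, q q5, q q6, q q7, q q8] at H1
  rw [q q9, q q10] at H2
  rw [q q11] at H3
  generalize φ 1 = c, φ (π (x2 ^ 0 * g2)) = b0, φ (π (x4 ^ 1 * g4)) = b1, φ (π (x3 ^ 1 * g3)) = b2,
    φ (π (x2 ^ 1 * g2)) = b3, φ (π (x4 ^ 0 * g4)) = b4, φ (π (x2 ^ 3 * g2)) = b5, φ (π (x3 ^ 2 * g3)) = b6,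
    φ (π (x3 ^ 3 * g3)) = b7, φ (π (x4 ^ 4 * g4)) = b8, φ (π (x3 ^ 0 * g3)) = b9, φ (π (x4 ^ 2 * g4)) = b10,
    φ (π (x4 ^ 3 * g4)) = b11 at H0 H1 H2 H3 H4 ⊢
  have H : b0 * b1 * b2 * b3 * c * (b4 * b5 * b6 * b7 * b8) * (b0 * b3 * b9 * b5 * b10) * (b9 * b2 * b6 * b7 * b11) *
      (b4 * b1 * b10 * b11 * b8) = c * (b0 * b0) * (b1 * b1) * (b2 * b2) * (b3 * b3) * (b4 * b4) * (b5 * b5) *
      (b6 * b6) * (b7 * b7) * (b8 * b8) * (b9 * b9) * (b10 * b10) * (b11 * b11) := by ac_rfl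
  simpa only [H0, H1, H2, H3, H4, hv, mul_one] using H.symm

end M34B

open M34B in
theorem m34b (S : Type u) [Group S] (h : IsL3 S 4) : C34 S := by
  obtain ⟨F, _, _, hF, ⟨e⟩⟩ := h
  obtain ⟨e'⟩ := CL.SLn.nonempty_psl_equiv_of_card_eq (ι := Fin 3) (hF.trans CL.SG2.F4.card.symm)
  refine of_hom ((e.trans e').symm.toMonoidHom.comp (QuotientGroup.mk' (center _))) ?_
  rw [← MonoidHom.comap_ker, (MonoidHom.ker_eq_bot_iff _).2 (e.trans e').symm.injective, MonoidHom.comap_bot,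
    QuotientGroup.ker_mk']

end CL.O8
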