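/-
Project O8, job M6 (helper28): the facts `DX 5` about the alternating group of degree 6.
-/
import Cfsg.Agent.O8.A

set_option autoImplicit false
set_option linter.unusedVariables false

open Cfsg Subgroup CL.Grp CL.Even CL.Loc CL.NGrp
open scoped commutatorElement

namespace CL.O8

universe u

namespace M6

open Equiv Equiv.Perm

/-- the letters -/
def lt {X : Type*} (a b c d g : X) : ℕ → X
  | 0 => a
  | 1 => b
  | 2 => c
  | 3 => d
  | _ => g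

/-- the value of a word -/
def ev {X : Type*} [Group X] (a b c d g : X) (w : List ℕ) : X := w.foldr (fun k r => lt a b c d g k * r) 1

theorem ev_mem {X : Type*} [Group X] {Y : Subgroup X} {a b c d g : X} (ha : a ∈ Y) (hb : b ∈ Y) (hc : c ∈ Y)
    (hd : d ∈ Y) (hg : g ∈ Y) (w : List ℕ) : ev a b c d g w ∈ Y := by
  induction w with
  | nil => exact one_mem _
  | cons k w ih =>
    refine mul_mem ?_ ih
    unfold lt
    split <;> assumption

/-- the group -/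
abbrev A6 := alternatingGroup (Fin 6)

/-- the generators -/
def z : A6 := ⟨swap 0 1 * swap 2 3, mem_alternatingGroup.2 (by decide)⟩
/-- see `z` -/
def a : A6 := ⟨swap 0 2 * swap 1 3, mem_alternatingGroup.2 (by decide)⟩
/-- see `z` -/
def b : A6 := ⟨swap 0 1 * swap 4 5, mem_alternatingGroup.2 (by decide)⟩
/-- see `z` -/
def c : A6 := ⟨swap 1 2 * swap 0 1, mem_alternatingGroup.2 (by decide)⟩
/-- see `z` -/
def d : A6 := ⟨swap 2 4 * swap 0 2 * (swap 3 5 * swap 1 3), mem_alternatingGroup.2 (by decide)⟩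

/-- words in the four generators -/
def E (w : List ℕ) : A6 := ev a b c d a w

/-- words in `a` and `b` -/
def W (w : List ℕ) : A6 := ev a b a a a w

/-- the cosets of the Sylow subgroup with their certificates -/
def tb : List (List ℕ × List ℕ × List ℕ × List ℕ) :=
  [([], [], [], []), ([2], [4], [], [4]), ([1, 2], [1, 4], [], [1, 4]), ([3], [4], [4], []),
  ([0, 3], [0, 4], [0, 4], []), ([2, 3], [4, 4, 0, 4, 4, 1, 4], [2, 2, 4], [4, 3, 3]),
  ([3, 2], [4, 4, 1, 4, 4, 0, 4], [4, 2, 2], [3, 3, 4]),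
  ([0, 3, 2], [4, 4, 4, 4, 1, 4, 1], [0, 4, 2, 2], [0, 3, 4]),
  ([1, 2, 3], [4, 4, 0, 4, 0, 1, 4], [1, 2, 4], [1, 4, 3, 3]),
  ([2, 0, 3], [1, 4, 1, 4, 4, 4, 4], [0, 2, 2, 4], [4, 0, 3]),
  ([2, 3, 2], [0, 4, 4, 1, 4, 4], [2, 2, 4, 2, 2], [4, 3, 4, 3, 4]),
  ([3, 1, 2], [0, 4, 0, 4, 4, 4, 4], [4, 1, 2], [1, 3, 3, 4]),
  ([3, 2, 3], [1, 4, 4, 0, 4, 4], [4, 2, 4, 2, 4], [3, 3, 4, 3, 3]),
  ([0, 1, 2, 3], [4, 1, 4, 4, 4, 4, 1], [0, 1, 2, 4], [1, 4, 0, 3]),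
  ([0, 2, 3, 2], [0, 1, 4, 0, 1, 4, 1], [2, 1, 4, 1, 2], [0, 1, 4, 0, 1, 4, 1]),
  ([0, 3, 1, 2], [4, 4, 4, 4, 1, 4, 1], [0, 4, 1, 2], [0, 3, 1, 4]),
  ([0, 3, 2, 3], [4, 0, 1, 0, 4, 4, 0], [4, 0, 1, 0, 4, 4, 0], [0, 3, 4, 3, 3]),
  ([1, 2, 3, 2], [4, 1, 0, 1, 4, 4, 1], [1, 2, 4, 2, 2], [4, 1, 0, 1, 4, 4, 1]),
  ([1, 3, 2, 3], [0, 4, 0, 4, 4, 4, 0], [0, 4, 1, 4, 0, 2, 4], [3, 0, 4, 0, 3]),
  ([2, 0, 3, 2], [1, 0, 4, 1, 0, 4, 1], [0, 2, 1, 4, 1, 2], [0, 4, 4, 3, 0, 4, 1]),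
  ([2, 3, 2, 3], [4, 0, 4, 1, 4, 4, 4], [0, 4, 4, 2, 0], [1, 3, 4, 4, 1]),
  ([3, 1, 2, 3], [0, 1, 4, 0, 1, 4, 0], [0, 1, 4, 0, 1, 4, 0], [1, 3, 0, 4, 0, 3]),
  ([3, 2, 3, 2], [4, 0, 1, 4, 1, 4, 1], [0, 2, 4, 4, 0], [1, 4, 4, 3, 1]),
  ([0, 1, 2, 3, 2], [4, 1, 0, 1, 4, 1, 0], [0, 2, 4, 1, 2], [4, 1, 0, 1, 4, 1, 0]),
  ([0, 1, 3, 2, 3], [1, 4, 1, 4, 0], [1, 4, 1, 4, 0], [3, 4, 0, 3]),
  ([0, 2, 0, 3, 2], [1, 4, 1, 4, 1], [2, 0, 1, 4, 1, 2], [1, 4, 1, 4, 1]),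
  ([0, 2, 3, 2, 3], [1, 4, 4, 1, 4], [1, 4, 4, 1, 4], [0, 1, 4, 3, 0, 4, 1]),
  ([0, 3, 1, 2, 3], [4, 0, 1, 0, 4, 0, 1], [4, 0, 1, 0, 4, 0, 1], [1, 3, 4, 0, 3]),
  ([0, 3, 2, 3, 2], [4, 0, 4, 0, 4, 4, 0, 4, 1], [2, 4, 0, 4, 1, 0], [0, 3, 4, 0, 4, 0, 4]),
  ([1, 0, 2, 3, 2], [0, 4, 0, 4, 1], [2, 4, 1, 2], [0, 4, 0, 4, 1]),
  ([1, 2, 3, 2, 3], [4, 1, 4, 1, 4, 4, 1, 4, 0], [0, 1, 4, 1, 4, 2, 0], [3, 4, 1, 4, 0, 1]),
  ([1, 3, 1, 2, 3], [0, 4, 0, 4, 0], [0, 4, 0, 4, 0], [3, 1, 0, 4, 0, 3]),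
  ([1, 3, 2, 3, 2], [0, 4, 4, 0, 4], [0, 2, 1, 4, 1, 4, 0], [0, 4, 4, 0, 4]),
  ([2, 1, 3, 2, 3], [1, 4, 1, 4, 4], [1, 4, 1, 4, 4], [0, 4, 4, 4, 0, 4]),
  ([2, 2, 0, 3, 2], [4, 1, 0, 1, 4, 1, 0], [0, 2, 4, 2, 2], [4, 0, 1, 3, 4, 3, 0]),
  ([2, 2, 3, 2, 3], [4, 4, 1, 4], [4, 4, 1, 4], [4, 0, 4, 3]),
  ([2, 3, 1, 2, 3], [4, 0, 4, 0, 4, 4], [2, 4, 1, 0, 4, 4], [0, 3, 4, 1, 4, 0]),
  ([2, 3, 2, 3, 2], [1, 4, 1, 0, 4, 1, 4], [1, 4, 4, 4, 2], [4, 3, 4]),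
  ([3, 0, 2, 3, 2], [0, 4, 0, 4, 4], [0, 4, 1, 0, 4, 2], [0, 4, 0, 4, 4]),
  ([3, 2, 3, 2, 3], [1, 4, 1, 4, 0, 1, 4], [4, 2, 4], [0, 4, 4, 4, 3]),
  ([3, 3, 1, 2, 3], [4, 0, 4, 1, 0, 1, 4], [4, 0, 1, 0, 4, 0, 1], [1, 3, 4, 3, 3]),
  ([3, 3, 2, 3, 2], [4, 4, 0, 4], [4, 1, 4, 2], [4, 4, 0, 4]),
  ([0, 1, 2, 3, 2, 3], [0, 4, 1, 0, 1, 4, 0, 1, 0, 1, 4, 0], [4, 1, 0, 4, 2, 0, 1], [4, 0, 1, 4, 3, 1, 0]),
  ([0, 1, 3, 2, 3, 2], [4, 0, 4, 4], [4, 1, 4, 4], [4, 0, 4, 4]),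
  ([0, 3, 2, 3, 2, 3], [4, 0, 1, 0, 4, 4], [0, 4, 2, 0, 4], [4, 0, 4, 0, 4, 3])]

/-- the Sylow subgroup -/
def lT : List (List ℕ) := [[], [0], [1], [0, 1], [1, 0], [0, 1, 0], [1, 0, 1], [0, 1, 0, 1]]

theorem k0 : ∀ w : Perm (Fin 6), w * w = 1 → w ≠ 1 → sign w = 1 → ∃ p ∈ tb, w * E p.1 = E p.1 * z := by
  decide +kernel

theorem k1 : ∀ g : Perm (Fin 6), g * z = z * g → sign g = 1 → (∃ w ∈ lT, W w = g) ∧ g ^ 2 ^ 2 = 1 := by
  decide +kernel

theorem h0 (g : A6) : ∃ p ∈ tb, (E p.1)⁻¹ * g * z = z * ((E p.1)⁻¹ * g) := by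
  have zz : z * z = 1 := by decide +kernel
  have z1 : z ≠ 1 := by decide +kernel
  obtain ⟨p, hp, e⟩ := k0 (g * z * g⁻¹ : A6) (congrArg Subtype.val (show g * z * g⁻¹ * (g * z * g⁻¹) = 1 by
    rw [conj_mul, zz, mul_one, mul_inv_cancel])) (fun e => z1 (conj_eq_one_iff.1 (Subtype.ext e))) (g * z * g⁻¹).2
  have e' : g * z * g⁻¹ * E p.1 = E p.1 * z := Subtype.ext e
  refine ⟨p, hp, ?_⟩
  calc (E p.1)⁻¹ * g * z = (E p.1)⁻¹ * (g * z * g⁻¹ * E p.1) * ((E p.1)⁻¹ * g) := by group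
    _ = _ := by rw [e', inv_mul_cancel_left]

theorem h1 (g : A6) (h : g * z = z * g) : (∃ w ∈ lT, W w = g) ∧ g ^ 2 ^ 2 = 1 := by
  obtain ⟨⟨w, hw, e⟩, e'⟩ := k1 g (congrArg Subtype.val h) g.2
  exact ⟨⟨w, hw, Subtype.ext e⟩, Subtype.ext e'⟩

theorem h2 : ∀ p ∈ tb, (W p.1 = E p.1 ∨ ev a b a a (E p.1) p.2.1 = c ∨ ev a b a a (E p.1) p.2.1 = d) ∧
    (ev a b c a a p.1 = E p.1 ∨ ev a b c a (E p.1) p.2.2.1 = d) ∧
    (ev a b a d a p.1 = E p.1 ∨ ev a b a d (E p.1) p.2.2.2 = c) := by decide +kernel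

theorem dec (g : A6) : ∃ p ∈ tb, ∃ w, g = E p.1 * W w := by
  obtain ⟨p, hp, e⟩ := h0 g
  obtain ⟨w, -, hw⟩ := (h1 _ e).1
  exact ⟨p, hp, w, by rw [hw, mul_inv_cancel_left]⟩

theorem dec' {Y Z : Subgroup A6} (ha : a ∈ Y) (hb : b ∈ Y) (ha' : a ∈ Z) (hb' : b ∈ Z)
    (h : ∀ p ∈ tb, E p.1 ∈ Y → E p.1 ∈ Z) : Y ≤ Z := fun g hg => by
  obtain ⟨p, hp, w, rfl⟩ := dec g
  exact mul_mem (h p hp ((mul_mem_cancel_right (ev_mem ha hb ha ha ha w)).1 hg)) (ev_mem ha' hb' ha' ha' ha' w)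

theorem top_of {Y : Subgroup A6} (ha : a ∈ Y) (hb : b ∈ Y) (hc : c ∈ Y) (hd : d ∈ Y) : Y = ⊤ :=
  eq_top_iff.2 (dec' trivial trivial ha hb fun p _ _ => ev_mem ha hb hc hd ha _)

theorem ovr (Y : Subgroup A6) (h : closure {a, b} ≤ Y) :
    Y = closure {a, b} ∧ c ∉ Y ∧ d ∉ Y ∨ Y = closure {a, b, c} ∧ c ∈ Y ∨ Y = closure {a, b, d} ∧ d ∈ Y ∨
      Y = ⊤ ∧ c ∈ Y := by
  have ha : a ∈ Y := h (subset_closure (by simp))
  have hb : b ∈ Y := h (subset_closure (by simp))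
  by_cases hc : c ∈ Y <;> by_cases hd : d ∈ Y
  · exact .inr (.inr (.inr ⟨top_of ha hb hc hd, hc⟩))
  · refine .inr (.inl ⟨le_antisymm ?_ ((closure_le _).2 (by rintro _ (rfl | rfl | rfl) <;> assumption)), hc⟩)
    have ka : a ∈ closure {a, b, c} := subset_closure (by simp)
    have kb : b ∈ closure {a, b, c} := subset_closure (by simp)
    refine dec' ha hb ka kb fun p hp hY => ?_
    rcases (h2 p hp).2.1 with e | e
    · exact e ▸ ev_mem ka kb (subset_closure (by simp)) ka ka _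
    · exact absurd (e ▸ ev_mem ha hb hc ha hY _) hd
  · refine .inr (.inr (.inl ⟨le_antisymm ?_ ((closure_le _).2 (by rintro _ (rfl | rfl | rfl) <;> assumption)), hd⟩))
    have ka : a ∈ closure {a, b, d} := subset_closure (by simp)
    have kb : b ∈ closure {a, b, d} := subset_closure (by simp)
    refine dec' ha hb ka kb fun p hp hY => ?_
    rcases (h2 p hp).2.2 with e | e
    · exact e ▸ ev_mem ka kb ka (subset_closure (by simp)) ka _
    · exact absurd (e ▸ ev_mem ha hb ha hd hY _) hc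
  · refine .inl ⟨le_antisymm ?_ h, hc, hd⟩
    have ka : a ∈ closure {a, b} := subset_closure (by simp)
    have kb : b ∈ closure {a, b} := subset_closure (by simp)
    refine dec' ha hb ka kb fun p hp hY => ?_
    rcases (h2 p hp).1 with e | e | e
    · exact e ▸ ev_mem ka kb ka ka ka _
    · exact absurd (e ▸ ev_mem ha hb ha ha hY _) hc
    · exact absurd (e ▸ ev_mem ha hb ha ha hY _) hd

theorem ord {p : ℕ} (hp : p.Prime) {x : A6} (h : x ^ p = 1 ∧ x ≠ 1) : orderOf x = p :=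
  have := Fact.mk hp
  orderOf_eq_prime h.1 h.2

theorem c3 : orderOf c = 3 := ord Nat.prime_three (by decide +kernel)

theorem d3 : orderOf d = 3 := ord Nat.prime_three (by decide +kernel)

theorem syl : IsSylowIn 2 (closure {a, b}) (⊤ : Subgroup A6) := by
  have k : ∀ {U : Subgroup A6} {x : A6}, IsPGroup 2 U → orderOf x = 3 → x ∉ U := fun hU hx hm => by
    rw [eq_one_of_coprime_of_mem hU (by rw [hx]; decide) hm, orderOf_one] at hx
    exact absurd hx (by decide)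
  refine isSylowIn_of_maximal le_top (isPGroup_iff_forall.2 fun x hx => ⟨2, (h1 x ?_).2⟩) fun U hU h _ => ?_
  · have : closure {a, b} ≤ centralizer {z} := (closure_le _).2 (by
      rintro _ (rfl | rfl) <;> exact mem_centralizer_singleton_iff.2 (by decide +kernel))
    exact mem_centralizer_singleton_iff.1 (this hx)
  · rcases ovr U h with e | e | e | e
    exacts [e.1, absurd e.2 (k hU c3), absurd e.2 (k hU d3), absurd e.2 (k hU c3)]

/-- the relations -/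
def rl : List (List ℕ × List ℕ) :=
  [([2, 0, 3], [0, 3, 2, 3]), ([3, 3, 1, 2], []), ([3, 3, 2, 3, 2], [2, 1]), ([1, 3, 2, 3, 2], [0, 3, 2, 3]),
  ([3, 2, 3, 1], [0, 3, 2, 3, 2, 1]), ([3, 3, 2, 3, 2], [3, 0]), ([1, 2, 3, 1], [3, 2, 3, 2])]

/-- the pairing -/
def pr : List (List ℕ × List ℕ) :=
  [([0, 3, 2, 3], []), ([1, 2, 3], [0, 1, 0, 1]), ([3, 2, 3, 2, 1, 3], [1, 0]), ([3, 1, 0, 2], [1, 0]),
  ([2, 3, 2, 2], []), ([], []), ([3, 3, 2, 2], [1]), ([3, 0, 2, 3, 2, 1], [0]), ([2], [1]),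
  ([0, 3, 2, 3, 2, 1], [0, 1]), ([0, 3, 1, 2, 3, 3, 2], [1, 0]), ([2, 1, 3, 2, 3, 3], [1, 0]),
  ([0, 1, 2, 3, 2, 0, 3], [0, 1, 0, 1]), ([3, 3], [0, 1, 0]), ([2, 2, 3, 3, 2], [1, 0]), ([2, 2], [1, 0, 1]),
  ([3, 2, 3, 2], [0, 1]), ([3], [0]), ([1, 3, 2, 1, 3], [0, 1, 0, 1]), ([0, 1, 2, 3, 2, 3, 1], [])]

theorem h3 : ∀ p ∈ rl, E p.1 ^ 5 = 1 ∧ E p.1 ≠ 1 := by decide +kernel

theorem h4 : List.Perm (rl.flatMap (fun p => (List.range 5).map fun i => E p.1 ^ i * E p.2) ++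
    [1, 1 * c, 1 * c * c, 1, 1 * d, 1 * d * d]) (1 :: pr.flatMap fun p => [E p.1, E p.1 * W p.2]) := by
  decide +kernel

theorem prod_flat {α β A : Type*} [CommGroup A] (φ : β → A) (f : α → List β) (l : List α)
    (h : ∀ p ∈ l, ((f p).map φ).prod = 1) : ((l.flatMap f).map φ).prod = 1 := by
  induction l with
  | nil => rfl
  | cons p l ih =>
    rw [List.flatMap_cons, List.map_append, List.prod_append, h p (by simp), ih fun q hq => h q (by simp [hq]),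
      one_mul]

theorem hwU {A : Type*} [CommGroup A] (φ : A6 → A) (hv : ∀ v : A, v * v = 1) (ha : ∀ g, φ (g * a) = φ g)
    (hb : ∀ g, φ (g * b) = φ g) (hc : ∀ g, φ g * φ (g * c) * φ (g * c * c) = 1)
    (hd : ∀ g, φ g * φ (g * d) * φ (g * d * d) = 1) (hn : Nrm 5 φ) : φ 1 = 1 := by
  have hW : ∀ (w : List ℕ) (g : A6), φ (g * W w) = φ g := fun w => by
    induction w with
    | nil => exact fun g => congrArg φ (mul_one g)
    | cons k w ih =>
      intro g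
      change φ (g * (lt a b a a a k * W w)) = _
      rw [← mul_assoc, ih]
      unfold lt
      split <;> first | exact ha g | exact hb g
  have e := (h4.map φ).prod_eq
  rw [List.map_append, List.prod_append, List.map_cons (a := 1) (l := pr.flatMap _), List.prod_cons, prod_flat,
    prod_flat] at e
  · rw [← mul_one (φ 1), ← e, one_mul]
    simp only [List.map_cons, List.map_nil, List.prod_cons, List.prod_nil, mul_one]
    rw [← mul_assoc, ← mul_assoc, hc, one_mul, ← mul_assoc, hd]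
  · intro p _
    simp only [List.map_cons, List.map_nil, List.prod_cons, List.prod_nil, mul_one, hW, hv]
  · intro p hp
    rw [← hn (E p.2) (E p.1) (ord Nat.prime_five (h3 p hp)), List.map_map]
    rfl

theorem nine {X : Type*} [Group X] {e f : X} (he : orderOf e = 3) (hf : orderOf f = 3) (hc : e * f = f * e)
    (h : f ≠ 1 ∧ f ≠ e ∧ f ≠ e * e) : Nine e f := by
  refine ⟨he, hf, hc, fun ⟨k, hk⟩ => ?_⟩
  change e ^ k = f at hk
  rw [← zpow_mod_orderOf, he] at hk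
  have h1 : k % (3 : ℕ) = 0 ∨ k % (3 : ℕ) = 1 ∨ k % (3 : ℕ) = 2 := by omega
  rcases h1 with e1 | e1 | e1 <;> rw [e1] at hk
  · exact h.1 (by rw [← hk, zpow_zero])
  · exact h.2.1 (by rw [← hk, zpow_one])
  · exact h.2.2 (by rw [← hk, zpow_two])

theorem dx : DX 5 z a b c d where
  hp := .inl rfl
  z1 := by decide +kernel
  zz := by decide +kernel
  aa := by decide +kernel
  bb := by decide +kernel
  ab := by decide +kernel
  ba := by decide +kernel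
  za := by decide +kernel
  zb := by decide +kernel
  cz := by decide +kernel
  ca := by decide +kernel
  dz := by decide +kernel
  db := by decide +kernel
  c3 := c3
  d3 := d3
  bc := by decide +kernel
  ad := by decide +kernel
  syl := syl
  ovr Y h := (ovr Y h).imp And.left (Or.imp And.left (Or.imp And.left And.left))
  top := top_of (subset_closure (by simp)) (subset_closure (by simp)) (subset_closure (by simp))
    (subset_closure (by simp))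
  g5 _ := ⟨E [0, 3, 2, 3, 2, 1], ord Nat.prime_five (by decide +kernel)⟩
  g7 h := absurd h (by decide)
  e5 _ := ⟨⟨E [0, 3, 2, 3], nine c3 (ord Nat.prime_three (by decide +kernel)) (by decide +kernel) (by decide +kernel)⟩,
    E [1, 2, 3, 2, 3], nine d3 (ord Nat.prime_three (by decide +kernel)) (by decide +kernel) (by decide +kernel)⟩
  f7 h := absurd h (by decide)
  hw A _ φ := hwU φ
  pw h := absurd h (by decide)

theorem cl2 {X Y : Type*} [Group X] [Group Y] (e : X ≃* Y) (x y : X) :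
    closure {e x, e y} = (closure {x, y}).map e.toMonoidHom := by
  simp [MonoidHom.map_closure, Set.image_insert_eq]

theorem cl3 {X Y : Type*} [Group X] [Group Y] (e : X ≃* Y) (x y w : X) :
    closure {e x, e y, e w} = (closure {x, y, w}).map e.toMonoidHom := by
  simp [MonoidHom.map_closure, Set.image_insert_eq]

theorem cl4 {X Y : Type*} [Group X] [Group Y] (e : X ≃* Y) (x y w v : X) :
    closure {e x, e y, e w, e v} = (closure {x, y, w, v}).map e.toMonoidHom := by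
  simp [MonoidHom.map_closure, Set.image_insert_eq]

theorem nine_map {X Y : Type*} [Group X] [Group Y] (e : X ≃* Y) {x y : X} (h : Nine x y) : Nine (e x) (e y) :=
  ⟨(e.orderOf_eq x).trans h.oe, (e.orderOf_eq y).trans h.of, h.comm.map e, fun ⟨k, hk⟩ =>
    h.nm ⟨k, e.injective (by rw [← hk]; exact map_zpow e x k)⟩⟩

theorem dx' {S : Type u} [Group S] (e : A6 ≃* S) : DX 5 (e z) (e a) (e b) (e c) (e d) where
  hp := .inl rfl
  z1 := e.map_ne_one_iff.2 dx.z1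
  zz := by simpa only [map_mul, map_inv, map_one] using congrArg e dx.zz
  aa := by simpa only [map_mul, map_inv, map_one] using congrArg e dx.aa
  bb := by simpa only [map_mul, map_inv, map_one] using congrArg e dx.bb
  ab := by simpa only [map_mul, map_inv, map_one] using congrArg e dx.ab
  ba := by simpa only [map_mul, map_inv, map_one] using congrArg e dx.ba
  za := by simpa only [map_mul, map_inv, map_one] using congrArg e dx.za
  zb := by simpa only [map_mul, map_inv, map_one] using congrArg e dx.zb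
  cz := by simpa only [map_mul, map_inv, map_one] using congrArg e dx.cz
  ca := by simpa only [map_mul, map_inv, map_one] using congrArg e dx.ca
  dz := by simpa only [map_mul, map_inv, map_one] using congrArg e dx.dz
  db := by simpa only [map_mul, map_inv, map_one] using congrArg e dx.db
  c3 := (e.orderOf_eq c).trans c3
  d3 := (e.orderOf_eq d).trans d3
  bc := by simpa only [map_mul, map_inv, map_one] using congrArg e dx.bc
  ad := by simpa only [map_mul, map_inv, map_one] using congrArg e dx.ad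
  syl := by
    rw [cl2, ← map_top_of_surjective e.toMonoidHom e.surjective]
    exact syl_map _ syl
  ovr Y h := by
    have k := map_comap_eq_self_of_surjective (f := e.toMonoidHom) e.surjective Y
    rw [cl2, map_le_iff_le_comap] at h
    rw [cl2, cl3, cl3, ← map_top_of_surjective e.toMonoidHom e.surjective]
    rcases dx.ovr _ h with i | i | i | i <;> rw [i] at k
    exacts [.inl k.symm, .inr (.inl k.symm), .inr (.inr (.inl k.symm)), .inr (.inr (.inr k.symm))]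
  top := by rw [cl4, dx.top, map_top_of_surjective e.toMonoidHom e.surjective]
  g5 h := by
    obtain ⟨g, hg⟩ := dx.g5 h
    exact ⟨e g, by simpa only [map_mul, map_inv] using (e.orderOf_eq _).trans hg⟩
  g7 h := absurd h (by decide)
  e5 h := by
    obtain ⟨⟨x, hx⟩, y, hy⟩ := dx.e5 h
    exact ⟨⟨_, nine_map e hx⟩, _, nine_map e hy⟩
  f7 h := absurd h (by decide)
  hw A _ φ hv ha hb hc hd hn := by
    rw [← map_one e]
    refine hwU (fun x => φ (e x)) hv (fun g => ?_) (fun g => ?_) (fun g => ?_) (fun g => ?_) fun g x hx => ?_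
    · simp only [map_mul, ha]
    · simp only [map_mul, hb]
    · simp only [map_mul, hc]
    · simp only [map_mul, hd]
    · simp only [map_mul, map_pow]
      exact hn _ _ ((e.orderOf_eq x).trans hx)
  pw h := absurd h (by decide)

end M6

theorem m6Thm : M6Thm.{u} := fun S _ ⟨e⟩ => ⟨_, _, _, _, _, M6.dx' e.symm⟩

end CL.O8
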