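/-
Project O8: the configurations in `A₆ . 2`.
-/
import Cfsg.Agent.O8.A
import Cfsg.Agent.Inv.Ord6A

set_option autoImplicit false
set_option linter.unusedVariables false
set_option linter.unusedSectionVars false

open Cfsg Subgroup CL.Grp CL.Even CL.Loc CL.NGrp
open scoped commutatorElement

namespace CL.O8

universe u

namespace M62

open Equiv Equiv.Perm CL.OrdSix

/-- the alternating group of degree six -/
abbrev A6 := alternatingGroup (Fin 6)

/-- elements of `A₆` -/
def c6 : A6 := ⟨swap 0 2 * swap 1 2, mem_alternatingGroup.2 (by decide)⟩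
/-- see `c6` -/
def d6 : A6 := ⟨swap 0 4 * swap 1 5 * swap 2 4 * swap 3 5, mem_alternatingGroup.2 (by decide)⟩
/-- see `c6` -/
def f6 : A6 := ⟨swap 3 4 * swap 4 5, mem_alternatingGroup.2 (by decide)⟩
/-- see `c6` -/
def x0 : A6 := ⟨swap 0 1 * swap 1 2 * swap 2 4 * swap 3 4, mem_alternatingGroup.2 (by decide)⟩
/-- see `c6` -/
def x1 : A6 := ⟨swap 0 1 * swap 1 4 * swap 3 5 * swap 4 5, mem_alternatingGroup.2 (by decide)⟩
/-- see `c6` -/
def x2 : A6 := ⟨swap 0 1 * swap 1 3 * swap 2 4 * swap 3 4, mem_alternatingGroup.2 (by decide)⟩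
/-- see `c6` -/
def g1 : A6 := ⟨swap 0 3 * swap 1 5 * swap 2 4 * swap 4 5, mem_alternatingGroup.2 (by decide)⟩
/-- see `c6` -/
def g2 : A6 := ⟨swap 1 3 * swap 2 3 * swap 3 5 * swap 4 5, mem_alternatingGroup.2 (by decide)⟩
/-- see `c6` -/
def g3 : A6 := ⟨swap 0 3 * swap 1 3 * swap 2 4 * swap 4 5, mem_alternatingGroup.2 (by decide)⟩

set_option synthInstance.maxSize 4000 in
theorem w1 : ∀ w : A6, w * z6 = z6 * w → (w * a6 = z6 * a6 * w → (w * b6 = z6 * b6 * w ∨ w * (z6 * b6) = b6 * w) →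
    w * w = z6) ∧ (w * a6 = a6 * w → (w * b6 = b6 * w ∨ w * (z6 * b6) = z6 * b6 * w) →
      a6 * b6 * w * (a6 * b6 * w) = z6 ∧ a6 * (z6 * b6) * w * (a6 * (z6 * b6) * w) = z6 ∧
      (w * c6 = c6 * w → w = 1)) := by decide +kernel

set_option synthInstance.maxSize 4000 in
theorem w2 : ∀ w : A6, (w * z6 = a6 * w → w * a6 = a6 * z6 * w → b6 * w * (b6 * w) = 1 → w * w * w = 1 →
    w = c6 ∨ z6 * w * z6⁻¹ = c6) ∧ (w * z6 = b6 * w → w * b6 = b6 * z6 * w → a6 * w * (a6 * w) = 1 → w * w * w = 1 →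
    w = d6 ∨ w = z6 * d6 * z6⁻¹) := by decide +kernel

theorem ord {w : A6} {p : ℕ} (hp : p.Prime) (h : w ^ p = 1 ∧ w ≠ 1) : orderOf w = p :=
  orderOf_eq_prime (hp := ⟨hp⟩) h.1 h.2

variable {X : Type u} [Group X] [Finite X] {ι : A6 →* X}

/-- `g` induces `β` -/
def R (ι : A6 →* X) (g : X) (β : MulAut A6) : Prop := ∀ x, g * ι x * g⁻¹ = ι (β x)

theorem R.mul {g : X} {β : MulAut A6} (h : R ι g β) (k : A6) : R ι (ι k * g) (MulAut.conj k * β) := fun x => by
  simp only [MulAut.mul_apply, MulAut.conj_apply, map_mul, map_inv, ← h x]; group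

theorem R.sq (hι : Function.Injective ι) {g : X} {β : MulAut A6} (h : R ι g β) {w : A6} (e : ι w = g * g) (x : A6) :
    w * x = β (β x) * w := hι (by rw [map_mul, map_mul, ← h, ← h, e]; group)

theorem left (hι : Function.Injective ι) {s : X} {w : A6} (e : ι w = s * s) (hw : w * w = z6) : C62 X := by
  have e4 : s ^ 4 = ι z6 := by rw [← hw, map_mul, e]; simp only [pow_succ, pow_zero]; group
  refine .inl ⟨s, ι x0, ?_, (orderOf_injective ι hι _).trans (ord Nat.prime_five (by decide +kernel)), ?_⟩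
  · refine orderOf_eq_prime_pow (p := 2) (n := 2) (fun k => six4.2.1 (hι ?_)) ?_
    · rw [← e4, map_one]; exact k
    · rw [show 2 ^ (2 + 1) = 4 * 2 from rfl, pow_mul, e4, sq, ← map_mul, six4.1, map_one]
  · rw [e4, ← map_inv, ← map_inv, ← map_mul, ← map_mul]
    exact congrArg ι (by decide +kernel)

theorem k5 (hι : Function.Injective ι) {s : X} {β : MulAut A6} (h : R ι s β) (ss : s * s = 1) {y k g x : A6}
    (hy : β y = y) (hk : β k = k) (hg : β g * g⁻¹ = k)
    (e : k * k = 1 ∧ k * y * k⁻¹ = y⁻¹ ∧ (x ^ 5 = 1 ∧ x ≠ 1) ∧ k * x * k⁻¹ = x⁻¹) : K5c (ι y) := by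
  have c : ∀ y, β y = y → Commute s (ι y) := fun y hy => mul_inv_eq_iff_eq_mul.1 ((h y).trans (congrArg ι hy))
  have si : s⁻¹ = s := inv_eq_of_mul_eq_one_left ss
  have e1 : s * ι k * s = ι k := by rw [(c k hk).eq, mul_assoc, ss, mul_one]
  refine ⟨s, s * ι k, ι g, ι x, ss, ?_, c y hy, (Commute.refl s).mul_left (c k hk).symm, ?_, ?_,
    (orderOf_injective ι hι _).trans (ord Nat.prime_five e.2.2.1), ?_⟩
  · rw [← mul_assoc, e1, ← map_mul, e.1, map_one]
  · calc s * ι k * ι y * (s * ι k)⁻¹ = s * ι (k * y * k⁻¹) * s⁻¹ := by simp only [map_mul, map_inv]; group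
      _ = _ := by rw [e.2.1, h, map_inv, hy, map_inv]
  · rw [← hg, map_mul, ← h, map_inv, si, ← mul_assoc, ← mul_assoc, ← mul_assoc, ss, one_mul]
  · rw [e1, ← map_inv, ← map_inv, ← map_mul, ← map_mul, e.2.2.2]

theorem k5_conj {y : X} (h : K5c y) (k : X) : K5c (k * y * k⁻¹) := by
  obtain ⟨τ, σ, g, x, h1, h2, h3, h4, h5, h6, h7, h8⟩ := h
  let e := MulAut.conj k
  refine ⟨e τ, e σ, e g, e x, by rw [← map_mul, h1, map_one], by rw [← map_mul, h2, map_one], h3.map e, h4.map e, ?_,
    by rw [← h6, map_mul, map_mul, map_inv], (e.orderOf_eq x).trans h7, by rw [← map_inv e x, ← h8]; simp only [map_mul, map_inv]⟩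
  show e σ * e y * (e σ)⁻¹ = (e y)⁻¹
  rw [← map_inv e y, ← h5, map_mul, map_mul, map_inv]

theorem right (h8 : Ord8 X) (hι : Function.Injective ι) (two : ∀ g, g ∉ ι.range → g * g ∈ ι.range) {s : X}
    {β : MulAut A6} (h : R ι s β) (hs : s ∉ ι.range) (hz : β z6 = z6) (ha : β a6 = a6) (hb : β b6 = b6)
    (hc : β c6 = c6) : C62 X := by
  obtain ⟨w, e⟩ := two s hs
  have q := h.sq hι e
  obtain rfl : w = 1 := ((w1 w (by rw [q, hz, hz])).2 (by rw [q, ha, ha]) (.inl (by rw [q, hb, hb]))).2.2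
    (by rw [q, hc, hc])
  have ss : s * s = 1 := e.symm.trans (map_one ι)
  have m : ∀ {x y : A6}, x = y → β x = β y := congrArg β
  rcases (w2 (β d6)).2 (by simpa [hz, hb] using m (x := d6 * z6) (y := b6 * d6) (by decide +kernel))
    (by simpa [hz, hb] using m (x := d6 * b6) (y := b6 * z6 * d6) (by decide +kernel))
    (by simpa [ha] using m (x := a6 * d6 * (a6 * d6)) (y := 1) (by decide +kernel))
    (by simpa using m (x := d6 * d6 * d6) (y := 1) (by decide +kernel)) with hd | hd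
  · refine (hs ?_).elim
    have c : Commute (ι (c6 * d6)) s := (mul_inv_eq_iff_eq_mul.1 ((h _).trans (by rw [map_mul β, hc, hd]))).symm
    rw [h8.fpf_pow (.inl ((orderOf_injective ι hι _).trans (ord Nat.prime_five (by decide +kernel)))) c (k := 1)
      (.inl rfl) (by rw [pow_one, sq, ss])]
    exact one_mem _
  have kc : K5c (ι c6) := k5 hι h ss hc hb (g := d6 * d6) (x := x1) (by rw [map_mul, hd]; decide +kernel)
    (by decide +kernel)
  have kd : K5c (ι d6) := k5 hι (h.mul z6) (by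
      rw [mul_assoc, ← mul_assoc s, mul_inv_eq_iff_eq_mul.1 (h z6), hz, mul_assoc, ss, mul_one, ← map_mul, six4.1, map_one])
    (by rw [MulAut.mul_apply, hd]; decide +kernel) (k := a6) (by rw [MulAut.mul_apply, ha]; decide +kernel)
    (g := c6 * c6) (x := x2) (by rw [MulAut.mul_apply, map_mul, hc]; decide +kernel) (by decide +kernel)
  have cJ : ∀ {y y' : A6} (g : A6), K5c (ι y) → g * y * g⁻¹ = y' → K5c (ι y') := fun g k e => by
    rw [← e, map_mul, map_mul, map_inv]; exact k5_conj k _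
  refine .inr ⟨ι c6, ι f6, ⟨(orderOf_injective ι hι _).trans (ord Nat.prime_three (by decide +kernel)),
    (orderOf_injective ι hι _).trans (ord Nat.prime_three (by decide +kernel)),
    (show Commute c6 f6 by unfold Commute SemiconjBy; decide +kernel).map ι, ?_⟩, kc, cJ g1 kc (by decide +kernel),
    by rw [← map_mul]; exact cJ g2 kd (by decide +kernel), by rw [← map_inv, ← map_mul]; exact cJ g3 kd (by decide +kernel)⟩
  rintro ⟨k, hk⟩
  have e1 : c6 ^ k = f6 := hι (by rw [map_zpow]; exact hk)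
  have e2 : (c6 ^ k).1 3 = 3 := by
    rw [coe_zpow]; exact zpow_apply_eq_self_of_apply_eq_self (by decide) k
  rw [e1] at e2
  exact absurd e2 (by decide)

theorem main (h8 : Ord8 X) (hι : Function.Injective ι) (two : ∀ g, g ∉ ι.range → g * g ∈ ι.range) {s : X}
    {β : MulAut A6} (h : R ι s β) (hs : s ∉ ι.range) (hz : β z6 = z6) : C62 X := by
  obtain ⟨z2, z1, a2, az, a1, az', -, -, hb⟩ := six4
  have ns : ∀ {s : X} (k : A6), s ∉ ι.range → ι k * s ∉ ι.range := fun k hs e =>
    hs ((Subgroup.mul_mem_cancel_left ι.range ⟨k, rfl⟩).1 e)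
  have key : ∀ w, w * w = 1 → w * z6 = z6 * w → w ≠ 1 → w ≠ z6 →
      (β w = a6 ∨ β w = z6 * a6) ∨ β w = b6 ∨ β w = z6 * b6 := fun w w2 wz w1 wz' =>
    ((six_inv (by rw [← map_mul, w2, map_one]) (by rw [← hz, ← map_mul, wz, map_mul, hz])).resolve_left
      (by simpa using w1)).resolve_left fun e => wz' (β.injective (e.trans hz.symm))
  have fin : ∀ {s : X} {β : MulAut A6}, R ι s β → s ∉ ι.range → β z6 = z6 → β a6 = a6 → β b6 = b6 → C62 X := by
    intro s β h hs hz ha hb
    have m : ∀ {x y : A6}, x = y → β x = β y := congrArg β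
    rcases (w2 (β c6)).1 (by simpa [hz, ha] using m (x := c6 * z6) (y := a6 * c6) (by decide +kernel))
      (by simpa [hz, ha] using m (x := c6 * a6) (y := a6 * z6 * c6) (by decide +kernel))
      (by simpa [hb] using m (x := b6 * c6 * (b6 * c6)) (y := 1) (by decide +kernel))
      (by simpa using m (x := c6 * c6 * c6) (y := 1) (by decide +kernel)) with hc | hc
    · exact right h8 hι two h hs hz ha hb hc
    · exact right h8 hι two (h.mul z6) (ns _ hs) (by rw [MulAut.mul_apply, hz]; decide +kernel)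
        (by rw [MulAut.mul_apply, ha]; decide +kernel) (by rw [MulAut.mul_apply, hb]; decide +kernel) hc
  rcases key a6 a2 az a1 az' with k | k
  · obtain ⟨b2, bz, b1, bz', ab, -⟩ := hb _ (.inl rfl)
    have n : β a6 * β b6 ≠ β b6 * β a6 := by
      rw [← map_mul, ← map_mul]
      exact fun e => ab (β.injective e)
    have k' : β b6 = b6 ∨ β b6 = z6 * b6 := (key _ b2 bz b1 bz').resolve_left fun k' => n (by
      rcases k with k | k <;> rcases k' with k' | k' <;> rw [k, k'] <;> decide +kernel)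
    have g : ∀ t : A6, t * z6 * t⁻¹ = z6 ∧ t * β a6 * t⁻¹ = a6 ∧ t * β b6 * t⁻¹ = b6 → C62 X := fun t e =>
      fin (h.mul t) (ns t hs) (by rw [MulAut.mul_apply, hz]; exact e.1) e.2.1 e.2.2
    rcases k with k | k <;> rcases k' with k' | k' <;> rw [k, k'] at g
    exacts [g 1 (by decide +kernel), g a6 (by decide +kernel), g b6 (by decide +kernel), g (a6 * b6) (by decide +kernel)]
  · obtain ⟨b2, bz, b1, bz', ab, -⟩ := hb _ k
    have n : β a6 * β (β a6) ≠ β (β a6) * β a6 := by
      rw [← map_mul, ← map_mul]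
      exact fun e => ab (β.injective e)
    have k' : β (β a6) = a6 ∨ β (β a6) = z6 * a6 := (key _ b2 bz b1 bz').resolve_right fun k' => n (by
      generalize β (β a6) = v at k'
      rcases k with k | k <;> rcases k' with k' | k' <;> rw [k, k'] <;> decide +kernel)
    obtain ⟨w, e⟩ := two s hs
    have q := h.sq hι e
    have q1 := w1 w (by rw [q, hz, hz])
    have q2 := q (β a6)
    rcases k' with k' | k'
    · rw [k'] at q2
      have e' : ι (a6 * β a6 * w) = ι a6 * s * (ι a6 * s) := by rw [map_mul, map_mul, ← h, e]; group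
      have q3 := q1.2 (by rw [q, k']) (k.imp (fun k => by rwa [k] at q2) fun k => by rwa [k] at q2)
      exact left hι e' (by rcases k with k | k <;> rw [k]; exacts [q3.1, q3.2.1])
    · rw [k', map_mul, hz] at q2
      exact left hι e (q1.1 (by rw [q, k']) (k.imp (fun k => by rwa [k] at q2) fun k => by
        rwa [k, ← mul_assoc z6, z2, one_mul] at q2))

end M62

open M62 CL.OrdSix in
theorem m62Thm (h6 : M6Thm.{u}) : M62Thm.{u} := by
  intro X _ _ h8 S hS h2 _ ⟨e⟩
  let ι : A6 →* X := S.subtype.comp e.symm.toMonoidHom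
  have hι : Function.Injective ι := S.subtype_injective.comp e.symm.injective
  have hr : ι.range = S := by
    rw [MonoidHom.range_comp, MonoidHom.range_eq_top.2 e.symm.surjective, ← MonoidHom.range_eq_map, range_subtype]
  obtain ⟨g, hg⟩ : ∃ g, g ∉ S := by
    by_contra! k
    rw [(eq_top_iff' S).2 k, index_top] at h2
    exact absurd h2 (by decide)
  let β : MulAut A6 := MulAut.congr e (MulAut.conjNormal (H := S) g)
  have hβ : R ι g β := fun x => by simp [ι, β, MulAut.conjNormal_apply]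
  obtain ⟨k, hk, hs⟩ := six1 (β z6) (congrArg Subtype.val (show β z6 * β z6 = 1 by
    rw [← map_mul, six4.1, map_one])) (fun e => six4.2.1 (β.injective ((Subtype.ext e).trans (map_one β).symm)))
    (β z6).2
  exact main h8 hι (fun g _ => by rw [hr]; exact mul_self_mem_of_index_two h2 g) (hβ.mul ⟨k, hs⟩)
    (fun e => hg (hr ▸ (Subgroup.mul_mem_cancel_left ι.range ⟨_, rfl⟩).1 e)) (mul_inv_eq_iff_eq_mul.2 (Subtype.ext hk))

end CL.O8
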