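/-
Project O8 (S3432): step M7, the facts about `L₂(7) ≅ L₃(2)`.
-/
import Cfsg.Agent.O8.A
import Cfsg.Agent.Cls.SLnCard
import Cfsg.Agent.Cls.SL2Tori

set_option autoImplicit false
set_option linter.unusedVariables false

open Cfsg Subgroup CL.Grp CL.Even CL.Loc CL.NGrp
open scoped commutatorElement

namespace CL.O8

universe u

namespace M7

instance : Fact (Nat.Prime 7) := ⟨by norm_num⟩

abbrev Q := ZMod 7 × ZMod 7 × ZMod 7 × ZMod 7

/-- evaluate `v`, then continue -/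
def frc {α : Type} (v : ZMod 7) (k : ZMod 7 → α) : α :=
  match v.val with
  | 0 => k 0
  | 1 => k 1
  | 2 => k 2
  | 3 => k 3
  | 4 => k 4
  | 5 => k 5
  | _ => k 6

theorem frc_eq {α : Type} (v : ZMod 7) (k : ZMod 7 → α) : frc v k = k v := by fin_cases v <;> rfl

def mq (x y : Q) : Q := frc (x.1 * y.1 + x.2.1 * y.2.2.1) fun p => frc (x.1 * y.2.1 + x.2.1 * y.2.2.2) fun q =>
  frc (x.2.2.1 * y.1 + x.2.2.2 * y.2.2.1) fun r => frc (x.2.2.1 * y.2.1 + x.2.2.2 * y.2.2.2) fun s => (p, q, r, s)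

/-- `SL₂(7)` -/
def L : Type := {x : Q // x.1 * x.2.2.2 - x.2.1 * x.2.2.1 = 1}

def tq (m : L) : Q := m.1

def mk (p q r s : ZMod 7) (h : p * s - q * r = 1 := by decide) : L := ⟨(p, q, r, s), h⟩

instance : Mul L := ⟨fun m n => ⟨mq m.1 n.1, by
  simp only [mq, frc_eq]
  linear_combination (n.1.1 * n.1.2.2.2 - n.1.2.1 * n.1.2.2.1) * m.2 + n.2⟩⟩

instance : One L := ⟨mk 1 0 0 1⟩

instance : Inv L := ⟨fun m => ⟨(m.1.2.2.2, -m.1.2.1, -m.1.2.2.1, m.1.1), by linear_combination m.2⟩⟩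

theorem tq_mul (m n : L) : tq (m * n) = mq (tq m) (tq n) := rfl

instance : Group L := Group.ofLeftAxioms
  (fun x y z => Subtype.ext (by
    change mq (mq x.1 y.1) z.1 = mq x.1 (mq y.1 z.1)
    simp only [mq, frc_eq, Prod.mk.injEq]
    refine ⟨?_, ?_, ?_, ?_⟩ <;> ring))
  (fun ⟨⟨p, q, r, s⟩, _⟩ => Subtype.ext (by
    change mq (1, 0, 0, 1) (p, q, r, s) = (p, q, r, s)
    simp [mq, frc_eq]))
  fun ⟨⟨p, q, r, s⟩, h⟩ => Subtype.ext (by
    change mq (s, -q, -r, p) (p, q, r, s) = (1, 0, 0, 1)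
    simp only [mq, frc_eq, Prod.mk.injEq]
    exact ⟨by linear_combination h, by ring, by ring, by linear_combination h⟩)

def ι : L →* Matrix.SpecialLinearGroup (Fin 2) (ZMod 7) :=
  MonoidHom.mk' (fun m => ⟨!![m.1.1, m.1.2.1; m.1.2.2.1, m.1.2.2.2], by rw [Matrix.det_fin_two_of, m.2]⟩) fun m n =>
    Subtype.ext (by
      change !![(mq m.1 n.1).1, (mq m.1 n.1).2.1; (mq m.1 n.1).2.2.1, (mq m.1 n.1).2.2.2] =
        !![m.1.1, m.1.2.1; m.1.2.2.1, m.1.2.2.2] * !![n.1.1, n.1.2.1; n.1.2.2.1, n.1.2.2.2]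
      simp only [mq, frc_eq, Matrix.mul_fin_two])

theorem ι_surj : Function.Surjective ι := fun m =>
  ⟨mk (m.1 0 0) (m.1 0 1) (m.1 1 0) (m.1 1 1) (Matrix.det_fin_two m.1 ▸ m.2),
    Subtype.ext (Matrix.eta_fin_two m.1).symm⟩

def EQ (x y : Q) : Prop := x = y ∨ x = -y

instance (x y : Q) : Decidable (EQ x y) := by unfold EQ; infer_instance

/-- equality up to sign -/
abbrev E (m n : L) : Prop := EQ (tq m) (tq n)

theorem mem_center {m : L} : ι m ∈ center _ ↔ E m 1 := by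
  obtain ⟨⟨p, q, r, s⟩, h⟩ := m
  rw [Matrix.SpecialLinearGroup.mem_center_iff]
  change (∃ t : ZMod 7, t ^ 2 = 1 ∧ Matrix.scalar (Fin 2) t = !![p, q; r, s]) ↔
    (p, q, r, s) = (1, 0, 0, 1) ∨ (p, q, r, s) = (-1, -0, -0, -1)
  constructor
  · rintro ⟨t, ht, e⟩
    have e1 := congrFun (congrFun e 0) 0
    have e2 := congrFun (congrFun e 0) 1
    have e3 := congrFun (congrFun e 1) 0
    have e4 := congrFun (congrFun e 1) 1
    rcases (by decide : ∀ r : ZMod 7, r ^ 2 = 1 → r = 1 ∨ r = -1) t ht with rfl | rfl <;> simp at e1 e2 e3 e4 <;>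
      simp [← e1, ← e2, ← e3, ← e4]
  · rintro (h | h) <;> simp only [Prod.mk.injEq] at h <;> obtain ⟨rfl, rfl, rfl, rfl⟩ := h
    · exact ⟨1, by simp, by ext i j; fin_cases i <;> fin_cases j <;> simp⟩
    · exact ⟨-1, by simp, by ext i j; fin_cases i <;> fin_cases j <;> simp⟩

theorem E_iff {m n : L} : E (m⁻¹ * n) 1 ↔ E m n := by
  have k : ∀ x : Q, mq x (tq 1) = x ∧ mq x (-tq 1) = -x := fun ⟨p, q, r, s⟩ => by
    change mq _ (1, 0, 0, 1) = _ ∧ mq _ (-1, -0, -0, -1) = _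
    simp [mq, frc_eq]
  have k' : ∀ x y : Q, mq x (-y) = -mq x y := fun x y => by simp [mq, frc_eq, add_comm]
  constructor
  · rintro (h | h)
    · exact Or.inl (by rw [← (k (tq m)).1, ← h, ← tq_mul, mul_inv_cancel_left] : tq m = tq n)
    · exact Or.inr (neg_eq_iff_eq_neg.1 (by rw [← (k (tq m)).2, ← h, ← tq_mul, mul_inv_cancel_left]))
  · rintro (h | h)
    · exact Or.inl (by rw [tq_mul, ← h, ← tq_mul, inv_mul_cancel])
    · exact Or.inr (by rw [tq_mul, ← neg_neg (tq n), ← h, k', ← tq_mul, inv_mul_cancel])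

def z : L := mk 0 1 6 0
def a : L := mk 2 3 3 5
def b : L := mk 2 4 4 5
def c : L := mk 2 0 1 4
def d : L := mk 2 0 6 4
def T8 : List L := [mk 1 0 0 1, a, b, mk 2 2 5 2, mk 2 5 2 2, mk 3 2 2 4, mk 3 5 5 4, z]
def W6 : List L := [mk 1 0 0 1, c, d, mk 3 0 2 5, mk 3 0 5 5, mk 1 0 5 1]

theorem br0 : ∀ p q : ZMod 7, ∃ u ∈ T8, p * (tq u).2.1 + q * (tq u).2.2.2 = 0 := by decide +kernel

theorem br1 : ∀ p r s : ZMod 7, p * s = 1 →
    ∃ t ∈ T8, ∃ u ∈ T8, ∃ w ∈ W6, EQ (mq (mq (tq t) (p, 0, r, s)) (tq u)) (tq w) := by decide +kernel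

theorem T_mul : ∀ t ∈ T8, ∀ u ∈ T8, ∃ v ∈ T8, EQ (mq (tq t) (tq u)) (tq v) := by decide +kernel

theorem T_inv : ∀ t ∈ T8, (∃ v ∈ T8, E t⁻¹ v) ∧ E (t ^ 2 ^ 2) 1 := by decide +kernel

variable {S : Type u} [Group S] {π : L →* S} (hπ : ∀ m n, π m = π n ↔ E m n)
include hπ

theorem eq {m n : L} (h : E m n) : π m = π n := (hπ m n).2 h

theorem ord {m : L} {p : ℕ} [Fact p.Prime] (h1 : E (m ^ p) 1) (h2 : ¬ E m 1) : orderOf (π m) = p :=
  orderOf_eq_prime (by rw [← map_pow, eq hπ h1, map_one]) fun h => h2 ((hπ _ _).1 (by rw [h, map_one]))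

theorem T_mem {Y : Subgroup S} (ha : π a ∈ Y) (hb : π b ∈ Y) : ∀ t ∈ T8, π t ∈ Y := by
  have k : ∀ t ∈ T8, E t 1 ∨ E t a ∨ E t b ∨ E t (a * b) ∨ E t (b * a) ∨ E t (a * b * a) ∨ E t (b * a * b) ∨
    E t (a * b * a * b) := by decide +kernel
  intro t ht
  rcases k t ht with h | h | h | h | h | h | h | h <;> simp only [eq hπ h, map_mul, map_one] <;>
    apply_rules [mul_mem, one_mem]

theorem mem_T {g : S} (h : g ∈ closure {π a, π b}) : ∃ t ∈ T8, g = π t := by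
  induction h using closure_induction with
  | mem x hx => rcases hx with rfl | rfl <;> exact ⟨_, by simp [T8], rfl⟩
  | one => exact ⟨mk 1 0 0 1, by simp [T8], (map_one π).symm.trans (eq hπ (by decide +kernel))⟩
  | mul x y _ _ hx hy =>
    obtain ⟨t, ht, rfl⟩ := hx
    obtain ⟨u, hu, rfl⟩ := hy
    obtain ⟨v, hv, e⟩ := T_mul t ht u hu
    exact ⟨v, hv, (map_mul π t u).symm.trans (eq hπ e)⟩
  | inv x _ hx =>
    obtain ⟨t, ht, rfl⟩ := hx
    obtain ⟨v, hv, e⟩ := (T_inv t ht).1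
    exact ⟨v, hv, (map_inv π t).symm.trans (eq hπ e)⟩

/-- Bruhat decomposition -/
theorem bruhat (m : L) : ∃ w ∈ W6, ∀ Y : Subgroup S, π a ∈ Y → π b ∈ Y → (π m ∈ Y ↔ π w ∈ Y) := by
  obtain ⟨v, hv, e⟩ := br0 (tq m).1 (tq m).2.1
  have e1 : (m * v).1.2.1 = 0 := by
    change (mq m.1 v.1).2.1 = 0
    simp only [mq, frc_eq]
    exact e
  have e2 := (m * v).2
  rw [e1, zero_mul, sub_zero] at e2
  obtain ⟨t, ht, u, hu, w, hw, e3⟩ := br1 _ (m * v).1.2.2.1 _ e2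
  rw [← e1] at e3
  have e4 : π (t * (m * v) * u) = π w := eq hπ e3
  refine ⟨w, hw, fun Y ha hb => ?_⟩
  rw [← e4, map_mul, map_mul, map_mul, mul_mem_cancel_right (T_mem hπ ha hb u hu),
    mul_mem_cancel_left (T_mem hπ ha hb t ht), mul_mem_cancel_right (T_mem hπ ha hb v hv)]

theorem W_cases {w : L} (hw : w ∈ W6) : π w = 1 ∨ w = c ∨ w = d ∨
    ∀ Y : Subgroup S, π a ∈ Y → π b ∈ Y → (π w ∈ Y ↔ π c ∈ Y ∧ π d ∈ Y) := by
  simp only [W6, List.mem_cons, List.not_mem_nil, or_false] at hw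
  rcases hw with rfl | rfl | rfl | rfl | rfl | rfl
  · exact Or.inl ((eq hπ (by decide +kernel)).trans (map_one π))
  · exact Or.inr (Or.inl rfl)
  · exact Or.inr (Or.inr (Or.inl rfl))
  · refine Or.inr (Or.inr (Or.inr fun Y ha hb => ⟨fun h => ⟨?_, ?_⟩, fun h => ?_⟩))
    · rw [eq hπ (show E c (b * mk 3 0 2 5 * b * mk 3 0 2 5 * mk 3 0 2 5 * a) by decide +kernel)]
      simp only [map_mul]; apply_rules [mul_mem]
    · rw [eq hπ (show E d (mk 3 0 2 5 * mk 3 0 2 5 * (b * a * b) * mk 3 0 2 5 * a) by decide +kernel)]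
      simp only [map_mul]; apply_rules [mul_mem]
    · rw [eq hπ (show E (mk 3 0 2 5) (c * d) by decide +kernel), map_mul]; exact mul_mem h.1 h.2
  · refine Or.inr (Or.inr (Or.inr fun Y ha hb => ⟨fun h => ⟨?_, ?_⟩, fun h => ?_⟩))
    · rw [eq hπ (show E c (mk 3 0 5 5 * mk 3 0 5 5 * (a * b * a) * mk 3 0 5 5 * b) by decide +kernel)]
      simp only [map_mul]; apply_rules [mul_mem]
    · rw [eq hπ (show E d (a * mk 3 0 5 5 * a * mk 3 0 5 5 * mk 3 0 5 5 * b) by decide +kernel)]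
      simp only [map_mul]; apply_rules [mul_mem]
    · rw [eq hπ (show E (mk 3 0 5 5) (d * c) by decide +kernel), map_mul]; exact mul_mem h.2 h.1
  · refine Or.inr (Or.inr (Or.inr fun Y ha hb => ⟨fun h => ⟨?_, ?_⟩, fun h => ?_⟩))
    · rw [eq hπ (show E c (b * mk 1 0 5 1 * (a * b * a) * mk 1 0 5 1 * (a * b)) by decide +kernel)]
      simp only [map_mul]; apply_rules [mul_mem]
    · rw [eq hπ (show E d (mk 1 0 5 1 * (b * a * b) * mk 1 0 5 1 * (a * b * a * b)) by decide +kernel)]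
      simp only [map_mul]; apply_rules [mul_mem]
    · rw [eq hπ (show E (mk 1 0 5 1) (c * d * c) by decide +kernel), map_mul, map_mul]
      exact mul_mem (mul_mem h.1 h.2) h.1

theorem le_of (hs : Function.Surjective π) {Y Z : Subgroup S} (ha : π a ∈ Y) (hb : π b ∈ Y) (ha' : π a ∈ Z)
    (hb' : π b ∈ Z) (hc : π c ∈ Y → π c ∈ Z) (hd : π d ∈ Y → π d ∈ Z) : Y ≤ Z := by
  intro g hg
  obtain ⟨m, rfl⟩ := hs g
  obtain ⟨w, hw, h⟩ := bruhat hπ m
  rw [h Y ha hb] at hg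
  rw [h Z ha' hb']
  rcases W_cases hπ hw with e | rfl | rfl | e
  · exact e ▸ one_mem Z
  · exact hc hg
  · exact hd hg
  · exact (e Z ha' hb').2 ⟨hc ((e Y ha hb).1 hg).1, hd ((e Y ha hb).1 hg).2⟩

theorem ovr (hs : Function.Surjective π) (Y : Subgroup S) (h : closure {π a, π b} ≤ Y) :
    Y = closure {π a, π b} ∨ (Y = closure {π a, π b, π c} ∧ π c ∈ Y) ∨ (Y = closure {π a, π b, π d} ∧ π d ∈ Y) ∨
      Y = ⊤ := by
  have ha : π a ∈ Y := h (subset_closure (by simp))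
  have hb : π b ∈ Y := h (subset_closure (by simp))
  by_cases hc : π c ∈ Y <;> by_cases hd : π d ∈ Y
  · exact Or.inr (Or.inr (Or.inr (top_le_iff.1 (le_of hπ hs trivial trivial ha hb (fun _ => hc) fun _ => hd))))
  · exact Or.inr (Or.inl ⟨le_antisymm (le_of hπ hs ha hb (subset_closure (by simp)) (subset_closure (by simp))
      (fun _ => subset_closure (by simp)) fun h => (hd h).elim)
      ((closure_le _).2 (by rintro _ (rfl | rfl | rfl) <;> assumption)), hc⟩)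
  · exact Or.inr (Or.inr (Or.inl ⟨le_antisymm (le_of hπ hs ha hb (subset_closure (by simp)) (subset_closure (by simp))
      (fun h => (hc h).elim) fun _ => subset_closure (by simp))
      ((closure_le _).2 (by rintro _ (rfl | rfl | rfl) <;> assumption)), hd⟩))
  · exact Or.inl (le_antisymm (le_of hπ hs ha hb (subset_closure (by simp)) (subset_closure (by simp))
      (fun h => (hc h).elim) fun h => (hd h).elim) h)

theorem mem_P {e m : L} (h : ∃ t ∈ T8, E m t ∨ ∃ u ∈ T8, E m (t * e * u)) : π m ∈ closure {π a, π b, π e} := by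
  have k := T_mem hπ (Y := closure {π a, π b, π e}) (subset_closure (by simp)) (subset_closure (by simp))
  obtain ⟨t, ht, h | ⟨u, hu, h⟩⟩ := h <;> rw [eq hπ h]
  · exact k t ht
  · rw [map_mul, map_mul]
    exact mul_mem (mul_mem (k t ht) (subset_closure (by simp))) (k u hu)

theorem pwc {e f x u : L} (hu : u ∈ T8) (h1 : E (x ^ 7) 1) (h2 : ¬ E x 1) (h3 : E ((x * u) ^ 7) 1) (h4 : ¬ E (x * u) 1)
    (h5 : ∀ m ∈ [z, (z * f⁻¹)⁻¹ * x, (z * f⁻¹ * f⁻¹)⁻¹ * x ^ 3, (z * f⁻¹)⁻¹ * (x * u), (z * f⁻¹ * f⁻¹)⁻¹ * (x * u) ^ 3,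
      (x ^ 3)⁻¹ * (x * u) ^ 3], ∃ t ∈ T8, E m t ∨ ∃ u ∈ T8, E m (t * e * u))
    (h6 : ∀ t ∈ T8, ¬ E ((x ^ 3)⁻¹ * (x * u) ^ 3) t) : PWc (π a) (π b) (π e) (π f) := by
  have k := fun m hm => mem_P hπ (h5 m hm)
  simp only [List.mem_cons, List.not_mem_nil, or_false, forall_eq_or_imp, forall_eq, map_mul, map_inv, map_pow] at k
  obtain ⟨k1, k2, k3, k4, k5, k6⟩ := k
  refine ⟨π x, π u, T_mem hπ (subset_closure (by simp)) (subset_closure (by simp)) u hu, ord hπ h1 h2,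
    map_mul π x u ▸ ord hπ h3 h4, ⟨_, k1, _, Or.inr rfl, k2, k3⟩, ⟨_, k1, _, Or.inr rfl, k4, k5⟩, k6, fun h => ?_⟩
  obtain ⟨t, ht, e⟩ := mem_T hπ h
  simp only [← map_mul, ← map_inv, ← map_pow, hπ] at e
  exact h6 t ht e

theorem dx [Finite S] (hs : Function.Surjective π) : DX 7 (π z) (π a) (π b) (π c) (π d) := by
  have c3 : orderOf (π c) = 3 := ord hπ (by decide +kernel) (by decide +kernel)
  have d3 : orderOf (π d) = 3 := ord hπ (by decide +kernel) (by decide +kernel)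
  have x7 : orderOf (π (mk 1 0 1 1)) = 7 := ord hπ (by decide +kernel) (by decide +kernel)
  have n3 : ∀ {U : Subgroup S} {g : S}, IsPGroup 2 U → g ∈ U → orderOf g ≠ 3 := fun hU hg e => by
    rw [eq_one_of_coprime_of_mem hU (by rw [e]; decide) hg, orderOf_one] at e
    omega
  refine ⟨Or.inr rfl, ?_, ?_, ?_, ?_, ?_, ?_, ?_, ?_, ?_, ?_, ?_, ?_, c3, d3, ?_, ?_, ?_, fun Y h => ?_, ?_, by omega,
    fun _ => ⟨π (mk 0 1 6 1), π (mk 0 1 6 2), ?_⟩, by omega,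
    fun _ => ⟨⟨_, x7, Or.inl ?_⟩, _, x7, Or.inl ?_⟩, ?_, fun _ => ⟨?_, ?_⟩⟩
  iterate 14
    simp only [← map_one π, ← map_mul, ← map_inv, Ne, hπ]
    decide +kernel
  · refine isSylowIn_of_maximal le_top (isPGroup_iff_forall.2 fun g hg => ?_) fun U hU h _ => ?_
    · obtain ⟨t, ht, rfl⟩ := mem_T hπ hg
      exact ⟨2, by rw [← map_pow, eq hπ (T_inv t ht).2, map_one]⟩
    · rcases ovr hπ hs U h with e | e | e | e
      · exact e
      · exact (n3 hU e.2 c3).elim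
      · exact (n3 hU e.2 d3).elim
      · exact (n3 hU (e ▸ mem_top _) c3).elim
  · exact (ovr hπ hs Y h).imp_right (Or.imp And.left (Or.imp_left And.left))
  · exact top_le_iff.1 (le_of hπ hs trivial trivial (subset_closure (by simp)) (subset_closure (by simp))
      (fun _ => subset_closure (by simp)) fun _ => subset_closure (by simp))
  · simp only [← map_mul, ← map_inv]
    exact ord hπ (by decide +kernel) (by decide +kernel)
  iterate 2
    simp only [← map_mul, ← map_inv, ← map_pow, hπ]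
    decide +kernel
  · intro A _ φ hv ha hb hc hd hN
    have k0 : ∀ t ∈ closure {π a, π b}, ∀ g, φ (g * t) = φ g := fun t ht => by
      induction ht using closure_induction with
      | mem x hx => rcases hx with rfl | rfl <;> assumption
      | one => simp
      | mul x y _ _ hx hy => intro g; rw [← mul_assoc, hy, hx]
      | inv x _ hx => intro g; rw [← hx, inv_mul_cancel_right]
    have k : ∀ m n : L, (∃ t ∈ T8, E m (n * t)) → φ (π m) = φ (π n) := by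
      rintro m n ⟨t, ht, e⟩
      rw [eq hπ e, map_mul, k0 _ (T_mem hπ (subset_closure (by simp)) (subset_closure (by simp)) t ht)]
    have r0 := hd (π (mk 0 1 6 1))
    simp only [← map_mul] at r0
    rw [k ((mk 0 1 6 1) * d) (mk 0 2 3 1) (by decide +kernel), k ((mk 0 1 6 1) * d * d) (mk 0 3 2 2) (by decide +kernel)] at r0
    have r1 := hd (π (mk 0 1 6 3))
    simp only [← map_mul] at r1
    rw [k ((mk 0 1 6 3) * d) (mk 0 2 3 5) (by decide +kernel), k ((mk 0 1 6 3) * d * d) (mk 0 3 2 1) (by decide +kernel)] at r1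
    have r2 := hc (π (mk 0 1 6 4))
    simp only [← map_mul] at r2
    rw [k ((mk 0 1 6 4) * c) (mk 0 2 3 2) (by decide +kernel), k ((mk 0 1 6 4) * c * c) (mk 0 3 2 6) (by decide +kernel)] at r2
    have r3 := hc (π (mk 0 1 6 6))
    simp only [← map_mul] at r3
    rw [k ((mk 0 1 6 6) * c) (mk 0 2 3 6) (by decide +kernel), k ((mk 0 1 6 6) * c * c) (mk 0 3 2 5) (by decide +kernel)] at r3
    have r4 := hN (π (mk 0 1 6 5)) (π (mk 0 3 2 2)) (ord hπ (by decide +kernel) (by decide +kernel))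
    simp only [Finset.prod_range_succ, Finset.prod_range_zero, one_mul, ← map_pow, ← map_mul] at r4
    rw [k ((mk 0 3 2 2) ^ 0 * (mk 0 1 6 5)) (mk 0 1 6 5) (by decide +kernel), k ((mk 0 3 2 2) ^ 1 * (mk 0 1 6 5)) (mk 0 2 3 5) (by decide +kernel), k ((mk 0 3 2 2) ^ 2 * (mk 0 1 6 5)) (mk 0 3 2 3) (by decide +kernel), k ((mk 0 3 2 2) ^ 3 * (mk 0 1 6 5)) (mk 0 3 2 5) (by decide +kernel), k ((mk 0 3 2 2) ^ 4 * (mk 0 1 6 5)) (mk 0 3 2 4) (by decide +kernel), k ((mk 0 3 2 2) ^ 5 * (mk 0 1 6 5)) (mk 0 3 2 6) (by decide +kernel), k ((mk 0 3 2 2) ^ 6 * (mk 0 1 6 5)) (mk 0 2 3 1) (by decide +kernel)] at r4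
    have r5 := hN (π (mk 0 1 6 2)) (π (mk 0 3 2 5)) (ord hπ (by decide +kernel) (by decide +kernel))
    simp only [Finset.prod_range_succ, Finset.prod_range_zero, one_mul, ← map_pow, ← map_mul] at r5
    rw [k ((mk 0 3 2 5) ^ 0 * (mk 0 1 6 2)) (mk 0 1 6 2) (by decide +kernel), k ((mk 0 3 2 5) ^ 1 * (mk 0 1 6 2)) (mk 0 2 3 2) (by decide +kernel), k ((mk 0 3 2 5) ^ 2 * (mk 0 1 6 2)) (mk 0 3 2 4) (by decide +kernel), k ((mk 0 3 2 5) ^ 3 * (mk 0 1 6 2)) (mk 0 3 2 2) (by decide +kernel), k ((mk 0 3 2 5) ^ 4 * (mk 0 1 6 2)) (mk 0 3 2 3) (by decide +kernel), k ((mk 0 3 2 5) ^ 5 * (mk 0 1 6 2)) (mk 0 3 2 1) (by decide +kernel), k ((mk 0 3 2 5) ^ 6 * (mk 0 1 6 2)) (mk 0 2 3 6) (by decide +kernel)] at r5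
    have r6 := hN (π (mk 1 0 0 1)) (π (mk 1 0 1 1)) (ord hπ (by decide +kernel) (by decide +kernel))
    simp only [Finset.prod_range_succ, Finset.prod_range_zero, one_mul, ← map_pow, ← map_mul] at r6
    rw [k ((mk 1 0 1 1) ^ 0 * (mk 1 0 0 1)) (mk 1 0 0 1) (by decide +kernel), k ((mk 1 0 1 1) ^ 1 * (mk 1 0 0 1)) (mk 0 1 6 1) (by decide +kernel), k ((mk 1 0 1 1) ^ 2 * (mk 1 0 0 1)) (mk 0 1 6 2) (by decide +kernel), k ((mk 1 0 1 1) ^ 3 * (mk 1 0 0 1)) (mk 0 1 6 3) (by decide +kernel), k ((mk 1 0 1 1) ^ 4 * (mk 1 0 0 1)) (mk 0 1 6 4) (by decide +kernel), k ((mk 1 0 1 1) ^ 5 * (mk 1 0 0 1)) (mk 0 1 6 5) (by decide +kernel), k ((mk 1 0 1 1) ^ 6 * (mk 1 0 0 1)) (mk 0 1 6 6) (by decide +kernel)] at r6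
    rw [← map_one π, k 1 (mk 1 0 0 1) (by decide +kernel)]
    generalize φ (π (mk 1 0 0 1)) = v0 at *
    generalize φ (π (mk 0 1 6 1)) = v1 at *
    generalize φ (π (mk 0 1 6 2)) = v2 at *
    generalize φ (π (mk 0 1 6 3)) = v3 at *
    generalize φ (π (mk 0 1 6 4)) = v4 at *
    generalize φ (π (mk 0 1 6 5)) = v5 at *
    generalize φ (π (mk 0 1 6 6)) = v6 at *
    generalize φ (π (mk 0 2 3 1)) = v8 at *
    generalize φ (π (mk 0 2 3 2)) = v9 at *
    generalize φ (π (mk 0 2 3 5)) = v12 at *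
    generalize φ (π (mk 0 2 3 6)) = v13 at *
    generalize φ (π (mk 0 3 2 1)) = v15 at *
    generalize φ (π (mk 0 3 2 2)) = v16 at *
    generalize φ (π (mk 0 3 2 3)) = v17 at *
    generalize φ (π (mk 0 3 2 4)) = v18 at *
    generalize φ (π (mk 0 3 2 5)) = v19 at *
    generalize φ (π (mk 0 3 2 6)) = v20 at *
    calc v0 = v0 * (v1 * v1) * (v2 * v2) * (v3 * v3) * (v4 * v4) * (v5 * v5) * (v6 * v6) * (v8 * v8) * (v9 * v9) * (v12 * v12) * (v13 * v13) * (v15 * v15) * (v16 * v16) * (v17 * v17) * (v18 * v18) * (v19 * v19) * (v20 * v20) := by simp only [hv, mul_one]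
      _ = (v1 * v8 * v16) * (v3 * v12 * v15) * (v4 * v9 * v20) * (v6 * v13 * v19) * (v5 * v12 * v17 * v19 * v18 * v20 * v8) * (v2 * v9 * v18 * v16 * v17 * v15 * v13) * (v0 * v1 * v2 * v3 * v4 * v5 * v6) := by ac_rfl
      _ = 1 := by simp only [r0, r1, r2, r3, r4, r5, r6, mul_one]
  · exact pwc hπ (x := mk 0 2 3 2) (u := mk 2 5 2 2) (by simp [T8]) (by decide +kernel) (by decide +kernel)
      (by decide +kernel) (by decide +kernel) (by decide +kernel) (by decide +kernel)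
  · exact pwc hπ (x := mk 0 2 3 5) (u := mk 2 2 5 2) (by simp [T8]) (by decide +kernel) (by decide +kernel)
      (by decide +kernel) (by decide +kernel) (by decide +kernel) (by decide +kernel)

end M7

theorem m7Thm : M7Thm.{u} := by
  rintro S _ ⟨F, _, _, hF, ⟨e⟩⟩
  have hc : Nat.card S = 168 := by
    have := CL.SL2.card_psl_mul (F := F)
    rw [← Nat.card_congr e.toEquiv, hF] at this
    norm_num at this
    omega
  have : Finite S := Nat.finite_of_card_ne_zero (by omega)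
  obtain ⟨e'⟩ := CL.SLn.nonempty_psl_equiv_of_card_eq (ι := Fin 2) (K := F) (L := ZMod 7) (hF.trans (ZMod.card 7).symm)
  let π : M7.L →* S := (e.trans e').symm.toMonoidHom.comp ((QuotientGroup.mk' (center _)).comp M7.ι)
  have hπ : ∀ m n, π m = π n ↔ M7.E m n := fun m n =>
    (e.trans e').symm.injective.eq_iff.trans (QuotientGroup.eq.trans (by
      rw [← map_inv, ← map_mul, M7.mem_center, M7.E_iff]))
  have h := M7.dx hπ ((e.trans e').symm.surjective.comp ((QuotientGroup.mk'_surjective _).comp M7.ι_surj))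
  refine ⟨hc, ⟨_, _, _, h.zz, h.aa, h.za.symm, h.z1, h.cz, h.ca.trans h.za, h.c3⟩,
    ⟨π (M7.mk 1 0 1 1), π M7.c, M7.ord hπ (by decide +kernel) (by decide +kernel), ?_⟩, _, _, _, _, _, h⟩
  simp only [← map_mul, ← map_inv, ← map_pow, hπ]
  decide +kernel

end CL.O8
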