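/-
Project O8: the configurations in the alternating groups of degree 5, 6, 7.
-/
import Cfsg.Agent.O8.A

set_option autoImplicit false
set_option linter.unusedVariables false

open Cfsg Subgroup CL.Grp CL.Even CL.Loc CL.NGrp
open scoped commutatorElement

namespace CL.O8

universe u v

section Map

variable {X : Type v} {Y : Type u} [Group X] [Group Y] {f : X →* Y}

theorem Nine.map (hf : Function.Injective f) {a b : X} (h : Nine a b) : Nine (f a) (f b) :=
  ⟨(orderOf_injective f hf a).trans h.oe, (orderOf_injective f hf b).trans h.of, h.comm.map f, fun k => h.nm (by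
    rwa [← MonoidHom.map_zpowers, mem_map_iff_mem hf] at k)⟩

theorem Q4.map (hf : Function.Injective f) (h : Q4 X) : Q4 Y := by
  obtain ⟨a, b, y, h1, h2, h3, h4, h5, h6, h7⟩ := h
  exact ⟨f a, f b, f y, by rw [← map_mul, h1, map_one], by rw [← map_mul, h2, map_one],
    by rw [← map_mul, h3, map_mul], fun k => h4 (hf (k.trans (map_one f).symm)), by rw [← h5]; simp,
    by rw [← map_mul f a b, ← h6]; simp, (orderOf_injective f hf y).trans h7⟩

theorem D5.map (hf : Function.Injective f) (h : D5 X) : D5 Y := by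
  obtain ⟨x, t, h1, h2⟩ := h
  exact ⟨f x, f t, (orderOf_injective f hf x).trans h1, by rw [← map_inv f x, ← h2]; simp⟩

theorem F5.map (hf : Function.Injective f) (h : F5 X) : F5 Y := by
  obtain ⟨x, t, h1, h2⟩ := h
  exact ⟨f x, f t, (orderOf_injective f hf x).trans h1, by rw [← map_pow, ← h2]; simp⟩

theorem F7.map (hf : Function.Injective f) (h : F7 X) : F7 Y := by
  obtain ⟨x, t, h1, h2⟩ := h
  exact ⟨f x, f t, (orderOf_injective f hf x).trans h1, by rw [← map_pow, ← h2]; simp⟩

theorem C7.map (hf : Function.Injective f) (h : C7 X) : C7 Y := by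
  obtain ⟨a, b, u, w, x, g, k, h1, h2, h3, h4, h5, h6, h7, h8, h9⟩ := h
  refine ⟨f a, f b, f u, f w, f x, f g, f k, h1.map hf, by rw [← map_mul, h2, map_one], h3.map f,
    (orderOf_injective f hf w).trans h4, by rw [← map_inv f w, ← h5]; simp, by rw [← h6]; simp,
    by simpa using congrArg f h7, (orderOf_injective f hf x).trans h8, h9.imp (fun e => ?_) fun e => ?_⟩
  all_goals simpa using congrArg f e

namespace MAx

/-- an elementary abelian 2-group is separated by its homomorphisms to the group of order two -/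
theorem sep {A : Type u} [CommGroup A] (h : ∀ a : A, a * a = 1) {a : A}
    (k : ∀ χ : A →* ULift.{v} (Multiplicative (ZMod 2)), χ a = 1) : a = 1 := by
  letI : Module (ZMod 2) (Additive A) := AddCommGroup.zmodModule fun x => by
    rw [two_nsmul]; exact congrArg Additive.ofMul (h x.toMul)
  refine (Module.forall_dual_apply_eq_zero_iff (ZMod 2) (Additive.ofMul a)).1 fun φ => ?_
  have := k (MonoidHom.mk' (fun x => ULift.up (Multiplicative.ofAdd (φ (Additive.ofMul x)))) fun x y => by
    rw [ofMul_mul, map_add]; rfl)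
  exact congrArg (fun x : ULift.{v} (Multiplicative (ZMod 2)) => x.down.toAdd) this

end MAx

theorem C34.map (hf : Function.Injective f) (h : C34 X) : C34 Y := by
  obtain ⟨a, b, x, g, k, l, h1, h2, h3, h4, h5, h6, h7⟩ := h
  refine ⟨f a, f b, f x, f g, f k, f l, h1.map hf, (orderOf_injective f hf x).trans h2,
    h3.imp (fun e => by simpa using congrArg f e) fun e => by simpa using congrArg f e, by rw [← h4]; simp,
    by simpa using congrArg f h5, by simpa using congrArg f h6, fun A _ φ hA k1 k2 k3 => MAx.sep.{u, v} hA fun χ => ?_⟩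
  rw [← map_one f]
  refine h7 _ (fun m => χ (φ (f m))) (fun w => ULift.ext _ _ (by revert w; rintro ⟨w⟩; revert w; decide))
    (fun m => by rw [map_mul, k1]) (fun m => by rw [map_mul, k2]) fun m y hy => ?_
  rw [← map_prod]
  simp only [map_mul f, map_pow f]
  rw [k3 (f m) (f y) ((orderOf_injective f hf y).trans hy), map_one]

end Map

namespace MAx

open Equiv Equiv.Perm

/-- an even permutation given by two cycles -/
def cy {n : ℕ} (l l' : List (Fin n)) (h : sign (l.formPerm * l'.formPerm) = 1 := by decide +kernel) :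
    alternatingGroup (Fin n) := ⟨l.formPerm * l'.formPerm, mem_alternatingGroup.2 h⟩

theorem ord {n p : ℕ} [Fact p.Prime] {g : alternatingGroup (Fin n)} (h1 : g.1 ^ p = 1) (h2 : g.1 ≠ 1) :
    orderOf g = p := orderOf_eq_prime (Subtype.ext h1) fun e => h2 (congrArg Subtype.val e)

instance : Fact (Nat.Prime 5) := ⟨Nat.prime_five⟩
instance : Fact (Nat.Prime 7) := ⟨Nat.prime_seven⟩

theorem q5 : Q4 (alternatingGroup (Fin 5)) :=
  ⟨cy [0, 1] [2, 3], cy [0, 2] [1, 3], cy [1, 2, 3] [], by decide +kernel, by decide +kernel, by decide +kernel,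
    by decide +kernel, by decide +kernel, by decide +kernel, ord (by decide +kernel) (by decide +kernel)⟩

theorem q6 : Q4 (alternatingGroup (Fin 6)) :=
  ⟨cy [0, 1] [2, 3], cy [0, 2] [1, 3], cy [1, 2, 3] [], by decide +kernel, by decide +kernel, by decide +kernel,
    by decide +kernel, by decide +kernel, by decide +kernel, ord (by decide +kernel) (by decide +kernel)⟩

theorem q7 : Q4 (alternatingGroup (Fin 7)) :=
  ⟨cy [0, 1] [2, 3], cy [0, 2] [1, 3], cy [1, 2, 3] [], by decide +kernel, by decide +kernel, by decide +kernel,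
    by decide +kernel, by decide +kernel, by decide +kernel, ord (by decide +kernel) (by decide +kernel)⟩

theorem d5 : D5 (alternatingGroup (Fin 5)) :=
  ⟨cy [0, 1, 2, 3, 4] [], cy [1, 4] [2, 3], ord (by decide +kernel) (by decide +kernel), by decide +kernel⟩

theorem d6 : D5 (alternatingGroup (Fin 6)) :=
  ⟨cy [0, 1, 2, 3, 4] [], cy [1, 4] [2, 3], ord (by decide +kernel) (by decide +kernel), by decide +kernel⟩

theorem f5 : F5 (alternatingGroup (Fin 7)) :=
  ⟨cy [0, 1, 2, 3, 4] [], cy [1, 2, 4, 3] [5, 6], ord (by decide +kernel) (by decide +kernel), by decide +kernel⟩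

theorem c7 : C7 (alternatingGroup (Fin 7)) := by
  refine ⟨cy [0, 1, 2] [], cy [3, 4, 5] [], cy [3, 4] [5, 6], cy [2, 3, 5, 6, 4] [], cy [0, 1, 3, 2, 5, 4, 6] [],
    cy [0, 3] [1, 4] * cy [2, 5, 6] [], cy [0, 3] [1, 5, 2, 4],
    ⟨ord (by decide +kernel) (by decide +kernel), ord (by decide +kernel) (by decide +kernel),
      (commute_iff_eq _ _).2 (by decide +kernel), ?_⟩, by decide +kernel, (commute_iff_eq _ _).2 (by decide +kernel),
    ord (by decide +kernel) (by decide +kernel), by decide +kernel, by decide +kernel, by decide +kernel,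
    ord (by decide +kernel) (by decide +kernel), Or.inl (by decide +kernel)⟩
  rintro ⟨k, hk⟩
  have := zpow_apply_eq_self_of_apply_eq_self (f := (cy ([0, 1, 2] : List (Fin 7)) []).1) (x := 3)
    (by decide +kernel) k
  rw [← Subgroup.coe_zpow, show cy ([0, 1, 2] : List (Fin 7)) [] ^ k = _ from hk] at this
  revert this; decide +kernel

theorem no8 (g : alternatingGroup (Fin 7)) : orderOf g ≠ 8 := fun h => by
  have : orderOf g.1 ∣ 420 := by
    rw [← lcm_cycleType]
    refine Multiset.lcm_dvd.2 fun n hn => ?_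
    have h1 := two_le_of_mem_cycleType hn
    have h2 := (le_card_support_of_mem_cycleType hn).trans (Finset.card_le_univ _)
    rw [Fintype.card_fin] at h2
    interval_cases n <;> decide
  rw [Subgroup.orderOf_coe, h] at this
  revert this; decide

end MAx

open MAx in
theorem maThm : MAThm.{u} := fun S _ =>
  ⟨fun ⟨e⟩ => ⟨q5.map (f := e.symm.toMonoidHom) e.symm.injective, d5.map (f := e.symm.toMonoidHom) e.symm.injective⟩,
    fun ⟨e⟩ => ⟨q6.map (f := e.symm.toMonoidHom) e.symm.injective, d6.map (f := e.symm.toMonoidHom) e.symm.injective⟩,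
    fun ⟨e⟩ => ⟨q7.map (f := e.symm.toMonoidHom) e.symm.injective, f5.map (f := e.symm.toMonoidHom) e.symm.injective,
      c7.map (f := e.symm.toMonoidHom) e.symm.injective, fun g h => no8 (e g) ((e.orderOf_eq g).trans h)⟩⟩

end CL.O8
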