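/-
Project O8: the general steps on maximal 2-local subgroups (job O8-MX).
-/
import Cfsg.Agent.O8.B
import Cfsg.Agent.O8.FFB
import Cfsg.Agent.Fgs.MacW5

set_option autoImplicit false
set_option linter.unusedVariables false

open Cfsg Subgroup CL.Grp CL.Even CL.Loc CL.NGrp
open scoped commutatorElement

namespace CL.O8

universe u

theorem mxThm (h0 : NS0Thm.{u}) : MXThm.{u} := by
  intro G _ _ h8 hL R hR hne hns
  obtain ⟨M, hM, ⟨R', h1, h2, e⟩, hmax⟩ := Finite.exists_le_maximal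
    (p := fun M : Subgroup G => ∃ R' : Subgroup G, IsPGroup 2 R' ∧ R' ≠ ⊥ ∧ 𝒩(R') = M) ⟨R, hR, hne, rfl⟩
  have mx : ∀ R : Subgroup G, IsPGroup 2 R → R ≠ ⊥ → M ≤ 𝒩(R) → 𝒩(R) = M := fun R a b c =>
    le_antisymm (hmax ⟨R, a, b, rfl⟩ c) c
  have q0 : pCoreOf 2 M ≠ ⊥ := fun a => h2 (le_bot_iff.1 (a ▸ le_core (e ▸ le_normalizer) h1 e.ge))
  have l0 : Lc0 M (pCoreOf 2 M) :=
    { two := core_isP M
      ne := q0
      le := core_le M
      nQ := self_le_norm_core M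
      chr := e ▸ hL R' h1 h2
      core := rfl
      ns := fun a => hns (Group.isSolvable_of_isSolvable_injective (inclusion_injective hM)) }
  refine ⟨M, _, ⟨l0, mx _ l0.two q0 l0.nQ, mx, ?_⟩, hM⟩
  have v0 := ozc_ne_bot l0.two q0
  have nV := mx _ (ozc_isP _) v0 (le_norm_ozc l0.nQ)
  generalize pCoreOf 2 M = Q at *
  have hC : 𝒞(𝛀[2] Q) ≤ M := (cent_le_norm _).trans nV.le
  obtain ⟨z, hz, z1⟩ := (bot_or_exists_ne_one _).resolve_left v0
  have sC : Group.IsSolvable 𝒞(𝛀[2] Q) :=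
    h8.solv_of_cent (z := z) (by rw [← pow_two]; exact (mem_ozc.1 hz).2.2) z1 fun g hg => (hg z hz).symm
  have nQ : (Q.subgroupOf M).Normal := (normal_subgroupOf_iff_le_normalizer l0.le).2 l0.nQ
  have nC : (𝒞(𝛀[2] Q).subgroupOf M).Normal :=
    (normal_subgroupOf_iff_le_normalizer hC).2 (nV.ge.trans (norm_le_norm_cent _))
  have s1 : Group.IsSolvable (𝒞(𝛀[2] Q).subgroupOf M) :=
    Group.isSolvable_of_isSolvable_injective (f := (subgroupOfEquivOfLe hC).toMonoidHom) (subgroupOfEquivOfLe hC).injective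
  have k := h0 G h8 M Q _ (QuotientGroup.mk' (Q.subgroupOf M)) l0
    ⟨QuotientGroup.mk'_surjective _, fun m => (QuotientGroup.eq_one_iff m).trans mem_subgroupOf⟩
    ((𝒞(𝛀[2] Q).subgroupOf M).map (QuotientGroup.mk' _)) (nC.map _ (QuotientGroup.mk'_surjective _))
    (Group.isSolvable_of_surjective (MonoidHom.subgroupMap_surjective _ _))
  rw [Subgroup.map_eq_bot_iff, QuotientGroup.ker_mk'] at k
  exact fun g hg => k (x := ⟨g, hC hg⟩) hg

theorem rkThm : RKThm.{u} := by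
  intro G _ _ T F hT hF hE h8 hc
  obtain ⟨P, rfl⟩ := isSylowIn_top_iff.1 hT
  refine CL.Fgs.MacW.secRank_of_sylow P (CL.Fgs.MacW.harada_E8 P.2 (A := F.subgroupOf P)
    (fun a ha => Subtype.ext (by simpa [pow_two] using hE.2 a ha)) ?_ fun x hx =>
      hc ⟨x.2, fun a ha => congrArg Subtype.val (hx ⟨a, hF ha⟩ ha)⟩)
  rw [Nat.card_congr (subgroupOfEquivOfLe hF).toEquiv, h8]

theorem jqThm : JQThm.{u} := by
  intro G _ _ M Q T h hT hJ
  have hQ : Q ≤ T := h.core ▸ core_le_syl hT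
  have eJ : 𝐉[2] Q = 𝐉[2] T := thompsonSubgroupOf_eq_of_le hJ hQ
  have nJ : 𝒩(𝐉[2] T) = M := eJ ▸ h.max _ (h.two.to_le (thompsonSubgroupOf_le Q))
    (thompsonSubgroupOf_ne_bot_of_isPGroup h.two h.ne) (le_norm_thom h.nQ)
  have nT : 𝒩(T) ≤ M := nJ ▸ le_norm_thom le_rfl
  have sT : IsSylowIn 2 T ⊤ := isSylowIn_of_maximal le_top hT.isPGroup fun U hU hTU _ => by
    by_contra a
    have b := lt_inf_normalizer_of_isPGroup hU (lt_of_le_of_ne hTU (Ne.symm a))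
    exact b.ne' (hT.eq_of_le hU.to_inf_left b.le (inf_le_right.trans nT))
  refine ⟨nJ, nT, sT, fun hZ => .inr ⟨T, Q, sT, h.two, h.ne, h.eq ▸ sup_le hZ (iSup_le ?_)⟩⟩
  have bQ : 𝐁[2] T ≤ Q :=
    (bau_le_cent_of ((ozc_le Q).trans hQ) (ozc_elem Q) ((ozc_le_cent Q).trans (cent_mono hJ))).trans h.cV
  have nB : M ≤ 𝒩(𝐁[2] T) := bau_eq_of_le bQ hQ ▸ le_norm_bau h.nQ
  rintro ⟨C, c1, c2, c3⟩
  have k := normalizer_le_normalizer_map_subtype (C.subgroupOf (𝐁[2] T))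
  rw [subgroupOf_map_subtype, inf_eq_left.2 c1] at k
  exact (h.max C (h.two.to_le (c1.trans bQ)) c2 (nB.trans k)).le

theorem ofThm : OFThm.{u} := by
  intro G _ _ M Q T A h hQ hT hA
  have k := FFB.off hA ((ozc_le Q).trans hQ) (ozc_elem (p := 2) Q)
  rwa [le_antisymm h.cV (le_cent_ozc Q)] at k

end CL.O8
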