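/-
Project O8: the nonsolvable local subgroups.
-/
import Cfsg.Agent.O8.A
import Cfsg.Agent.S2119

set_option autoImplicit false
set_option linter.unusedVariables false

open Cfsg Subgroup CL.Grp CL.Even CL.Loc CL.NGrp
open scoped commutatorElement

namespace CL.O8

universe u

namespace NS

theorem quo_comp {G X Y : Type*} [Group G] [Group X] [Group Y] {L Q : Subgroup G} {π : L →* X} (h : Quo L Q π)
    (e : X ≃* Y) : Quo L Q (e.toMonoidHom.comp π) :=
  ⟨e.surjective.comp h.surj, fun m => e.map_eq_one_iff.trans (h.ker m)⟩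

variable {X : Type u} [Group X] {S : Subgroup X}

theorem equiv_of_index (h : S.index = 1) : Nonempty (X ≃* S) :=
  ⟨topEquiv.symm.trans (MulEquiv.subgroupCongr (index_eq_one.1 h).symm)⟩

theorem card_alt {n m : ℕ} (hn : 2 ≤ n) (e : S ≃* alternatingGroup (Fin n)) (hm : n.factorial / 2 = m) :
    Nat.card S = m := by
  have : Nontrivial (Fin n) := Fin.nontrivial_iff_two_le.2 hn
  rw [Nat.card_congr e.toEquiv, nat_card_alternatingGroup, Nat.card_eq_fintype_card, Fintype.card_fin, hm]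

theorem s5 [Finite X] (hn : S.Normal) (hc : 𝒞(S) = ⊥) (hi : S.index = 2) (e : S ≃* alternatingGroup (Fin 5)) :
    Nonempty (X ≃* Equiv.Perm (Fin 5)) := by
  let a := MulEquiv.ofBijective _ (Cfsg.Agent.S2119.result 5 (by norm_num) (by norm_num))
  let f : X →* Equiv.Perm (Fin 5) :=
    ((MulAut.congr e).trans a.symm).toMonoidHom.comp (MulAut.conjNormal : X →* MulAut S)
  have hf : Function.Injective f := by
    refine ((MulAut.congr e).trans a.symm).injective.comp ((injective_iff_map_eq_one _).2 fun x hx => ?_)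
    refine mem_bot.1 (hc ▸ mem_centralizer_iff.2 fun y hy => ?_)
    have := congrArg Subtype.val (DFunLike.congr_fun hx ⟨y, hy⟩)
    exact (mul_inv_eq_iff_eq_mul.1 this).symm
  refine ⟨MulEquiv.ofBijective f (hf.bijective_of_nat_card_le ?_)⟩
  rw [← S.index_mul_card, hi, card_alt (by norm_num) e rfl, Nat.card_eq_fintype_card, Fintype.card_perm,
    Fintype.card_fin]
  decide

theorem c34 (h : C34 S) : C34 X := by
  obtain ⟨e, f, x, g, h, k, n, ox, h1, h2, h3, h4, h5⟩ := h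
  refine ⟨e, f, x, g, h, k, ⟨(orderOf_coe e).trans n.oe, (orderOf_coe f).trans n.of,
    congrArg Subtype.val n.comm.eq, fun ⟨j, hj⟩ => n.nm ⟨j, Subtype.ext hj⟩⟩, (orderOf_coe x).trans ox,
    h1.imp (congrArg Subtype.val) (congrArg Subtype.val), congrArg Subtype.val h2, congrArg Subtype.val h3,
    congrArg Subtype.val h4, fun A _ φ a b c d => ?_⟩
  exact h5 A (fun s => φ s) a (fun m => b m) (fun m => c m) fun g x hx => d g x ((orderOf_coe x).trans hx)

end NS

theorem nsThm (h0 : NS0Thm.{u}) (hA : ASThm.{u}) (hI : IXThm.{u}) (hMA : MAThm.{u}) (h6 : M6Thm.{u})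
    (h7 : M7Thm.{u}) (h34 : M34Thm.{u}) (h62 : M62Thm.{u}) (k62 : K62Thm.{u}) (k7 : KA7Thm.{u}) (k34 : K34Thm.{u})
    (k76 : K76Thm.{u}) : NSThm.{u} := by
  intro G _ _ h L Q hL ih
  have : (Q.subgroupOf L).Normal := (normal_subgroupOf_iff_le_normalizer hL.le).2 hL.nQ
  have hq : Quo L Q (QuotientGroup.mk' (Q.subgroupOf L)) :=
    ⟨QuotientGroup.mk'_surjective _, fun m => QuotientGroup.eq_one_iff m⟩
  have hX : Ord8 (L ⧸ Q.subgroupOf L) := (h.sub L).quot _
  generalize QuotientGroup.mk' (Q.subgroupOf L) = π at hq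
  have hnt : Nontrivial (L ⧸ Q.subgroupOf L) := by
    by_contra hs
    have := not_nontrivial_iff_subsingleton.1 hs
    have hp : IsPGroup 2 L := hL.two.to_le fun x hx => (hq.ker ⟨x, hx⟩).1 (Subsingleton.elim _ _)
    have := hp.isNilpotent
    exact hL.ns inferInstance
  obtain ⟨S, hn, -, -, hS, hc⟩ := hA _ hX hnt (h0 G h L Q _ π hL hq)
    (ih.mono (Nat.card_le_card_of_surjective π hq.surj))
  have hI := hI _ hX S hn
  rcases hS with ⟨n, rfl | rfl | rfl, ⟨e⟩⟩ | hS | hS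
  · rw [NS.card_alt (m := 60) (by norm_num) e rfl] at hI
    rcases (hI (by norm_num) (by norm_num) (by norm_num) (by norm_num)).2.2.1 ((hMA S).1 ⟨e⟩).2 with i | i
    · obtain ⟨f⟩ := NS.equiv_of_index i
      exact .inl ⟨_, NS.quo_comp hq (f.trans e)⟩
    · obtain ⟨f⟩ := NS.s5 hn hc i e
      exact .inr (.inl ⟨_, NS.quo_comp hq f⟩)
  · rw [NS.card_alt (m := 360) (by norm_num) e rfl] at hI
    rcases (hI (by norm_num) (by norm_num) (by norm_num) (by norm_num)).2.2.1 ((hMA S).2.1 ⟨e⟩).2 with i | i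
    · obtain ⟨f⟩ := NS.equiv_of_index i
      obtain ⟨z, a, b, c, d, k⟩ := h6 _ ⟨f.trans e⟩
      exact .inr (.inr ⟨5, _, _, π, z, a, b, c, d, hq, k⟩)
    · exact ((k62 G h L Q _ π hL.toCov hq).2 (h62 _ hX S hn i hc ⟨e⟩)).elim
  · rw [NS.card_alt (m := 2520) (by norm_num) e rfl] at hI
    obtain ⟨f⟩ := NS.equiv_of_index
      ((hI (by norm_num) (by norm_num) (by norm_num) (by norm_num)).2.2.2.1 ((hMA S).2.2 ⟨e⟩).2.1)
    exact (k7 G h L Q _ π hL.toCov hq ((hMA _).2.2 ⟨f.trans e⟩).2.2.1).elim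
  · obtain ⟨c, -, f7, -⟩ := h7 S hS
    rw [c] at hI
    rcases (hI (by norm_num) (by norm_num) (by norm_num) (by norm_num)).2.2.2.2 f7 with i | ⟨-, x, g, ox, k⟩
    · obtain ⟨f⟩ := NS.equiv_of_index i
      obtain ⟨F, _, _, hF, ⟨e⟩⟩ := hS
      obtain ⟨-, -, -, z, a, b, c, d, k⟩ := h7 _ ⟨F, _, _, hF, ⟨f.trans e⟩⟩
      exact .inr (.inr ⟨7, _, _, π, z, a, b, c, d, hq, k⟩)
    · obtain ⟨m, rfl, om⟩ := hq.lift_odd hL.two (x := x) (by rw [ox]; decide)
      obtain ⟨n, rfl⟩ := hq.surj g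
      refine (k76 G h Q m n hL.two hL.ne (hL.nQ m.2) (hL.nQ n.2) (om.trans ox) (k.imp (fun k => ?_) fun k => ?_)).elim
      · exact (hq.eq_iff (a := n * m * n⁻¹) (b := m ^ 3)).1 (by simpa using k)
      · exact (hq.eq_iff (a := n * m * n⁻¹) (b := m ^ 5)).1 (by simpa using k)
  · exact (k34 G h L Q _ π hL.toCov hq (NS.c34 (h34 S hS).2.2.2.1)).elim

end CL.O8
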