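/-
Project O8 (S3432): the quotient of a nonsolvable group of characteristic 2 by its `2`-core is almost simple.
-/
import Cfsg.Agent.O8.A
import Cfsg.Agent.Inv.Ord6B

set_option autoImplicit false
set_option linter.unusedVariables false

open Cfsg Subgroup CL.Grp CL.Even CL.Loc CL.NGrp
open scoped commutatorElement

namespace CL.O8

universe u

namespace NS0

variable {G : Type*} [Group G] [Finite G]

theorem pr {n : ℕ} (hn : n = 5 ∨ n = 7) : n.Prime := by rcases hn with rfl | rfl <;> norm_num

/-- a subgroup centralising an element of order 5 or 7 is solvable -/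
theorem solv_cent (h : Ord8 G) {x : G} (hx : orderOf x = 5 ∨ orderOf x = 7) {C : Subgroup G}
    (hC : ∀ y ∈ C, Commute x y) : Group.IsSolvable C := by
  have := Fact.mk (pr hx)
  have hP : IsPGroup (orderOf x) C := fun y => ⟨1, Subtype.ext (by
    rw [pow_one, SubgroupClass.coe_pow, OneMemClass.coe_one]
    by_cases e : orderOf x ∣ orderOf (y : G)
    · rw [← h.eq_of_dvd (by omega) e, pow_orderOf_eq_one]
    · rw [h.fpf hx (hC y y.2) ((pr hx).coprime_iff_not_dvd.2 e), one_pow])⟩
  have := hP.isNilpotent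
  infer_instance

/-- a nonsolvable minimal normal subgroup is simple -/
theorem simple_of_min (h : Ord8 G) {M : Subgroup G} (hM : IsMinNormal M) (hs : ¬ Group.IsSolvable M) :
    IsSimpleGroup M := by
  have := hM.nontrivial
  obtain ⟨T, hT⟩ := exists_isMinNormal M
  have hc := hM.eq_bot_or_top_of_characteristic
  have := CL.Perm.isSimpleGroup_of_isMinNormal_of_charSimple (fun K _ => hc K) hT
  obtain ⟨m, hm, ⟨e⟩⟩ := CL.Perm.exists_mulEquiv_pi_of_charSimple (fun K _ => hc K) hT
  obtain _ | _ | m := m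
  · omega
  · exact (e.trans (MulEquiv.piUnique fun _ : Fin 1 => T)).isSimpleGroup
  · exfalso
    have hs' : ¬ Group.IsSolvable T := fun k => hs (Group.isSolvable_of_comm fun a b => e.injective (by
      rw [map_mul, map_mul]
      exact funext fun i => IsSimpleGroup.comm_iff_isSolvable.2 k _ _))
    obtain ⟨x, -, hx⟩ := ((h.sub M).sub T).exists_57 (L := ⊤)
      fun k => hs' (Group.isSolvable_of_surjective (f := (⊤ : Subgroup T).subtype) fun y => ⟨⟨y, trivial⟩, rfl⟩)
    have hi : ∀ i : Fin (m + 2), Function.Injective (MonoidHom.mulSingle (fun _ : Fin (m + 2) => T) i) := fun i =>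
      Pi.mulSingle_injective (M := fun _ : Fin (m + 2) => T) i
    have h1 := solv_cent ((h.sub M).of_surj e.toMonoidHom e.surjective)
      (x := MonoidHom.mulSingle (fun _ : Fin (m + 2) => T) 0 x) (by rwa [orderOf_injective _ (hi 0)])
      (C := (MonoidHom.mulSingle (fun _ : Fin (m + 2) => T) 1).range) (by
        rintro _ ⟨y, rfl⟩
        exact Pi.mulSingle_commute (f := fun _ : Fin (m + 2) => T) (by simp) x y)
    exact hs' (Group.isSolvable_of_isSolvable_injective (f := (MonoidHom.ofInjective (hi 1)).toMonoidHom)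
      (MonoidHom.ofInjective (hi 1)).injective)

end NS0

open NS0

theorem ns0Thm (h57 : O57Thm.{u}) : NS0Thm.{u} := by
  intro G _ _ h L Q X _ π hL hq N hN hs
  by_contra hne
  have : Finite X := Finite.of_surjective π hq.surj
  have hX : Ord8 X := (h.sub L).of_surj π hq.surj
  have hk : π.ker = Q.subgroupOf L := by ext m; exact hq.ker m
  have hk2 : IsPGroup 2 π.ker := hk ▸ hL.two.comap_subtype
  have hns : ¬ Group.IsSolvable X := fun k => hL.ns (by
    have := hk2.isNilpotent
    exact Group.isSolvable_of_ker_le_range π.ker.subtype π (by rw [range_subtype]))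
  obtain ⟨A, p, hp, hA, -, he⟩ := exists_isMinNormal_isElementaryAbelian_le N hne hs
  have := hA.normal
  have := Fact.mk hp
  have hAp : IsPGroup p A := ea_isPGroup he
  have hd : p ∣ Nat.card X := by
    have := hA.nontrivial
    obtain ⟨n, hn, e⟩ := hAp.nontrivial_iff_card.1 this
    exact ((dvd_pow_self p hn.ne').trans e.symm.dvd).trans (card_subgroup_dvd_card A)
  refine hA.ne_bot (eq_bot_iff.2 ?_)
  rcases hX.primes hp hd with rfl | rfl | rfl | rfl
  · intro a ha
    obtain ⟨m, rfl⟩ := hq.surj a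
    have h1 : A.comap π ≤ pCore 2 L := le_pCore (hAp.comap_of_ker_isPGroup π hk2)
    exact (hq.ker m).2 (hL.core ▸ mem_map_of_mem L.subtype (h1 ha))
  · obtain ⟨x, -, hx⟩ := hX.exists_57 (L := ⊤)
      fun k => hns (Group.isSolvable_of_surjective (f := (⊤ : Subgroup X).subtype) fun y => ⟨⟨y, trivial⟩, rfl⟩)
    obtain ⟨g, rfl⟩ := hq.surj x
    refine (CL.OrdSix.kill π (m := orderOf (π g)) Nat.prime_two Nat.prime_three (by decide) hk2 le_rfl (fun k => ?_) hAp
      (fun a _ => hq.surj a) (g := g) (le_normalizer_of_normal (mem_top _)) (orderOf_pos _)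
      (fun i h1 h2 a ha hc => ?_) fun y hy => ?_).trans ?_
    · obtain ⟨n, hn⟩ := hk2.exists_card_eq
      exact absurd (Nat.prime_three.dvd_of_dvd_pow (hn ▸ k)) (by decide)
    · obtain ⟨k, hk⟩ := hAp ⟨a, ha⟩
      refine hX.fpf_pow (x := π g ^ i) ?_ (Eq.symm hc) (.inr rfl) (congrArg Subtype.val hk)
      rwa [((Nat.coprime_of_lt_prime h1.ne' h2 (pr hx))).orderOf_pow]
    · rw [← (h.sub L).eq_of_dvd (x := y) (p := orderOf (π g)) (by omega) (hy ▸ orderOf_map_dvd π y), pow_orderOf_eq_one]
    · rintro _ ⟨c, hc, rfl⟩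
      exact (hq.ker c).2 (hL.chr ⟨c.2, fun q hq' =>
        congrArg Subtype.val (hc ⟨q, hL.le hq'⟩ ((hq.ker ⟨q, hL.le hq'⟩).2 hq'))⟩)
  · exact (h57 X hX).1 hns |>.1 ▸ le_pCore hAp
  · exact (h57 X hX).1 hns |>.2 ▸ le_pCore hAp

theorem asThm : ASThm.{u} := by
  intro X _ _ h _ hN hI
  obtain ⟨S, hS⟩ := exists_isMinNormal X
  have := hS.normal
  have hs : ¬ Group.IsSolvable S := fun k => hS.ne_bot (hN S hS.normal k)
  have := simple_of_min h hS hs
  obtain ⟨x, hx, ho⟩ := h.exists_57 hs
  exact ⟨S, hS.normal, this, hs, hI S hs (h.sub S) (card_le_card_group S),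
    hN _ inferInstance (solv_cent h ho fun y hy => hy x hx)⟩

end CL.O8
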