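/-
Project O8: normal 5- and 7-subgroups, and the index of a normal subgroup.
-/
import Cfsg.Agent.O8.A
import Cfsg.Agent.Inv.Ord6B
import Cfsg.Agent.Odd.FT
import Cfsg.Agent.Grp.Frob2
import Cfsg.Agent.Grp.Coprime2

set_option autoImplicit false
set_option linter.unusedVariables false
set_option linter.unusedSectionVars false

open Cfsg Subgroup CL.Grp CL.Even CL.Loc CL.NGrp
open scoped commutatorElement

namespace CL.O8

universe u

namespace O57

variable {G : Type u} [Group G] [Finite G] {p : ℕ} {S K : Subgroup G} {x y t : G}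

theorem pr (hp : p = 5 ∨ p = 7) : p.Prime := by rcases hp with rfl | rfl <;> norm_num

theorem idx {N : Subgroup G} (h : ∀ a ∈ N, ∀ b ∈ N, a ∉ S → b ∉ S → a * b ∈ S) : S.relIndex N = 1 ∨ S.relIndex N = 2 := by
  by_cases e : N ≤ S
  · exact .inl (relIndex_eq_one.2 e)
  obtain ⟨a, ha, hn⟩ := SetLike.not_le_iff_exists.1 e
  exact .inr (relIndex_eq_two_iff.2 ⟨a, ha, fun b hb => by
    by_cases c : b ∈ S
    exacts [.inr ⟨c, fun d => hn ((mul_mem_cancel_left c).1 d)⟩, .inl ⟨h b hb a ha c hn, c⟩]⟩)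

theorem frat [Fact p.Prime] [S.Normal] (hK : IsSylowIn p K S) : S.index = S.relIndex 𝒩(K) := by
  rw [← relIndex_sup_right, ← relIndex_top_right]
  congr 1
  refine (eq_top_iff.2 fun g _ => ?_).symm
  obtain ⟨n, hn, hg⟩ := hK.frattini (H := ⊤) le_normalizer_of_normal (mem_top g)
  exact (mul_mem_cancel_left (mem_sup_right hn)).1 (mem_sup_left hg)

theorem act (hx : x ≠ 1) {g : G} (hg : g ∈ 𝒩(zpowers x)) : ∃ k, 0 < k ∧ k < orderOf x ∧ g * x * g⁻¹ = x ^ k := by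
  obtain ⟨n, hn⟩ := mem_powers_iff_mem_zpowers.2 (conj_mem hg (mem_zpowers x))
  refine ⟨n % orderOf x, Nat.pos_of_ne_zero fun e => hx ?_, Nat.mod_lt _ (orderOf_pos x),
    hn.symm.trans (pow_mod_orderOf x n).symm⟩
  have : x ^ n = 1 := by rw [← pow_mod_orderOf, e, pow_zero]
  simpa [this] using hn.symm

theorem act_mul {a b : G} {k l : ℕ} (ha : a * x * a⁻¹ = x ^ k) (hb : b * x * b⁻¹ = x ^ l) :
    a * b * x * (a * b)⁻¹ = x ^ (k * l % orderOf x) := by
  rw [pow_mod_orderOf, pow_mul, ← ha, conj_pow, ← hb]; group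

variable (h : Ord8 G) (hp : p = 5 ∨ p = 7)
include h hp

theorem ord (hx : ∃ k, x ^ p ^ k = 1) (h1 : x ≠ 1) : orderOf x = p := by
  have := Fact.mk (pr hp)
  obtain ⟨k, hk⟩ := hx
  refine orderOf_eq_prime ?_ h1
  rcases hp with rfl | rfl
  exacts [h.five_el hk, h.seven_el hk]

theorem cent_el (hx : orderOf x = p) (hc : Commute x y) : y ^ p = 1 := by
  by_cases e : p ∣ orderOf y
  · rw [← h.eq_of_dvd (by omega) e, pow_orderOf_eq_one]
  · rw [h.fpf (hx ▸ hp) hc (hx ▸ (pr hp).coprime_iff_not_dvd.2 e), one_pow]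

theorem dvd_sub (hy : orderOf y = p) (hn : y ∈ 𝒩(K)) (hK : ¬ p ∣ Nat.card K) : p ∣ Nat.card K - 1 := by
  have := card_dvd_card_sub_one_of_fpf (zpowers_le.2 hn) fun a ha a1 => eq_bot_iff.2 fun k hk => by
    have e : orderOf a = p := ord h hp (isPGroup_iff_forall.1
      (isPGroup_zpowers (k := 1) (by rw [pow_one, ← hy, pow_orderOf_eq_one])) a ha) a1
    exact h.fpf (e ▸ hp) (mem_fx.1 hk).2.symm (e ▸ (pr hp).coprime_iff_not_dvd.2 fun d =>
      hK (d.trans (K.orderOf_dvd_natCard hk.1)))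
  rwa [Nat.card_zpowers, hy] at this

theorem core (h0 : pCore p G ≠ ⊥) (t2 : t * t = 1) (t1 : t ≠ 1) :
    (t : G ⧸ pCore p G) ≠ 1 ∧ ∀ g : G ⧸ pCore p G, Commute g t := by
  have := Fact.mk (pr hp)
  have hP := pCore_isPGroup p G
  have ho : ∀ k ∈ pCore p G, k ≠ 1 → orderOf k = p := fun k hk => ord h hp (isPGroup_iff_forall.1 hP k hk)
  have hf : ∀ k ∈ pCore p G, t * k = k * t → k = 1 := fun k hk hc => by_contra fun k1 =>
    t1 (h.fpf_pow (ho k hk k1 ▸ hp) (Commute.symm hc) (.inl rfl) (k := 1) (by rw [pow_one, pow_two, t2]))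
  have h1 : ∀ k ∈ pCore p G, t * k * t⁻¹ = k⁻¹ := fun k hk =>
    CL.OrdSix.inv_of_fpf (fun k _ => t2 ▸ Commute.one_left k) hf hk
  obtain ⟨x, hx, x1⟩ := (pCore p G).bot_or_exists_ne_one.resolve_left h0
  have hC : 𝒞(pCore p G) ≤ pCore p G := le_pCore fun g => ⟨1, Subtype.ext (by
    simpa using cent_el h hp (ho x hx x1) (g.2 x hx))⟩
  refine ⟨fun e => t1 (hf t ((QuotientGroup.eq_one_iff t).1 e) rfl), fun g => ?_⟩
  obtain ⟨g, rfl⟩ := QuotientGroup.mk_surjective g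
  exact Commute.symm (commutatorElement_eq_one_iff_commute.1 ((QuotientGroup.eq_one_iff ⁅t, g⁆).2
    (hC fun k hk => (CL.OrdSix.comm_cent h1 g hk).symm)))

theorem core_bot (hs : ¬ Group.IsSolvable G) : pCore p G = ⊥ := by
  have := Fact.mk (pr hp)
  by_contra h0
  obtain ⟨t, ht⟩ := exists_prime_orderOf_dvd_card' (G := G) 2
    (even_iff_two_dvd.1 (Nat.not_odd_iff_even.1 fun e => hs (CL.Odd.feit_thompson e)))
  have t2 : t * t = 1 := by rw [← sq, ← ht, pow_orderOf_eq_one]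
  obtain ⟨h1, h2⟩ := core h hp h0 t2 fun e => by simp [e] at ht
  have := (pCore_isPGroup p G).isNilpotent
  have := (h.quot (pCore p G)).solv_of_cent (L := ⊤) (by rw [← QuotientGroup.mk_mul, t2]; rfl) h1 fun g _ => h2 g
  exact hs ((Group.isSolvable_iff_subgroup_quotient (pCore p G)).2
    ⟨inferInstance, Group.isSolvable_of_surjective (f := (⊤ : Subgroup _).subtype) fun g => ⟨⟨g, trivial⟩, rfl⟩⟩)

theorem core_bot' (hd : 70 ∣ Nat.card G) : pCore p G = ⊥ := by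
  have := Fact.mk (pr hp)
  by_contra h0
  obtain ⟨t, ht⟩ := exists_prime_orderOf_dvd_card' (G := G) 2 (Dvd.dvd.trans (by norm_num) hd)
  have t2 : t * t = 1 := by rw [← sq, ← ht, pow_orderOf_eq_one]
  obtain ⟨h1, h2⟩ := core h hp h0 t2 fun e => by simp [e] at ht
  obtain ⟨s, hs, ne⟩ : ∃ s, (s = 5 ∨ s = 7) ∧ s ≠ p := ⟨12 - p, by omega, by omega⟩
  have := Fact.mk (pr hs)
  have h3 : s ∣ Nat.card G := Dvd.dvd.trans (by rcases hs with rfl | rfl <;> norm_num) hd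
  obtain ⟨k, hk⟩ := IsPGroup.iff_card.1 (pCore_isPGroup p G)
  rw [card_eq_card_quotient_mul_card_subgroup (pCore p G), hk] at h3
  obtain ⟨y, hy⟩ := exists_prime_orderOf_dvd_card' s (((pr hs).dvd_mul.1 h3).resolve_right fun e =>
    ne ((Nat.prime_dvd_prime_iff_eq (pr hs) (pr hp)).1 ((pr hs).dvd_of_dvd_pow e)))
  exact h1 ((h.quot _).fpf_pow (hy ▸ hs) (h2 y) (.inl rfl) (k := 1)
    (by rw [pow_one, pow_two, ← QuotientGroup.mk_mul, t2]; rfl))

theorem not_index [S.Normal] (h3 : 3 ∣ Nat.card S) (h27 : ¬ 27 ∣ Nat.card S) : ¬ p ∣ S.index := fun hd => by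
  have := Fact.mk (pr hp)
  have := Fact.mk Nat.prime_three
  obtain ⟨P, hP⟩ := exists_isSylowIn (p := 3) S
  obtain ⟨k, hk⟩ := IsPGroup.iff_card.1 hP.isPGroup
  have h1 := card_mul_relIndex hP.le
  have h2 : Nat.card P = 3 ∨ Nat.card P = 9 := by
    rcases k with _ | _ | _ | k
    · rw [hk, pow_zero, one_mul] at h1
      exact (hP.not_dvd (h1 ▸ h3)).elim
    · exact .inl hk
    · exact .inr hk
    · exact (h27 (Dvd.dvd.trans ⟨3 ^ k, by rw [hk]; ring⟩ (card_dvd_of_le hP.le))).elim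
  rw [frat hP] at hd
  obtain ⟨y, hy⟩ := exists_prime_orderOf_dvd_card' (G := 𝒩(P)) p (hd.trans (index_dvd_card _))
  have := dvd_sub h hp ((orderOf_coe y).trans hy) y.2
  rcases h2 with e | e <;> rw [e] at this <;> rcases hp with rfl | rfl <;> omega

theorem setup [S.Normal] (h2 : ¬ p * p ∣ Nat.card S) (hi : ¬ p ∣ S.index) (hx : x ∈ S) (ho : orderOf x = p) :
    S.index = S.relIndex 𝒩(zpowers x) ∧ ∀ g, ∀ s ∈ S, g * x * g⁻¹ = s * x * s⁻¹ → g ∈ S := by
  have := Fact.mk (pr hp)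
  have hP : IsPGroup p (zpowers x) := isPGroup_zpowers (k := 1) (by rw [pow_one, ← ho, pow_orderOf_eq_one])
  have h1 : ¬ p ∣ (zpowers x).relIndex S := fun e => h2 (by
    rw [← card_mul_relIndex (zpowers_le.2 hx), Nat.card_zpowers, ho]
    exact Nat.mul_dvd_mul_left p e)
  have h3 : IsSylowIn p (zpowers x) ⊤ := ⟨le_top, hP, by
    rw [relIndex_top_right, ← relIndex_mul_index (zpowers_le.2 hx)]
    exact fun e => ((pr hp).dvd_mul.1 e).elim h1 hi⟩
  have h4 : centralizer {x} = zpowers x := h3.eq_of_le (isPGroup_iff_forall.2 fun y hy =>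
    ⟨1, by rw [pow_one]; exact cent_el h hp ho (Commute.symm (mem_centralizer_singleton_iff.1 hy))⟩)
    (zpowers_le.2 (mem_centralizer_singleton_iff.2 rfl)) le_top
  refine ⟨frat ⟨zpowers_le.2 hx, hP, h1⟩, fun g s hs e => ?_⟩
  refine (mul_mem_cancel_left (inv_mem hs)).1 (zpowers_le.2 hx (h4.le (mem_centralizer_singleton_iff.2 ?_)))
  calc s⁻¹ * g * x = s⁻¹ * (g * x * g⁻¹) * g := by group
    _ = _ := by rw [e]; group

omit hp in
theorem not_solv (hd : 70 ∣ Nat.card G) (hs : Group.IsSolvable G) : False := by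
  have : Nontrivial G := Finite.one_lt_card_iff_nontrivial.1 (lt_of_lt_of_le (by norm_num) (Nat.le_of_dvd Nat.card_pos hd))
  obtain ⟨N, r, hr, hN, eN⟩ := exists_isMinNormal_isElementaryAbelian G
  have := hN.normal
  have := Fact.mk hr
  have pN : IsPGroup r N := isPGroup_iff_forall.2 fun a ha => ⟨1, by rw [pow_one, eN.2 a ha]⟩
  have hr' : ¬ (r = 5 ∨ r = 7) := fun e => hN.ne_bot (le_bot_iff.1 (core_bot' h e hd ▸ le_pCore pN))
  obtain ⟨H, hH⟩ := CL.Odd.Hall.exists_hall (π := {5, 7}) (M := (⊤ : Subgroup G)) inferInstance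
  have dH : ∀ s, s = 5 ∨ s = 7 → s ∣ Nat.card H := fun s hs => (CL.Odd.Hall.dvd_card_iff hH (pr hs) hs).2 (by
    rw [card_top]
    exact Dvd.dvd.trans (by rcases hs with rfl | rfl <;> norm_num) hd)
  have : Nontrivial H := Finite.one_lt_card_iff_nontrivial.1
    (lt_of_lt_of_le (by norm_num) (Nat.le_of_dvd Nat.card_pos (dH 5 (.inl rfl))))
  obtain ⟨M, p, pp, hM, eM⟩ := exists_isMinNormal_isElementaryAbelian H
  have := hM.normal
  have := Fact.mk pp
  have := eM.1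
  obtain ⟨a, ha, a1⟩ := M.bot_or_exists_ne_one.resolve_left hM.ne_bot
  have hp : p = 5 ∨ p = 7 := hH.2.1 p pp (orderOf_eq_prime (eM.2 a ha) a1 ▸ orderOf_dvd_natCard a)
  have pM : IsPGroup p (M.map H.subtype) :=
    (isPGroup_iff_forall.2 fun a ha => ⟨1, by rw [pow_one, eM.2 a ha]⟩ : IsPGroup p M).map _
  have hc : IsCyclic (M.map H.subtype) := by
    by_contra hc
    refine hN.ne_bot (le_bot_iff.1 (le_of_forall_centralizer_le hc le_normalizer_of_normal
      (IsPGroup.coprime_card_of_ne p r (fun e => hr' (e ▸ hp)) _ _ pM pN) fun b hb b1 k hk => ?_))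
    have e := ord h hp (isPGroup_iff_forall.1 pM b hb) b1
    exact h.fpf (e ▸ hp) (mem_fx.1 hk).2.symm (e ▸ Nat.Coprime.coprime_dvd_right
      (orderOf_dvd_of_pow_eq_one (eN.2 k hk.1)) ((Nat.coprime_primes pp hr).2 fun e => hr' (e ▸ hp)))
  have cM : Nat.card (M.map H.subtype) = p := by
    obtain ⟨⟨g, hg⟩, e⟩ := hc.exists_ofOrder_eq_natCard
    rw [← e, orderOf_mk]
    refine ord h hp (isPGroup_iff_forall.1 pM g hg) fun g1 => hM.ne_bot ?_
    rw [orderOf_mk, g1, orderOf_one, eq_comm, card_eq_one] at e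
    exact (map_eq_bot_iff_of_injective _ H.subtype_injective).1 e
  obtain ⟨s, hs, ne⟩ : ∃ s, (s = 5 ∨ s = 7) ∧ s ≠ p := ⟨12 - p, by omega, by omega⟩
  have := Fact.mk (pr hs)
  obtain ⟨y, hy⟩ := exists_prime_orderOf_dvd_card' s (dH s hs)
  have := dvd_sub h hs ((orderOf_coe y).trans hy) (le_normalizer_map_subtype M y.2)
  rw [cM] at this
  rcases hs with rfl | rfl <;> rcases hp with rfl | rfl <;> omega

end O57

theorem o57Thm : O57Thm.{u} := fun X _ _ h =>
  ⟨fun hs => ⟨O57.core_bot h (.inl rfl) hs, O57.core_bot h (.inr rfl) hs⟩, O57.not_solv h⟩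

theorem ixThm : IXThm.{u} := fun X _ _ h S _ h3 h27 h25 h49 => by
  have i5 := O57.not_index h (.inl rfl) h3 h27
  have i7 := O57.not_index h (.inr rfl) h3 h27
  refine ⟨i5, i7, ?_, ?_, ?_⟩
  · rintro ⟨⟨x, hx⟩, ⟨t, ht⟩, o, e⟩
    rw [orderOf_mk] at o
    have x1 : x ≠ 1 := fun e => by simp [e] at o
    have e4 : t * x * t⁻¹ = x ^ 4 := (congrArg Subtype.val e).trans
      (inv_eq_of_mul_eq_one_right (by rw [← pow_succ', ← pow_orderOf_eq_one x, o]))
    obtain ⟨h1, h2⟩ := O57.setup h (.inl rfl) h25 i5 hx o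
    have k : ∀ g k, g * x * g⁻¹ = x ^ k → k = 1 ∨ k = 4 → g ∈ S := by
      rintro g k e (rfl | rfl)
      exacts [h2 g 1 (one_mem _) (by simpa using e), h2 g t ht (e.trans e4.symm)]
    rw [h1]
    refine O57.idx fun a ha b hb na nb => ?_
    obtain ⟨i, i0, i1, ei⟩ := O57.act x1 ha
    obtain ⟨j, j0, j1, ej⟩ := O57.act x1 hb
    have := mt (k a i ei) na
    have := mt (k b j ej) nb
    refine k _ _ (O57.act_mul ei ej) ?_
    rw [o] at i1 j1 ⊢
    obtain rfl | rfl : i = 2 ∨ i = 3 := by omega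
    all_goals obtain rfl | rfl : j = 2 ∨ j = 3 := by omega
    all_goals decide
  · rintro ⟨⟨x, hx⟩, ⟨t, ht⟩, o, e⟩
    rw [orderOf_mk] at o
    have x1 : x ≠ 1 := fun e => by simp [e] at o
    have e1 : t * x * t⁻¹ = x ^ 2 := congrArg Subtype.val e
    have e2 := O57.act_mul e1 e1
    have e3 := O57.act_mul e2 e1
    obtain ⟨h1, h2⟩ := O57.setup h (.inl rfl) h25 i5 hx o
    rw [h1, relIndex_eq_one]
    intro a ha
    obtain ⟨i, i0, i1, ei⟩ := O57.act x1 ha
    rw [o] at i1 e2 e3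
    interval_cases i
    exacts [h2 a 1 (one_mem _) (by simpa using ei), h2 a t ht (ei.trans e1.symm),
      h2 a _ (mul_mem (mul_mem ht ht) ht) (ei.trans e3.symm), h2 a _ (mul_mem ht ht) (ei.trans e2.symm)]
  · rintro ⟨⟨x, hx⟩, ⟨t, ht⟩, o, e⟩
    rw [orderOf_mk] at o
    have x1 : x ≠ 1 := fun e => by simp [e] at o
    have e1 : t * x * t⁻¹ = x ^ 2 := congrArg Subtype.val e
    have e2 := O57.act_mul e1 e1
    obtain ⟨h1, h2⟩ := O57.setup h (.inr rfl) h49 i7 hx o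
    rw [o] at e2
    have k : ∀ g k, g * x * g⁻¹ = x ^ k → k = 1 ∨ k = 2 ∨ k = 4 → g ∈ S := by
      rintro g k e (rfl | rfl | rfl)
      exacts [h2 g 1 (one_mem _) (by simpa using e), h2 g t ht (e.trans e1.symm), h2 g _ (mul_mem ht ht) (e.trans e2.symm)]
    rw [h1]
    by_cases c : 𝒩(zpowers x) ≤ S
    · exact .inl (relIndex_eq_one.2 c)
    refine .inr ⟨(O57.idx fun a ha b hb na nb => ?_).resolve_left fun e => c (relIndex_eq_one.1 e), ?_⟩
    · obtain ⟨i, i0, i1, ei⟩ := O57.act x1 ha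
      obtain ⟨j, j0, j1, ej⟩ := O57.act x1 hb
      have := mt (k a i ei) na
      have := mt (k b j ej) nb
      refine k _ _ (O57.act_mul ei ej) ?_
      rw [o] at i1 j1 ⊢
      obtain rfl | rfl | rfl : i = 3 ∨ i = 5 ∨ i = 6 := by omega
      all_goals obtain rfl | rfl | rfl : j = 3 ∨ j = 5 ∨ j = 6 := by omega
      all_goals decide
    · obtain ⟨a, ha, na⟩ := SetLike.not_le_iff_exists.1 c
      obtain ⟨i, i0, i1, ei⟩ := O57.act x1 ha
      have := mt (k a i ei) na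
      have e3 := O57.act_mul ei e1
      rw [o] at i1 e3
      obtain rfl | rfl | rfl : i = 3 ∨ i = 5 ∨ i = 6 := by omega
      exacts [⟨x, a, o, .inl ei⟩, ⟨x, a, o, .inr ei⟩, ⟨x, _, o, .inr e3⟩]

end CL.O8
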