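/-
Project O8 (helper41), job O8-P2A (helper87): the 2-local overgroups of `T⟨y₂⟩`.
-/
import Cfsg.Agent.O8.B
import Cfsg.Agent.Grp.Primitive

set_option autoImplicit false
set_option linter.unusedVariables false

open Cfsg Subgroup CL.Grp CL.Even CL.Loc CL.NGrp
open scoped commutatorElement

namespace CL.O8

universe u

namespace P2A

variable {G : Type*} [Group G]

theorem ex_sq {R : Subgroup G} (k : ℕ) : ∀ t : G, t ∉ R → t ^ 2 ^ k ∈ R →
    ∃ j : ℕ, t ^ j ∉ R ∧ t ^ j * t ^ j ∈ R := by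
  induction k with
  | zero => exact fun t h1 h2 => absurd (by simpa using h2) h1
  | succ k ih =>
    intro t h1 h2
    by_cases h3 : t * t ∈ R
    · exact ⟨1, by rwa [pow_one], by rwa [pow_one]⟩
    · obtain ⟨j, h4, h5⟩ := ih (t * t) h3 (by rwa [← pow_two, ← pow_mul, ← pow_succ'])
      exact ⟨2 * j, by rwa [pow_mul, pow_two], by rwa [pow_mul, pow_two]⟩

theorem card_two {V : Subgroup G} {q : G} (h1 : q ≠ 1) (hq : q ∈ V) (h : ∀ v ∈ V, v = 1 ∨ v = q) :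
    Nat.card V = 2 := by
  refine Nat.card_eq_two_iff.2 ⟨1, ⟨q, hq⟩, fun e => h1 (congrArg Subtype.val e).symm, ?_⟩
  refine Set.eq_univ_of_forall fun v => ?_
  rcases h v v.2 with e | e
  · exact Or.inl (Subtype.ext e)
  · exact Or.inr (Subtype.ext e)

theorem mod3 [Finite G] {V : Subgroup G} {y : G} (hy : orderOf y = 3) (hn : y ∈ 𝒩(V)) :
    Nat.card V ≡ Nat.card (fx V y) [MOD 3] := by
  have := Fact.mk Nat.prime_three
  have h1 := card_modEq_card_inf_centralizer (q := 3) (Q := zpowers y) (K := V)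
    (IsPGroup.of_card (n := 1) (by rw [Nat.card_zpowers, hy, pow_one])) (zpowers_le.2 hn)
  rwa [zpowers_eq_closure, centralizer_closure] at h1

theorem mul_inv_mem [Finite G] {R U : Subgroup G} (hle : R ≤ U) (hc : Nat.card U = 2 * Nat.card R) {a b : G}
    (ha : a ∈ U) (hb : b ∈ U) (ha' : a ∉ R) (hb' : b ∉ R) : a * b ∈ R := by
  have h1 : (R.subgroupOf U).index = 2 := by
    have h2 := (R.subgroupOf U).index_mul_card
    rw [Nat.card_congr (subgroupOfEquivOfLe hle).toEquiv, hc] at h2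
    exact Nat.eq_of_mul_eq_mul_right Nat.card_pos h2
  exact mem_subgroupOf.1 ((mul_mem_iff_of_index_two h1 (a := ⟨a, ha⟩) (b := ⟨b, hb⟩)).2
    (iff_of_false ha' hb'))

end P2A

open P2A

theorem p2aThm (hE : E9Thm.{u}) (h2 : LY2Thm.{u}) : P2AThm.{u} := by
  intro G _ _ h8 p M Q T U0 U1 U2 y1 y2 F H R O hF hH hRU hne
  have s := F.s2
  have hU : IsPGroup 2 U2 := s.par.two.to_le s.par.le
  have hQU : Q ≤ U2 := F.le0.trans s.le0
  obtain ⟨hc, -, -, -, h5, q, hq, hqR, q2, hqy, -⟩ := h2 G h8 H R O U2 y2 hF hU hRU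
    (s.par.le.trans (le_sup_left.trans hH)) hne (hH (mem_sup_right (mem_zpowers _))) s.par.ord s.par.nU
  have a1 : ∀ d ∈ R, Commute d y2 → d = 1 := fun d hd hc => by
    refine mem_bot.1 (F.f2 ▸ mem_fx.2 ⟨mem_ozc.2 ⟨hRU hd, h5 d hd hc, ?_⟩, hc⟩)
    rw [pow_two]
    exact h8.sq s.par.ord hU (hRU hd) hc
  have a2 : ∀ v ∈ U2, Commute v y2 → v = 1 ∨ v = q := fun v hv hvy => by
    by_cases h : v ∈ R
    · exact Or.inl (a1 v h hvy)
    · refine Or.inr ?_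
      have := a1 _ (mul_inv_mem hRU hc hv hq h hqR) (hvy.mul_left hqy)
      rw [eq_inv_of_mul_eq_one_left this, inv_eq_of_mul_eq_one_right q2]
  have q1 : q ≠ 1 := fun e => hqR (e ▸ one_mem R)
  have hqQ : q ∈ Q := s.fp q hq (by rw [commutatorElement_eq_one_iff_commute.2 hqy]; exact one_mem Q)
  rcases F.hp with hp | hp
  · exfalso
    obtain ⟨e, he, hN⟩ := s.e5 hp
    have heQ := F.lc.nQ he
    have hqe : Commute q e := by
      rcases a2 (e * q * e⁻¹) (hQU ((mem_normalizer_iff.1 heQ q).1 hqQ))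
        ((hN.comm.symm.mul_left hqy).mul_left hN.comm.symm.inv_left) with h | h
      · exact absurd (conj_eq_one_iff.1 h) q1
      · exact (mul_inv_eq_iff_eq_mul.1 h : e * q = q * e).symm
    have hqV : q ∈ 𝛀[2] Q := mem_ozc.2 ⟨hqQ,
      (hE G h8 Q y2 e F.lc.two hN (F.lc.nQ s.yM) heQ).2.1 q hqQ hqy hqe, by rwa [pow_two]⟩
    have h1 := mod3 s.par.ord (norm_le_norm_ozc (p := 2) Q (F.lc.nQ s.yM))
    rw [card_two (V := fx _ y2) q1 (mem_fx.2 ⟨hqV, hqy⟩) fun v hv =>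
      a2 v (hQU (ozc_le Q (mem_fx.1 hv).1)) (mem_fx.1 hv).2] at h1
    rcases F.sz with h | h | h
    · rw [h.2.1] at h1
      exact absurd h1 (by decide)
    · omega
    · omega
  · rw [s.f7 hp Q F.lc.two F.lc.nQ, card_two (V := fx Q y2) q1 (mem_fx.2 ⟨hqQ, hqy⟩) fun v hv =>
      a2 v (hQU (mem_fx.1 hv).1) (mem_fx.1 hv).2]
    rfl

theorem p2uThm (hP : ParThm.{u}) (hF : FSThm.{u}) (hM : MXThm.{u}) (hN : P2NThm.{u}) (hA : P2AThm.{u})
    (hB : P2BThm.{u}) : P2UThm.{u} := by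
  intro G _ _ h8 hL p M Q T U0 U1 U2 y1 y2 F hT hD hQ R hR h0 hH
  obtain ⟨n1, n2, -⟩ := hN G h8 hL p M Q T U0 U1 U2 y1 y2 F hT hD
  by_cases hs : Group.IsSolvable ↥(𝒩(R))
  swap
  · obtain ⟨M', Q', h1, h2⟩ := hM G h8 hL R hR h0 hs
    exact n2 M' Q' h1 (hH.trans h2) ▸ h2
  have s := F.s2
  have PF := hP G T U2 y2 s.par
  have hTH : T ≤ 𝒩(R) := le_sup_left.trans hH
  have c1 : pCoreOf 2 𝒩(R) ≤ T := (hT.of_le hTH le_top).le_of_normalized (pCoreOf_isPGroup _ _) (pCoreOf_le _ _)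
    (le_normalizer_pCoreOf _ _)
  have c2 : pCoreOf 2 𝒩(R) ≤ U2 := PF.core ▸ le_pCoreOf (c1.trans le_sup_left)
    (hH.trans (le_normalizer_pCoreOf _ _)) (pCoreOf_isPGroup _ _)
  rcases hF G h8 _ hs (hL R hR h0) with ⟨O, hO⟩ | ⟨x, -, -, -, -, h1⟩
  · by_cases h1 : U2 = pCoreOf 2 𝒩(R)
    · exact hB G h8 hL p M Q T U0 U1 U2 y1 y2 F hT n1 _ O (h1 ▸ hO) hH
    · exact absurd (hA G h8 p M Q T U0 U1 U2 y1 y2 F _ _ O hO hH c2 h1) hQ
  · obtain ⟨t, ht, h2, -⟩ := PF.ex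
    obtain ⟨k, hk⟩ := s.par.two ⟨t, ht⟩
    obtain ⟨j, h3, h4⟩ := ex_sq (R := pCoreOf 2 𝒩(R)) k t (fun h => h2 (c2 h)) (by
      rw [show t ^ 2 ^ k = 1 from congrArg Subtype.val hk]
      exact one_mem _)
    exact absurd ⟨y2, hH (mem_sup_right (mem_zpowers _)), _, hTH (pow_mem ht j), s.par.ord, h3, h4⟩ h1

end CL.O8
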