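/-
Project O8 (helper41), job O8-P2B (helper7): solvable overgroups of `T⟨y₂⟩` with `O₂(H) = U₂`.
-/
import Cfsg.Agent.O8.B
import Cfsg.Agent.O8.LA
import Cfsg.Agent.O8.E9

set_option autoImplicit false
set_option linter.unusedVariables false

open Cfsg Subgroup CL.Grp CL.Even CL.Loc CL.NGrp
open scoped commutatorElement

namespace CL.O8

universe u

namespace P2B

section

variable {X : Type*} [Group X] [Finite X]

/-- an element outside `⟨y⟩` commuting with `y` and fixed or inverted by `t` -/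
theorem core (h : Ord8 X) (N : Subgroup X) [N.Normal] (hN : IsPGroup 3 N) {y t : X} (hy : orderOf y = 3)
    (tt : t * t = 1) (ty : t * y * t⁻¹ = y⁻¹) (hn : ¬ N ≤ zpowers y) :
    ∃ e, e ^ 3 = 1 ∧ Commute e y ∧ e ∉ zpowers y ∧ (t * e * t⁻¹ = e ∨ t * e * t⁻¹ = e⁻¹) := by
  have := Fact.mk Nat.prime_three
  have hS : IsPGroup 3 ↥(zpowers y ⊔ N) := (E9.z3 hy).to_sup_of_normal_right hN
  have hyS : y ∈ zpowers y ⊔ N := mem_sup_left (mem_zpowers y)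
  have y1 : y ≠ 1 := fun e => by rw [e, orderOf_one] at hy; omega
  have hne : zpowers y ⊔ N ≠ ⊥ := fun e => y1 (mem_bot.1 (e ▸ hyS))
  have ti : t⁻¹ = t := inv_eq_of_mul_eq_one_right tt
  have nz : ∀ w ∈ zpowers y, t * w * t⁻¹ = w⁻¹ := fun w hw => by
    obtain ⟨n, rfl⟩ := mem_zpowers_iff.1 hw
    rw [← conj_zpow, ty, inv_zpow]
  have nS : ∀ s ∈ zpowers y ⊔ N, t * s * t⁻¹ ∈ zpowers y ⊔ N := fun s hs => by
    obtain ⟨a, ha, b, hb, rfl⟩ := (mem_sup_nr (le_normalizer_of_normal (H := N))).1 hs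
    have : t * (a * b) * t⁻¹ = t * a * t⁻¹ * (t * b * t⁻¹) := by group
    rw [this, nz a ha]
    exact mul_mem (mem_sup_left (inv_mem ha)) (mem_sup_right (‹N.Normal›.conj_mem b hb t))
  have hf : ∃ f ∈ zpowers y ⊔ N, f ∉ zpowers y ∧ Commute f y := by
    obtain ⟨⟨z, hz⟩, z1⟩ := ne_bot_iff_exists_ne_one.1 (inf_cent_ne_bot hS hS le_normalizer hne)
    by_cases hzy : z ∈ zpowers y
    · obtain ⟨f, hf, hfy⟩ := SetLike.not_le_iff_exists.1 hn
      refine ⟨f, mem_sup_right hf, hfy, ?_⟩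
      have hc : Commute f z := comm_of_mem hz.2 (mem_sup_right hf)
      rcases LA.zp3 hy hzy with e | e | e
      · exact absurd (Subtype.ext e) z1
      · exact e ▸ hc
      · rw [e] at hc
        exact Commute.inv_right_iff.1 hc
    · exact ⟨z, hz.1, hzy, (comm_of_mem hz.2 hyS).symm⟩
  obtain ⟨f, hf, hfy, hc⟩ := hf
  have hg : Commute (t * f * t⁻¹) y := by
    have h1 : y = t * y⁻¹ * t⁻¹ := by
      rw [nz y⁻¹ (inv_mem (mem_zpowers y)), inv_inv]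
    rw [h1]
    exact hc.inv_right.conj t
  have hm : t * (f * (t * f * t⁻¹)⁻¹) * t⁻¹ = (f * (t * f * t⁻¹)⁻¹)⁻¹ := by
    have : t * (f * (t * f * t⁻¹)⁻¹) * t⁻¹ = t * f * t⁻¹ * (t * t) * f⁻¹ * (t * t)⁻¹ := by group
    rw [this, tt]; group
  by_cases hw : f * (t * f * t⁻¹)⁻¹ ∈ zpowers y
  · set w := f * (t * f * t⁻¹)⁻¹ with hwd
    have hwS : f * w ∈ zpowers y ⊔ N := mul_mem hf (mem_sup_left hw)
    have cw : Commute f w := by
      obtain ⟨n, hn⟩ := mem_zpowers_iff.1 hw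
      exact hn ▸ hc.zpow_right n
    have w3 : w ^ 3 = 1 := h.three_grp hS (mem_sup_left hw)
    refine ⟨f * w, h.three_grp hS hwS, hc.mul_left ?_, fun k => hfy ((mul_mem_cancel_right hw).1 k), .inl ?_⟩
    · obtain ⟨n, hn⟩ := mem_zpowers_iff.1 hw
      exact hn ▸ (Commute.refl y).zpow_left n
    · have e1 : t * f * t⁻¹ = w⁻¹ * f := by rw [hwd]; group
      have e2 : t * (f * w) * t⁻¹ = t * f * t⁻¹ * (t * w * t⁻¹) := by group
      rw [e2, e1, nz w hw, cw.inv_right.symm.eq]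
      calc f * w⁻¹ * w⁻¹ = f * w * (w ^ 3)⁻¹ := by group
        _ = f * w := by rw [w3, inv_one, mul_one]
  · exact ⟨_, h.three_grp hS (mul_mem hf (inv_mem (nS f hf))), hc.mul_left hg.inv_left, hw, .inr hm⟩

end

section

variable {G : Type u} [Group G] [Finite G]

/-- the element `e` with `⟨y, e⟩` of order 9 -/
theorem lift (h9 : L9Thm.{u}) (h : Ord8 G) {H R O : Subgroup G} (F : Fit3 H R O) {y t : G} (hy : orderOf y = 3)
    (yH : y ∈ H) (tH : t ∈ H) (tt : t * t ∈ R) (ty : t * y * t⁻¹ = y⁻¹) (hn : ¬ O ≤ zpowers y ⊔ R) :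
    ∃ e ∈ H, Nine y e ∧ (t * e * t⁻¹ * e⁻¹ ∈ R ∨ t * e * t⁻¹ * e ∈ R) := by
  have := Fact.mk Nat.prime_three
  have hRH : R ≤ H := F.RO.trans F.OH
  have nR : (R.subgroupOf H).Normal := (normal_subgroupOf_iff_le_normalizer hRH).2 F.nR
  have nO : (O.subgroupOf H).Normal := (normal_subgroupOf_iff_le_normalizer F.OH).2 F.nO
  let π : H →* H ⧸ R.subgroupOf H := QuotientGroup.mk' _
  have hq : Quo H R π := ⟨QuotientGroup.mk'_surjective _, fun m => QuotientGroup.eq_one_iff m⟩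
  have nN : ((O.subgroupOf H).map π).Normal := nO.map π hq.surj
  have hN : IsPGroup 3 ((O.subgroupOf H).map π) := fun ⟨_, o, ho, rfl⟩ =>
    ⟨1, Subtype.ext (by
      have : π (o ^ 3) = 1 := (hq.ker _).2 (F.cube o ho)
      simpa using this)⟩
  have y3 : orderOf (π ⟨y, yH⟩) = 3 := by
    refine orderOf_eq_prime ?_ fun e => LA.nm3 F.two hy ((hq.ker _).1 e)
    rw [← map_pow]
    refine (hq.ker _).2 ?_
    have : y ^ 3 = 1 := hy ▸ pow_orderOf_eq_one y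
    simp [this]
  have t2 : π ⟨t, tH⟩ * π ⟨t, tH⟩ = 1 := by
    rw [← map_mul]; exact (hq.ker _).2 tt
  have ty' : π ⟨t, tH⟩ * π ⟨y, yH⟩ * (π ⟨t, tH⟩)⁻¹ = (π ⟨y, yH⟩)⁻¹ := by
    rw [← map_inv, ← map_inv, ← map_mul, ← map_mul]
    exact congrArg π (Subtype.ext ty)
  have key : ∀ o : H, π o ∈ zpowers (π ⟨y, yH⟩) ↔ (o : G) ∈ zpowers y ⊔ R := fun o => by
    constructor
    · intro k
      obtain ⟨n, hn⟩ := mem_zpowers_iff.1 k
      rw [← map_zpow, eq_comm, hq.eq_iff] at hn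
      exact (mul_mem_cancel_right (inv_mem (mem_sup_left (zpow_mem (mem_zpowers y) n)))).1 (mem_sup_right hn)
    · intro k
      obtain ⟨a, ha, r, hr, e⟩ := (mem_sup_nr (zpowers_le.2 (F.nR yH))).1 k
      obtain ⟨n, rfl⟩ := mem_zpowers_iff.1 ha
      refine mem_zpowers_iff.2 ⟨n, ?_⟩
      rw [← map_zpow, eq_comm, hq.eq_iff, ← e]
      exact conj_mem (zpow_mem (F.nR yH) n) hr
  have hn' : ¬ (O.subgroupOf H).map π ≤ zpowers (π ⟨y, yH⟩) := fun k =>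
    hn fun o ho => (key ⟨o, F.OH ho⟩).1 (k ⟨_, ho, rfl⟩)
  obtain ⟨e, e3, ec, en, et⟩ := core ((h.sub H).quot _) _ hN y3 t2 ty' hn'
  obtain ⟨f, rfl⟩ := hq.surj e
  obtain ⟨r, hr, hN⟩ := h9 G h R y f F.two hy (F.nR yH) (F.nR f.2) ((hq.ker (f ^ 3)).1 (by rw [map_pow, e3]))
    ((hq.ker ⁅f, ⟨y, yH⟩⁆).1 (by rw [map_commutatorElement, ec.commutator_eq])) fun k => en ((key f).2 k)
  have hr1 : π ⟨r, hRH hr⟩ = 1 := (hq.ker _).2 hr
  refine ⟨f * r, H.mul_mem f.2 (hRH hr), hN, et.imp (fun k => ?_) fun k => ?_⟩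
  · refine (hq.ker (⟨t, tH⟩ * (f * ⟨r, hRH hr⟩) * ⟨t, tH⟩⁻¹ * (f * ⟨r, hRH hr⟩)⁻¹)).1 ?_
    simp only [map_mul, map_inv, hr1, mul_one, k, mul_inv_cancel]
  · refine (hq.ker (⟨t, tH⟩ * (f * ⟨r, hRH hr⟩) * ⟨t, tH⟩⁻¹ * (f * ⟨r, hRH hr⟩))).1 ?_
    simp only [map_mul, map_inv, hr1, mul_one, k, inv_mul_cancel]

variable {p : ℕ} {M Q T U0 U1 U2 : Subgroup G} {y1 y2 : G}

/-- the case where `t` centralises `e` modulo `U₂` -/
theorem fix (hP : ParThm.{u}) (F : FF p M Q T U0 U1 U2 y1 y2) (hC : 𝒞(𝛀[2] T) = T ⊔ zpowers y1) {e t : G}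
    (e3 : orderOf e = 3) (en : e ∈ 𝒩(U2)) (ec : Commute y2 e) (ht : t ∈ T) (tU : t ∉ U2)
    (te : t * e * t⁻¹ * e⁻¹ ∈ U2) : False := by
  have P1 := hP G T U1 y1 F.s1.par
  have P2 := hP G T U2 y2 F.s2.par
  have le := F.s2.par.le
  have nT : e ∈ 𝒩(T) := by
    refine mem_normalizer_fintype fun s hs => ?_
    by_cases k : s ∈ U2
    · exact le (conj_mem en k)
    · have : e * s * e⁻¹ = e * (s * t) * e⁻¹ * (t⁻¹ * (t * e * t⁻¹ * e⁻¹)) := by group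
      rw [this]
      exact T.mul_mem (le (conj_mem en (P2.mulm s hs t ht k tU))) (T.mul_mem (T.inv_mem ht) (le te))
  have n1 : zpowers e ≤ 𝒩(T ⊔ zpowers y1) := hC ▸ le_norm_cent (le_norm_ozc (zpowers_le.2 nT))
  have n2 : zpowers e ≤ 𝒩(zpowers y2) := by
    refine le_trans ?_ (cent_le_norm _)
    rw [E9.czp]
    exact zpowers_le.2 (mem_centralizer_singleton_iff.2 ec.symm.eq)
  have nM : zpowers e ≤ 𝒩(M) := F.gen ▸ le_norm_sup n1 n2
  have eM : e ∈ M := by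
    have := normalizer_le_normalizer_pCoreOf 2 M (nM (mem_zpowers e))
    rwa [F.lc.core, F.lc.eq] at this
  have hY : T ⊔ zpowers e ≤ 𝒩(T) := sup_le le_normalizer (zpowers_le.2 nT)
  rcases F.ovr (T ⊔ zpowers e) le_sup_left (sup_le F.syl.1 (zpowers_le.2 eM)) with k | k | k | k
  · exact LA.nm3 F.s2.par.two e3 (k ▸ mem_sup_right (mem_zpowers e))
  · exact P1.nn (hY (k ▸ mem_sup_right (mem_zpowers y1)))
  · exact P2.nn (hY (k ▸ mem_sup_right (mem_zpowers y2)))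
  · exact P1.nn (hY (k ▸ F.s1.yM))

/-- the case where `t` inverts `e` modulo `U₂` -/
theorem inv (hP : ParThm.{u}) (hS : SEThm.{u}) (h : Ord8 G) (lc : LC2 G) (F : FF p M Q T U0 U1 U2 y1 y2)
    (hT : IsSylowIn 2 T ⊤) {e t : G} (e3 : orderOf e = 3) (en : e ∈ 𝒩(U2)) (ht : t ∈ T) (tU : t ∉ U2)
    (te : t * e * t⁻¹ * e ∈ U2) : fx (𝛀[2] U2) e = ⊥ := by
  by_contra hX
  have P1 := hP G T U1 y1 F.s1.par
  have P2 := hP G T U2 y2 F.s2.par
  have par : Par T U2 e := by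
    refine ⟨F.s2.par.two, F.s2.par.le, F.s2.par.card, e3, en, fun s hs k => ?_⟩
    have h1 : s * t⁻¹ ∈ U2 := P2.mulm s hs _ (T.inv_mem ht) k fun k => tU (U2.inv_mem_iff.1 k)
    have : s * e * s⁻¹ * e = s * t⁻¹ * (t * e * t⁻¹ * e) * (e⁻¹ * (s * t⁻¹)⁻¹ * e) := by group
    rw [this]
    exact U2.mul_mem (U2.mul_mem h1 te) (conj_mem' en (U2.inv_mem h1))
  have nX : T ≤ 𝒩(fx (𝛀[2] U2) e) := by
    refine le_normalizer_iff.2 fun s hs x hx => ?_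
    obtain ⟨h1, h2⟩ := mem_fx.1 hx
    have cU : ∀ r ∈ U2, Commute x r := fun r hr => (comm_of_mem (ozc_le_cent U2 h1) hr).symm
    refine mem_fx.2 ⟨conj_mem (le_norm_ozc P2.nT hs) h1, ?_⟩
    by_cases k : s ∈ U2
    · rw [← (cU s k).eq, mul_inv_cancel_right]; exact h2
    · have h3 := par.inv s⁻¹ (T.inv_mem hs) fun k' => k (U2.inv_mem_iff.1 k')
      have h4 := ((cU _ h3).mul_right h2.inv_right).conj s
      have : s * (s⁻¹ * e * s⁻¹⁻¹ * e * e⁻¹) * s⁻¹ = e := by group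
      rwa [this] at h4
  obtain ⟨⟨z, hz⟩, z1⟩ := ne_bot_iff_exists_ne_one.1
    (inf_cent_ne_bot ((ozc_isP U2).to_le inf_le_left) F.s2.par.two nX hX)
  obtain ⟨h1, h2⟩ := mem_fx.1 hz.1
  have zZ : z ∈ 𝛀[2] T := mem_ozc.2 ⟨F.s2.par.le (ozc_le U2 h1), hz.2, (mem_ozc.1 h1).2.2⟩
  have hU : U1 = U2 := by
    by_cases k : e ∈ T ⊔ zpowers y1
    · rcases P1.max (T ⊔ zpowers e) le_sup_left (sup_le le_sup_left (zpowers_le.2 k)) with k | k
      · exact absurd (k ▸ mem_sup_right (mem_zpowers e)) (LA.nm3 par.two e3)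
      · rw [← P1.core, ← k, (hP G T U2 e par).core]
    · exact hS G h lc T U1 U2 y1 e z hT F.s1.par par F.c1 zZ (fun e => z1 (Subtype.ext e)) h2 k
  have h5 := F.s2.card
  rw [← F.inf, hU, inf_idem] at h5
  have := Nat.card_pos (α := U2)
  omega

end

end P2B

theorem p2bThm (hP : ParThm.{u}) (h9 : L9Thm.{u}) (hE : E9Thm.{u}) (hS : SEThm.{u}) : P2BThm.{u} := by
  intro G _ _ h lc p M Q T U0 U1 U2 y1 y2 F hT hC H O K hH
  have P2 := hP G T U2 y2 F.s2.par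
  obtain ⟨t, ht, tU, ty⟩ := P2.ex
  have hy := F.s2.par.ord
  have yH : y2 ∈ H := hH (mem_sup_right (mem_zpowers y2))
  have tH : t ∈ H := hH (mem_sup_left ht)
  have PM : T ⊔ zpowers y2 ≤ M := sup_le F.syl.1 (zpowers_le.2 F.s2.yM)
  by_cases hn : O ≤ zpowers y2 ⊔ U2
  · have OP : O ≤ T ⊔ zpowers y2 := hn.trans (sup_le le_sup_right (F.s2.par.le.trans le_sup_left))
    have yO : y2 ∈ O := by
      by_contra k
      refine LA.nm3 K.two hy (LA.le_of_eq K (fun o ho => ?_) yH)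
      obtain ⟨r, hr, e | e | e⟩ := LA.mem3 hy (K.nR yH) (hn ho)
      · exact e ▸ hr
      · exact absurd ((O.mul_mem_cancel_right (K.RO hr)).1 (e ▸ ho)) k
      · exact absurd (O.inv_mem_iff.1 ((O.mul_mem_cancel_right (K.RO hr)).1 (e ▸ ho))) k
    have hO : O = zpowers y2 ⊔ U2 := le_antisymm hn (sup_le (zpowers_le.2 yO) K.RO)
    intro g hg
    by_cases k : g ∈ O
    · exact PM (OP k)
    · exact (M.mul_mem_cancel_right (F.syl.1 ht)).1 (PM (OP (LA.mul_mem_O K hy hO hg tH k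
        fun k => tU (LA.two_mem F.s2.par.two ht (K.cube t k)))))
  exfalso
  obtain ⟨e, eH, n, k | k⟩ := P2B.lift h9 h K hy yH tH (P2.mulm t ht t ht tU tU) ty hn
  · exact P2B.fix hP F hC n.of (K.nR eH) n.comm ht tU k
  have nD : H ≤ 𝒩(𝛀[2] U2) := le_norm_ozc K.nR
  have h1 := (hE G h (𝛀[2] U2) y2 e (ozc_isP U2) n (nD yH) (nD eH)).1
  have o1 : orderOf (y2 * e) = 3 := E9.ordE n (mul_mem (mem_sup_left (mem_zpowers _)) (mem_sup_right (mem_zpowers _)))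
    fun k => n.nm (eq_inv_of_mul_eq_one_right k ▸ inv_mem (mem_zpowers y2))
  have o2 : orderOf (y2 * e⁻¹) = 3 :=
    E9.ordE n (mul_mem (mem_sup_left (mem_zpowers _)) (mem_sup_right (inv_mem (mem_zpowers _))))
      fun k => n.nm (mul_inv_eq_one.1 k ▸ mem_zpowers y2)
  have k1 : t * (y2 * e) * t⁻¹ * (y2 * e) ∈ U2 := by
    have : t * (y2 * e) * t⁻¹ * (y2 * e) = t * y2 * t⁻¹ * (t * e * t⁻¹) * (y2 * e) := by group
    rw [this, ty, n.comm.eq, show y2⁻¹ * (t * e * t⁻¹) * (e * y2) = y2⁻¹ * (t * e * t⁻¹ * e) * y2 by group]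
    exact conj_mem' (K.nR yH) k
  have k2 : t * (y2 * e⁻¹) * t⁻¹ * (y2 * e⁻¹) ∈ U2 := by
    have : t * (y2 * e⁻¹) * t⁻¹ * (y2 * e⁻¹) = t * y2 * t⁻¹ * (t * e⁻¹ * t⁻¹) * (y2 * e⁻¹) := by group
    rw [this, ty, n.comm.inv_right.eq, show y2⁻¹ * (t * e⁻¹ * t⁻¹) * (e⁻¹ * y2) =
      y2⁻¹ * (e * (t * e * t⁻¹ * e)⁻¹ * e⁻¹) * y2 by group]
    exact conj_mem' (K.nR yH) (conj_mem (K.nR eH) (U2.inv_mem k))
  rw [F.f2, P2B.inv hP hS h lc F hT n.of (K.nR eH) ht tU k,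
    P2B.inv hP hS h lc F hT o1 (K.nR (H.mul_mem yH eH)) ht tU k1,
    P2B.inv hP hS h lc F hT o2 (K.nR (H.mul_mem yH (H.inv_mem eH))) ht tU k2] at h1
  simp only [sup_idem, le_bot_iff] at h1
  have h2 := F.sz
  rw [h1, card_bot] at h2
  omega

end CL.O8
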