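/-
Project O8: no transvection of `Q = O₂(M)` with a `T`-invariant axis when `M / Q ≅ L₃(2)`.
-/
import Cfsg.Agent.O8.B
import Cfsg.Agent.O8.E9

set_option autoImplicit false
set_option linter.unusedVariables false

open Cfsg Subgroup CL.Grp CL.Even CL.Loc CL.NGrp
open scoped commutatorElement

namespace CL.O8

universe u

namespace PW

theorem lin {A : Type*} [CommGroup A] (Z : ℕ → A) (sq : ∀ i, Z i ^ 2 = 1) (ne : ∀ i, Z i ≠ 1)
    (rc : ∀ i, Z (i + 3) = Z i * Z (i + 1)) (a : ℕ → ℕ)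
    (h : Z 0 ^ a 0 * Z 1 ^ a 1 * Z 2 ^ a 2 * Z 3 ^ a 3 * Z 4 ^ a 4 * Z 5 ^ a 5 * Z 6 ^ a 6 = 1) :
    (a 1 + a 3 + a 4 + a 5) % 2 = 0 := by
  have e3 : Z 3 = Z 0 * Z 1 := rc 0
  have e4 : Z 4 = Z 1 * Z 2 := rc 1
  have e5 : Z 5 = Z 0 * Z 1 * Z 2 := by rw [show Z 5 = Z 2 * Z 3 from rc 2, e3, mul_comm]
  have e6 : Z 6 = Z 0 * Z 2 := by
    rw [show Z 6 = Z 3 * Z 4 from rc 3, e3, e4, mul_assoc, ← mul_assoc (Z 1), ← pow_two, sq, one_mul]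
  have h1 : Z 0 ^ (a 0 + a 3 + a 5 + a 6) * Z 1 ^ (a 1 + a 3 + a 4 + a 5) * Z 2 ^ (a 2 + a 4 + a 5 + a 6) = 1 := by
    rw [← h, e3, e4, e5, e6]
    simp only [mul_pow, pow_add, mul_assoc, mul_comm, mul_left_comm]
  rw [pow_eq_pow_mod _ (sq 0), pow_eq_pow_mod _ (sq 1), pow_eq_pow_mod (a 2 + _ + _ + _) (sq 2)] at h1
  by_contra h2
  rw [show (a 1 + a 3 + a 4 + a 5) % 2 = 1 by omega] at h1
  rcases Nat.mod_two_eq_zero_or_one (a 0 + a 3 + a 5 + a 6) with k | k <;>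
    rcases Nat.mod_two_eq_zero_or_one (a 2 + a 4 + a 5 + a 6) with l | l <;> rw [k, l] at h1
  · exact ne 1 (by simpa using h1)
  · exact ne 4 (by simpa [e4] using h1)
  · exact ne 3 (by simpa [e3] using h1)
  · exact ne 5 (by simpa [e5] using h1)

variable {G : Type*} [Group G] {Q N : Subgroup G} {z w q r x y g a b : G}

open Classical in
/-- `0` if `w` and `q` commute, else `1` -/
noncomputable def lam (w q : G) : ℕ := if Commute w q then 0 else 1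

theorem lam_zero : lam w q = 0 ↔ Commute w q := by
  unfold lam
  split_ifs with h <;> simp [h]

theorem lam_le : lam w q ≤ 1 := by
  unfold lam
  split_ifs <;> simp

theorem lam_nrm (yQ : y ∈ 𝒩(Q)) (yN : y ∈ 𝒩(fx Q w)) (hr : r ∈ Q) : lam w (y⁻¹ * r * y) = lam w r := by
  have k : lam w (y⁻¹ * r * y) = 0 ↔ lam w r = 0 := by
    rw [lam_zero, lam_zero]
    refine ⟨fun c => ?_, fun c => (mem_fx.1 (conj_mem' yN (mem_fx.2 ⟨hr, c.symm⟩))).2.symm⟩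
    have := (mem_fx.1 (conj_mem yN (mem_fx.2 ⟨conj_mem' yQ hr, c.symm⟩))).2.symm
    rwa [show y * (y⁻¹ * r * y) * y⁻¹ = r by group] at this
  have := lam_le (w := w) (q := r)
  have := lam_le (w := w) (q := y⁻¹ * r * y)
  omega

/-- `w` acts on `Q` trivially or as a transvection with centre `z` -/
structure Tv (Q : Subgroup G) (z w : G) : Prop where
  zQ : z ∈ Q
  zC : z ∈ 𝒞(Q)
  zz : z ^ 2 = 1
  z1 : z ≠ 1
  wQ : w ∈ Q
  hw : ∀ q ∈ Q, ⁅w, q⁆ = 1 ∨ ⁅w, q⁆ = z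

theorem Tv.eq (h : Tv Q z w) (hq : q ∈ Q) : ⁅w, q⁆ = z ^ lam w q := by
  unfold lam
  split_ifs with c
  · rw [pow_zero, commutatorElement_eq_one_iff_commute.2 c]
  · rw [pow_one, (h.hw q hq).resolve_left fun e => c (commutatorElement_eq_one_iff_commute.1 e)]

theorem Tv.mul (h : Tv Q z w) (hq : q ∈ Q) (hr : r ∈ Q) : lam w (q * r) % 2 = (lam w q + lam w r) % 2 := by
  have o : orderOf z = 2 := orderOf_eq_prime h.zz h.z1
  have e : ⁅w, q * r⁆ = ⁅w, q⁆ * (q * ⁅w, r⁆ * q⁻¹) := by simp only [commutatorElement_def]; group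
  rw [h.eq (Q.mul_mem hq hr), h.eq hq, h.eq hr, comm_of_mem (pow_mem h.zC _) hq, mul_inv_cancel_right, ← pow_add,
    pow_eq_pow_iff_modEq, o] at e
  exact e

theorem Tv.cnj (h : Tv Q z w) (hg : g ∈ 𝒩(Q)) (hq : q ∈ Q) :
    ⁅g * w * g⁻¹, q⁆ = (g * z * g⁻¹) ^ lam w (g⁻¹ * q * g) := by
  rw [conj_pow, ← h.eq (conj_mem' hg hq)]
  simp only [commutatorElement_def]
  group

theorem cm (ha : a ∈ Q) (hq : q ∈ Q) (hb : ⁅b, q⁆ ∈ 𝒞(Q)) : ⁅a * b, q⁆ = ⁅a, q⁆ * ⁅b, q⁆ := by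
  have e : ⁅a * b, q⁆ = a * ⁅b, q⁆ * a⁻¹ * ⁅a, q⁆ := by simp only [commutatorElement_def]; group
  rw [e, comm_of_mem hb ha, mul_inv_cancel_right]
  refine (comm_of_mem hb ?_).symm
  exact Q.mul_mem (Q.mul_mem (Q.mul_mem ha hq) (Q.inv_mem ha)) (Q.inv_mem hq)

variable [Finite G]

theorem surj (hx : x ∈ 𝒩(Q)) (hf : ∀ r ∈ Q, Commute x r → r = 1) (hq : q ∈ Q) :
    ∃ r ∈ Q, r⁻¹ * (x * r * x⁻¹) = q := by
  let f : Q → Q := fun r => ⟨(r : G)⁻¹ * (x * r * x⁻¹), Q.mul_mem (Q.inv_mem r.2) (conj_mem hx r.2)⟩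
  have hi : Function.Injective f := fun r s e => by
    have e1 : (r : G)⁻¹ * (x * r * x⁻¹) = (s : G)⁻¹ * (x * s * x⁻¹) := congrArg Subtype.val e
    have e2 : Commute x ((s : G) * (r : G)⁻¹) := by
      calc x * (s * (r : G)⁻¹) = s * ((s : G)⁻¹ * (x * s * x⁻¹)) * x * (r : G)⁻¹ := by group
        _ = s * (r : G)⁻¹ * x := by rw [← e1]; group
    exact Subtype.ext (mul_inv_eq_one.1 (hf _ (Q.mul_mem s.2 (Q.inv_mem r.2)) e2)).symm
  obtain ⟨r, hr⟩ := Finite.surjective_of_injective hi ⟨q, hq⟩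
  exact ⟨r, r.2, congrArg Subtype.val hr⟩

theorem fix (hQ : IsPGroup 2 Q) (hy : orderOf y = 3) (hN : N ≤ Q) (yQ : y ∈ 𝒩(Q)) (yN : y ∈ 𝒩(N)) (hq : q ∈ Q)
    (h : q⁻¹ * (y * q * y⁻¹) ∈ N) : ∃ c ∈ Q, Commute c y ∧ q⁻¹ * c ∈ N := by
  have k : ∀ n : ℕ, q⁻¹ * (y ^ n * q * (y ^ n)⁻¹) ∈ N := fun n => by
    induction n with
    | zero => simp
    | succ n ih =>
      have := N.mul_mem h (conj_mem yN ih)
      rw [pow_succ']
      convert this using 1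
      group
  haveI := (E9.z3 hy).isNilpotent
  obtain ⟨c, ⟨c1, c2⟩, c3⟩ := exists_centralizer_mem_leftCoset (zpowers_le.2 yQ) (E9.cop (E9.z3 hy) hQ)
    (.inl inferInstance) hN (zpowers_le.2 yN) hq fun a ha => by
      obtain ⟨n, rfl⟩ := mem_powers_iff_mem_zpowers.2 ha
      exact k n
  exact ⟨c, c1, (comm_of_mem c2 (mem_zpowers y)).symm, c3⟩

open scoped IsMulCommutative in
theorem rel (h8 : Ord8 G) (hQ : IsPGroup 2 Q) (h : Tv Q z w) (hx : orderOf x = 7) (xn : x ∈ 𝒩(Q))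
    (hz : z * (x * z * x⁻¹) * (x ^ 3 * z * (x ^ 3)⁻¹) = 1) (hq : q ∈ Q) :
    (lam w ((x ^ 1)⁻¹ * q * x ^ 1) + lam w ((x ^ 3)⁻¹ * q * x ^ 3) + lam w ((x ^ 4)⁻¹ * q * x ^ 4) +
      lam w ((x ^ 5)⁻¹ * q * x ^ 5)) % 2 = 0 := by
  obtain ⟨r, hr, e⟩ := surj xn (fun r hr => h8.fpf2 (.inr hx) hQ hr) h.wQ
  have x7 : x ^ 7 = 1 := hx ▸ pow_orderOf_eq_one x
  have u1 : (w * x) ^ 7 = 1 := by
    rw [show w * x = r⁻¹ * x * r⁻¹⁻¹ by rw [← e]; group, conj_pow, x7, mul_one, mul_inv_cancel]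
  let W : ℕ → G := fun i => x ^ i * w * (x ^ i)⁻¹
  let Z : ℕ → G := fun i => x ^ i * z * (x ^ i)⁻¹
  have WQ : ∀ i, W i ∈ Q := fun i => conj_mem (pow_mem xn i) h.wQ
  have ZQ : ∀ i, Z i ∈ Q ⊓ 𝒞(Q) := fun i =>
    ⟨conj_mem (pow_mem xn i) h.zQ, conj_mem (norm_le_norm_cent Q (pow_mem xn i)) h.zC⟩
  have Z2 : ∀ i, Z i ^ 2 = 1 := fun i => by rw [conj_pow, h.zz, mul_one, mul_inv_cancel]
  have WZ : ∀ i, ⁅W i, q⁆ = Z i ^ lam w ((x ^ i)⁻¹ * q * x ^ i) := fun i => h.cnj (pow_mem xn i) hq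
  have WC : ∀ i, ⁅W i, q⁆ ∈ 𝒞(Q) := fun i => WZ i ▸ pow_mem (ZQ i).2 _
  have u2 : W 0 * W 1 * W 2 * W 3 * W 4 * W 5 * W 6 = 1 := by
    calc _ = (w * x) ^ 7 * (x ^ 7)⁻¹ := by simp only [W, pow_succ]; group
      _ = 1 := by rw [u1, x7, mul_inv_cancel]
  have u3 : ⁅W 0 * W 1 * W 2 * W 3 * W 4 * W 5 * W 6, q⁆ = 1 := by rw [u2, commutatorElement_one_left]
  have m := @Q.mul_mem
  rw [cm (m (m (m (m (m (WQ 0) (WQ 1)) (WQ 2)) (WQ 3)) (WQ 4)) (WQ 5)) hq (WC 6),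
    cm (m (m (m (m (WQ 0) (WQ 1)) (WQ 2)) (WQ 3)) (WQ 4)) hq (WC 5),
    cm (m (m (m (WQ 0) (WQ 1)) (WQ 2)) (WQ 3)) hq (WC 4), cm (m (m (WQ 0) (WQ 1)) (WQ 2)) hq (WC 3),
    cm (m (WQ 0) (WQ 1)) hq (WC 2), cm (WQ 0) hq (WC 1)] at u3
  simp only [WZ] at u3
  have z3 : x ^ 3 * z * (x ^ 3)⁻¹ = z * (x * z * x⁻¹) := by
    have := Z2 3
    rw [pow_two] at this
    exact mul_right_cancel (this.trans hz.symm)
  haveI : IsMulCommutative ↥(Q ⊓ 𝒞(Q)) := ⟨⟨fun s t => Subtype.ext (comm_of_mem t.2.2 s.2.1)⟩⟩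
  refine lin (A := ↥(Q ⊓ 𝒞(Q))) (fun i => ⟨Z i, ZQ i⟩) (fun i => Subtype.ext (Z2 i)) (fun i k => h.z1 ?_)
    (fun i => Subtype.ext ?_) (fun i => lam w ((x ^ i)⁻¹ * q * x ^ i)) (Subtype.ext u3)
  · exact conj_eq_one_iff.1 (congrArg Subtype.val k)
  · change x ^ (i + 3) * z * (x ^ (i + 3))⁻¹ = x ^ i * z * (x ^ i)⁻¹ * (x ^ (i + 1) * z * (x ^ (i + 1))⁻¹)
    calc _ = x ^ i * (x ^ 3 * z * (x ^ 3)⁻¹) * (x ^ i)⁻¹ := by group
      _ = _ := by rw [z3]; group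

theorem key (h8 : Ord8 G) (hQ : IsPGroup 2 Q) (h : Tv Q z w) (hx : orderOf x = 7) (xn : x ∈ 𝒩(Q))
    (hz : z * (x * z * x⁻¹) * (x ^ 3 * z * (x ^ 3)⁻¹) = 1) (hq : q ∈ Q) :
    (lam w q + lam w (x⁻¹ * q * x) + lam w ((x ^ 3)⁻¹ * q * x ^ 3)) % 2 = 0 := by
  obtain ⟨r, hr, rfl⟩ := surj (inv_mem xn) (fun r hr c => h8.fpf2 (.inr hx) hQ hr (Commute.inv_left_iff.1 c)) hq
  have c : ∀ i : ℕ, (x ^ i)⁻¹ * r * x ^ i ∈ Q := fun i => conj_mem' (pow_mem xn i) hr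
  have k : ∀ i : ℕ, lam w ((x ^ i)⁻¹ * (r⁻¹ * (x⁻¹ * r * x⁻¹⁻¹)) * x ^ i) % 2 =
      (lam w ((x ^ i)⁻¹ * r * x ^ i) + lam w ((x ^ (i + 1))⁻¹ * r * x ^ (i + 1))) % 2 := fun i => by
    have h1 := h.mul (c i) (conj_mem' (pow_mem xn i) hq)
    rw [show (x ^ i)⁻¹ * r * x ^ i * ((x ^ i)⁻¹ * (r⁻¹ * (x⁻¹ * r * x⁻¹⁻¹)) * x ^ i) =
      (x ^ (i + 1))⁻¹ * r * x ^ (i + 1) by group] at h1
    omega
  have h2 := rel h8 hQ h hx xn hz (conj_mem xn hr)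
  have s : ∀ i : ℕ, (x ^ (i + 1))⁻¹ * (x * r * x⁻¹) * x ^ (i + 1) = (x ^ i)⁻¹ * r * x ^ i := fun i => by group
  rw [s 0, s 2, s 3, s 4] at h2
  have k0 := k 0
  have k1 := k 1
  have k3 := k 3
  simp only [pow_zero, pow_one, inv_one, one_mul, mul_one, zero_add, Nat.reduceAdd] at k0 k1 k3 h2
  omega

/-- the last step: an element of order 3 does not normalise the axis -/
theorem last (h8 : Ord8 G) (hQ : IsPGroup 2 Q) (h : Tv Q z w) (hy : orderOf y = 3) (yQ : y ∈ 𝒩(Q))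
    (yz : Commute z y) (yN : y ∈ 𝒩(fx Q w)) : w ∈ 𝒞(Q) := by
  refine mem_centralizer_iff.2 fun q hq => ?_
  by_contra nq
  obtain ⟨c, cQ, cy, hc⟩ := fix hQ hy (N := Q ⊓ 𝒞(Q)) inf_le_left yQ
    (le_norm_inf le_rfl (norm_le_norm_cent Q) yQ) h.wQ ⟨Q.mul_mem (Q.inv_mem h.wQ) (conj_mem yQ h.wQ),
      mem_centralizer_iff.2 fun r hr => by
        have e := h.cnj yQ hr
        rw [lam_nrm yQ yN hr, ← yz.eq, mul_inv_cancel_right, ← h.eq hr, commutatorElement_def, commutatorElement_def] at e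
        calc r * (w⁻¹ * (y * w * y⁻¹)) = w⁻¹ * (w * r * w⁻¹ * r⁻¹) * r * (y * w * y⁻¹) := by group
          _ = _ := by rw [← e]; group⟩
  obtain ⟨d, dQ, dy, hd⟩ := fix hQ hy (N := fx Q w) inf_le_left yQ yN hq (by
    have m := Q.mul_mem (Q.inv_mem hq) (conj_mem yQ hq)
    have h1 := h.mul hq m
    have h2 := lam_nrm yQ yN (conj_mem yQ hq)
    rw [show y⁻¹ * (y * q * y⁻¹) * y = q by group] at h2
    rw [mul_inv_cancel_left, ← h2] at h1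
    have := lam_le (w := w) (q := q⁻¹ * (y * q * y⁻¹))
    exact mem_fx.2 ⟨m, (lam_zero.1 (by omega)).symm⟩)
  have h1 : Commute c d := h8.comm hy hQ cQ dQ cy dy
  have h2 : Commute (w⁻¹ * c) d := (comm_of_mem hc.2 dQ).symm
  have h3 : Commute w d := by simpa using h1.mul_left h2.inv_left
  have h4 : Commute w q := by simpa using h3.mul_right (mem_fx.1 hd).2.symm.inv_right
  exact nq h4.symm.eq

omit [Finite G] in
theorem memP {X : Type*} [Group X] {M : Subgroup G} {π : M →* X} {a b c : X} {y m : M} (hπ : Quo M Q π)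
    (hy : π y = c) (hm : π m ∈ closure {a, b, c}) : (m : G) ∈ prm π (closure {a, b}) ⊔ zpowers (y : G) := by
  have k : ∀ t ∈ closure {a, b}, t ∈ ((prm π (closure {a, b}) ⊔ zpowers (y : G)).subgroupOf M).map π := fun t ht => by
    obtain ⟨s, rfl⟩ := hπ.surj t
    exact ⟨s, mem_subgroupOf.2 (mem_sup_left (mem_prm.2 ht)), rfl⟩
  have h1 : closure {a, b, c} ≤ ((prm π (closure {a, b}) ⊔ zpowers (y : G)).subgroupOf M).map π := by
    rw [closure_le]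
    rintro t (rfl | rfl | rfl)
    · exact k _ (subset_closure (by simp))
    · exact k _ (subset_closure (by simp))
    · exact ⟨y, mem_subgroupOf.2 (mem_sup_right (mem_zpowers _)), hy⟩
  obtain ⟨s, hs, e⟩ := h1 hm
  have h2 : ((m * s⁻¹ : M) : G) ∈ prm π (closure {a, b}) := mem_prm.2 (by simp [e])
  simpa using mul_mem (mem_sup_left h2) (mem_subgroupOf.1 hs)

omit [Finite G] in
theorem line {X : Type u} [Group X] {M : Subgroup G} {π : M →* X} {P : Subgroup X} {d : X} {y x : M} (hπ : Quo M Q π)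
    (hy : π y = d) (y3 : (y : G) ^ 3 = 1) (zz : z ^ 2 = 1) (hP : ∀ m : M, π m ∈ P → (m : G) * z * (m : G)⁻¹ = z)
    (hz : z * (y * z * (y : G)⁻¹) * ((y : G)⁻¹ * z * y) = 1) (hl : Ln P d (π x)) :
    z * (x * z * (x : G)⁻¹) * ((x : G) ^ 3 * z * ((x : G) ^ 3)⁻¹) = 1 := by
  obtain ⟨h, hh, e, he, h1, h2⟩ := hl
  obtain ⟨h, rfl⟩ := hπ.surj h
  obtain ⟨f, rfl, f3, hf⟩ : ∃ f : M, π f = e ∧ (f : G) ^ 3 = 1 ∧
      z * (f * z * (f : G)⁻¹) * ((f : G)⁻¹ * z * f) = 1 := by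
    rcases he with rfl | rfl
    · exact ⟨y, hy, y3, hz⟩
    · refine ⟨y⁻¹, by rw [map_inv, hy], by simp [y3], ?_⟩
      have zi : z⁻¹ = z := inv_eq_of_mul_eq_one_right (pow_two z ▸ zz)
      have k := congrArg (fun t => z * t⁻¹ * z⁻¹) hz
      simp only [mul_inv_rev, inv_inv, zi, inv_one, mul_one] at k
      rw [← pow_two, zz] at k
      rw [← k, coe_inv, inv_inv]
      calc _ = z * ((y : G)⁻¹ * (z * y) * (y * (z * (y : G)⁻¹) * (z * z))) := by rw [← pow_two, zz]; group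
        _ = _ := by simp only [mul_assoc]
  have k0 := hP h hh
  have k1 := hP ((h * f)⁻¹ * x) (by simpa only [map_mul, map_inv] using h1)
  have k2 := hP ((h * f * f)⁻¹ * x ^ 3) (by simpa only [map_mul, map_inv, map_pow] using h2)
  simp only [coe_mul, coe_inv, coe_pow] at k1 k2
  have ff : (f : G) * f = (f : G)⁻¹ := eq_inv_of_mul_eq_one_left (by rw [← f3, pow_succ, pow_two])
  have e1 : (x : G) * z * (x : G)⁻¹ = h * (f * z * (f : G)⁻¹) * (h : G)⁻¹ := by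
    conv_rhs => rw [← k1]
    group
  have e2 : (x : G) ^ 3 * z * ((x : G) ^ 3)⁻¹ = h * ((f : G)⁻¹ * z * f) * (h : G)⁻¹ := by
    rw [mul_assoc (h : G), ff] at k2
    conv_rhs => rw [← k2]
    group
  rw [e1, e2]
  calc _ = h * z * (h : G)⁻¹ * (h * (f * z * (f : G)⁻¹) * (h : G)⁻¹) * (h * ((f : G)⁻¹ * z * f) * (h : G)⁻¹) := by
        rw [k0]
    _ = h * (z * (f * z * (f : G)⁻¹) * ((f : G)⁻¹ * z * f)) * (h : G)⁻¹ := by group
    _ = 1 := by rw [hf, mul_one, mul_inv_cancel]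

end PW

open PW in
theorem pwThm (hP : ParThm.{u}) : PWThm.{u} := by
  intro G _ _ h8 M Q U X _ π a b c d y1 y2 hL hπ ⟨x, v, hv, ox, oxv, l1, l2, m1, m2⟩ e1 e2 o2 par z hz z1 cz hz3 w wQ
    hw hT
  have pf := hP G _ _ _ par
  obtain ⟨zT, zC, zz⟩ := mem_ozc.1 hz
  have QT : Q ≤ prm π (closure {a, b}) := fun q hq =>
    (mem_prm (m := ⟨q, hL.le hq⟩)).2 (((hπ.ker ⟨q, hL.le hq⟩).2 hq).symm ▸ one_mem _)
  have tv : Tv Q z w := ⟨hL.cQ (cent_mono QT zC), cent_mono QT zC, zz, z1, wQ, hw⟩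
  have Pz : prm π (closure {a, b}) ⊔ zpowers (y1 : G) ≤ centralizer {z} :=
    sup_le (fun t ht => mem_centralizer_singleton_iff.2 (comm_of_mem zC ht))
      (zpowers_le.2 (mem_centralizer_singleton_iff.2 cz.symm.eq))
  have hc : ∀ m : M, π m ∈ closure {a, b, c} → (m : G) * z * (m : G)⁻¹ = z := fun m hm => by
    rw [mem_centralizer_singleton_iff.1 (Pz (memP hπ e1 hm)), mul_inv_cancel_right]
  obtain ⟨x, rfl⟩ := hπ.surj x
  obtain ⟨v, rfl⟩ := hπ.surj v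
  rw [← map_mul] at oxv l2 m1 m2
  have K : ∀ s : M, orderOf (π s) = 7 → Ln (closure {a, b, c}) d (π s) → ∀ q ∈ Q,
      (lam w q + lam w ((s : G)⁻¹ * q * s) + lam w (((s : G) ^ 3)⁻¹ * q * s ^ 3)) % 2 = 0 := fun s os ls q hq =>
    key h8 hL.two tv (h8.eq_of_dvd (by decide) (by rw [orderOf_coe, ← os]; exact orderOf_map_dvd π s)) (hL.nQ s.2)
      (line hπ e2 (o2 ▸ pow_orderOf_eq_one _) zz hc hz3 ls) hq
  have vN := hT (mem_prm.2 hv)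
  have hN : (((x ^ 3)⁻¹ * (x * v) ^ 3 : M) : G) ∈ 𝒩(fx Q w) := by
    have gQ := hL.nQ ((x ^ 3)⁻¹ * (x * v) ^ 3).2
    refine (inv_mem_iff (H := 𝒩(fx Q w))).1 (mem_normalizer_fintype fun r hr => ?_)
    obtain ⟨rQ, rw'⟩ := mem_fx.1 hr
    have hq := conj_mem (hL.nQ (x ^ 3).2) rQ
    have k1 := K x ox l1 _ hq
    have k2 := K (x * v) oxv l2 _ hq
    have k3 := lam_nrm (hL.nQ v.2) vN (conj_mem' (hL.nQ x.2) hq)
    have k4 := lam_zero.2 rw'.symm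
    have k5 := lam_le (w := w) (q := (((x * v : M) : G) ^ 3)⁻¹ * ((x ^ 3 : M) * r * ((x ^ 3 : M) : G)⁻¹) * (x * v : M) ^ 3)
    rw [inv_inv]
    refine mem_fx.2 ⟨conj_mem' gQ rQ, (lam_zero.1 ?_).symm⟩
    simp only [coe_mul, coe_inv, coe_pow, mul_inv_rev, inv_inv, mul_assoc, inv_mul_cancel_left, inv_mul_cancel, mul_one]
      at k1 k2 k3 k5 ⊢
    omega
  have hPm := memP (m := (x ^ 3)⁻¹ * (x * v) ^ 3) hπ e1 (by simpa only [map_mul, map_inv, map_pow] using m1)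
  rcases pf.max (𝒩(fx Q w) ⊓ (prm π (closure {a, b}) ⊔ zpowers (y1 : G))) (le_inf hT le_sup_left) inf_le_right with
    e | e
  · refine absurd ?_ m2
    simpa only [map_mul, map_inv, map_pow] using mem_prm.1 (e.le ⟨hN, hPm⟩)
  · exact last h8 hL.two tv par.ord (hL.nQ y1.2) cz (e.ge (mem_sup_right (mem_zpowers _))).1

end CL.O8
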