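/-
Project O8 (S3432): the parabolic subgroups of `M` when `M / Q ≅ A₆` or `L₃(2)`.
-/
import Cfsg.Agent.O8.B

set_option autoImplicit false
set_option linter.unusedVariables false

open Cfsg Subgroup CL.Grp CL.Even CL.Loc CL.NGrp
open scoped commutatorElement

namespace CL.O8

universe u

namespace SD

section Rel

variable {X : Type*} [Group X]

/-- the relations of `S₄` -/
structure R1 (z a b c : X) : Prop where
  z1 : z ≠ 1
  zz : z * z = 1
  aa : a * a = 1
  bb : b * b = 1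
  ab : a * b * (a * b) = z
  za : a * z = z * a
  zb : b * z = z * b
  cz : c * z * c⁻¹ = a
  ca : c * a * c⁻¹ = a * z
  bc : b * c * b⁻¹ = c⁻¹

theorem mem_Z {z x : X} (zz : z * z = 1) : x ∈ closure {z} ↔ x = 1 ∨ x = z := by
  refine ⟨fun h => ?_, by rintro (rfl | rfl); exacts [one_mem _, subset_closure rfl]⟩
  induction h using closure_induction with
  | mem x hx => exact .inr hx
  | one => exact .inl rfl
  | mul x y _ _ hx hy => rcases hx with rfl | rfl <;> rcases hy with rfl | rfl <;> simp [zz]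
  | inv x _ hx => rcases hx with rfl | rfl <;> simp [inv_eq_of_mul_eq_one_right zz]

namespace R1

variable {z a b c : X} (r : R1 z a b c)
include r

theorem a1 : a ≠ 1 := fun e => r.z1 (conj_eq_one_iff.1 (r.cz.trans e))

theorem az : a ≠ z := fun e => r.a1 (conj_eq_one_iff.1 (r.ca.trans (by rw [e, r.zz])))

theorem bi : b⁻¹ = b := inv_eq_of_mul_eq_one_right r.bb

theorem ba : b * a * b⁻¹ = a * z := by
  rw [r.bi, ← r.ab, ← mul_assoc, ← mul_assoc, ← mul_assoc, r.aa, one_mul]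

theorem aza : a * z * a = z := by rw [r.za, mul_assoc, r.aa, mul_one]

theorem mem_E {x : X} : x ∈ closure {z, a} ↔ x = 1 ∨ x = z ∨ x = a ∨ x = a * z := by
  have hz : z ∈ closure {z, a} := subset_closure (.inl rfl)
  have ha : a ∈ closure {z, a} := subset_closure (.inr rfl)
  refine ⟨fun h => ?_, by rintro (rfl | rfl | rfl | rfl); exacts [one_mem _, hz, ha, mul_mem ha hz]⟩
  have e1 : ∀ w, a * (a * w) = w := fun w => by rw [← mul_assoc, r.aa, one_mul]
  have e2 : ∀ w, z * (z * w) = w := fun w => by rw [← mul_assoc, r.zz, one_mul]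
  have e3 : ∀ w, z * (a * w) = a * (z * w) := fun w => by rw [← mul_assoc, ← r.za, mul_assoc]
  induction h using closure_induction with
  | mem x hx => exact .inr (hx.imp_right .inl)
  | one => exact .inl rfl
  | mul x y _ _ hx hy =>
    rcases hx with h | h | h | h <;> rcases hy with k | k | k | k <;> rw [h, k] <;>
      simp [r.zz, r.aa, mul_assoc, e1, e2, e3, ← r.za]
  | inv x _ hx =>
    rcases hx with h | h | h | h <;> rw [h] <;>
      simp [inv_eq_of_mul_eq_one_right r.zz, inv_eq_of_mul_eq_one_right r.aa, ← r.za]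

theorem sq {x : X} (h : x ∈ closure {z, a}) : x * x = 1 := by
  rcases r.mem_E.1 h with h | h | h | h <;> rw [h]
  exacts [one_mul 1, r.zz, r.aa, by rw [← mul_assoc, r.aza, r.zz]]

theorem caz : c * (a * z) * c⁻¹ = z := by rw [← conj_mul, r.ca, r.cz, r.aza]

theorem bz : b * z * b⁻¹ = z := by rw [r.zb, mul_inv_cancel_right]

theorem baz : b * (a * z) * b⁻¹ = a := by rw [← conj_mul, r.ba, r.bz, mul_assoc, r.zz, mul_one]

theorem cE {x : X} (h : x ∈ closure {z, a}) : c * x * c⁻¹ ∈ closure {z, a} := by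
  rw [r.mem_E] at h ⊢
  rcases h with h | h | h | h <;> rw [h] <;> simp only [r.cz, r.ca, r.caz, mul_one, mul_inv_cancel, true_or, or_true]

theorem bE {x : X} (h : x ∈ closure {z, a}) : b * x * b⁻¹ ∈ closure {z, a} := by
  rw [r.mem_E] at h ⊢
  rcases h with h | h | h | h <;> rw [h] <;> simp only [r.bz, r.ba, r.baz, mul_one, mul_inv_cancel, true_or, or_true]

theorem b_not : b ∉ closure {z, a} := fun h => by
  have : b * a = a * b := by
    have := r.sq (mul_mem h (r.mem_E.2 (.inr (.inr (.inl rfl)))))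
    rw [eq_inv_of_mul_eq_one_left this, mul_inv_rev, r.bi, inv_eq_of_mul_eq_one_right r.aa]
  have e := r.ba
  rw [this, mul_inv_cancel_right] at e
  exact r.z1 (left_eq_mul.1 e)

theorem ED : closure {z, a} ≤ closure {a, b} := by
  have ha : a ∈ closure {a, b} := subset_closure (.inl rfl)
  have hb : b ∈ closure {a, b} := subset_closure (.inr rfl)
  refine (closure_le _).2 ?_
  rintro _ (rfl | rfl)
  exacts [r.ab ▸ mul_mem (mul_mem ha hb) (mul_mem ha hb), ha]

theorem mem_D {x : X} (h : x ∈ closure {a, b}) : x ∈ closure {z, a} ∨ x * b ∈ closure {z, a} := by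
  induction h using closure_induction with
  | mem x hx =>
    rcases hx with h | h <;> rw [h]
    exacts [.inl (subset_closure (.inr rfl)), .inr (r.bb ▸ one_mem _)]
  | one => exact .inl (one_mem _)
  | mul x y _ _ hx hy =>
    rcases hx with h | h <;> rcases hy with k | k
    · exact .inl (mul_mem h k)
    · exact .inr (by rw [mul_assoc]; exact mul_mem h k)
    · refine .inr ?_
      rw [show x * y * b = x * b * (b⁻¹ * y * b) by group]
      exact mul_mem h (by simpa only [r.bi] using r.bE k)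
    · refine .inl ?_
      rw [show x * y = x * b * (b⁻¹ * (y * b) * b⁻¹) by group]
      exact mul_mem h (by simpa only [r.bi] using r.bE k)
  | inv x _ hx =>
    refine hx.imp inv_mem fun h => ?_
    have := r.bE (inv_mem h)
    rwa [mul_inv_rev, ← mul_assoc, mul_inv_cancel, one_mul, r.bi] at this

theorem twoD : IsPGroup 2 (closure {a, b} : Subgroup X) := isPGroup_iff_forall.2 fun x hx => ⟨2, by
  have : x * x ∈ closure {z, a} := by
    rcases r.mem_D hx with h | h
    · exact mul_mem h h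
    · rw [show x * x = x * b * (b⁻¹ * (x * b) * b⁻¹) by group]
      exact mul_mem h (by simpa only [r.bi] using r.bE h)
  rw [pow_two, pow_mul, pow_two, pow_two, r.sq this]⟩

end R1

theorem card_two [Finite X] {H K : Subgroup X} (le : H ≤ K) {a : X} (ha : a ∈ K) (na : a ∉ H)
    (h : ∀ x ∈ K, x ∈ H ∨ x * a ∈ H) : Nat.card K = 2 * Nat.card H := by
  have h1 : H.relIndex K = 2 := relIndex_eq_two_iff.2 ⟨a, ha, fun x hx => by
    by_cases k : x ∈ H
    · exact .inr ⟨k, fun e => na ((mul_mem_cancel_left k).1 e)⟩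
    · exact .inl ⟨(h x hx).resolve_left k, k⟩⟩
  have h2 := card_inf_mul_relIndex H K
  rw [inf_eq_left.2 le, h1] at h2
  omega

end Rel

variable {G X : Type u} [Group G] [Finite G] [Group X] {M Q : Subgroup G} {π : M →* X}

omit [Finite G] in
theorem prm_mono {Y Y' : Subgroup X} (h : Y ≤ Y') : prm π Y ≤ prm π Y' := map_mono (comap_mono h)

theorem prm_norm {Y : Subgroup X} {m : M} (h : ∀ u ∈ Y, π m * u * (π m)⁻¹ ∈ Y) : (m : G) ∈ 𝒩(prm π Y) := by
  refine mem_norm_of_cj_le ?_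
  rintro _ ⟨_, ⟨v, hv, rfl⟩, rfl⟩
  exact (mem_prm (m := m * v * m⁻¹)).2 (by simpa using h _ hv)

theorem prm_card (hq : Quo M Q π) {H K : Subgroup X} (le : H ≤ K) {a : X} (ha : a ∈ K) (na : a ∉ H)
    (h : ∀ x ∈ K, x ∈ H ∨ x * a ∈ H) : Nat.card (prm π K) = 2 * Nat.card (prm π H) := by
  obtain ⟨m, rfl⟩ := hq.surj a
  refine card_two (prm_mono le) (mem_prm.2 ha) (mt mem_prm.1 na) ?_
  rintro _ ⟨v, hv, rfl⟩
  exact (h _ hv).imp (fun k => mem_prm.2 k) fun k => (mem_prm (m := v * m)).2 (by rwa [map_mul])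

omit [Finite G] in
theorem exists_prm (hq : Quo M Q π) {Y : Subgroup G} (h1 : Q ≤ Y) (h2 : Y ≤ M) : ∃ Y', Y = prm π Y' := by
  refine ⟨(Y.subgroupOf M).map π, le_antisymm (fun y hy => (mem_prm (m := ⟨y, h2 hy⟩)).2 (mem_map_of_mem π hy)) ?_⟩
  rintro _ ⟨v, ⟨w, hw, e⟩, rfl⟩
  simpa using mul_mem (h1 (hq.eq_iff.1 e.symm)) (show (w : G) ∈ Y from hw)

omit [Finite G] in
theorem prm_bot (hq : Quo M Q π) (h : Q ≤ M) : prm π ⊥ = Q := le_antisymm
  (by rintro _ ⟨v, hv, rfl⟩; exact (hq.ker v).1 hv) fun x hx => (mem_prm (m := ⟨x, h hx⟩)).2 ((hq.ker _).2 hx)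

theorem side (h9 : L9Thm.{u}) (h73 : F73Thm.{u}) (h : Ord8 G) {p : ℕ} {z a b : X} {y : M} (lc : Lc M Q)
    (hq : Quo M Q π) (r : R1 z a b (π y)) (oy : orderOf (y : G) = 3) (e5 : p = 5 → ∃ e, Nine (π y) e)
    (f7 : p = 7 → ∃ x, orderOf x = 7 ∧ (π y * x * (π y)⁻¹ = x ^ 2 ∨ π y * x * (π y)⁻¹ = x ^ 4)) :
    Side p M Q (prm π (closure {a, b})) (prm π (closure {z})) (prm π (closure {z, a})) y := by
  have : Finite X := Finite.of_surjective π hq.surj
  have cN : π y ∈ 𝒩(closure {z, a}) := mem_norm_of_cj_le (by rintro _ ⟨u, hu, rfl⟩; exact r.cE hu)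
  have hz : z ∈ closure {z} := subset_closure rfl
  have ZE : closure {z} ≤ closure {z, a} := closure_mono (by simp)
  have hb : b ∈ closure {a, b} := subset_closure (.inr rfl)
  refine ⟨⟨(r.twoD.comap_of_ker_isPGroup π ?_).map _, prm_mono r.ED, prm_card hq r.ED hb r.b_not fun _ => r.mem_D, oy,
    prm_norm fun _ => r.cE, ?_⟩, y.2, prm_mono ZE, prm_card hq ZE (a := a) (subset_closure (.inr rfl)) ?_ ?_,
    ?_, ?_, ?_, fun Y h1 h2 h3 => ?_, fun e => ?_, fun e D hD hn => ?_⟩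
  · exact (lc.two.comap_subtype (K := M)).to_le fun m hm => (hq.ker m).1 hm
  · rintro _ ⟨t, ht, rfl⟩ h1
    have h2 := (r.mem_D ht).resolve_left fun k => h1 (mem_prm.2 k)
    refine (mem_prm (m := t * y * t⁻¹ * y)).2 ?_
    have e : π t = π t * b * b := by rw [mul_assoc, r.bb, mul_one]
    generalize π t * b = u at e h2
    simp only [map_mul, map_inv]
    rw [e, show u * b * π y * (u * b)⁻¹ * π y = u * (b * π y * b⁻¹) * u⁻¹ * π y by group, r.bc, mul_assoc, mul_assoc,
      ← mul_assoc _ u⁻¹]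
    exact mul_mem h2 (conj_mem' cN (inv_mem h2))
  · exact fun k => ((mem_Z r.zz).1 k).elim r.a1 r.az
  · intro x hx
    simp only [mem_Z r.zz]
    rcases r.mem_E.1 hx with k | k | k | k <;> rw [k] <;> simp [r.aa, r.aza]
  · rintro _ ⟨v, hv, rfl⟩
    exact (hq.ker (v * v)).1 (by rw [map_mul]; exact r.sq hv)
  · rintro _ ⟨v, hv, rfl⟩ k
    have k1 : π y * π v * (π y)⁻¹ = π v := by
      have := (hq.ker ⁅v, y⁆).2 k
      rw [map_commutatorElement, commutatorElement_eq_one_iff_mul_comm] at this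
      rw [← this, mul_inv_cancel_right]
    refine (hq.ker v).1 ?_
    rcases r.mem_E.1 hv with e | e | e | e <;> rw [e] at k1 ⊢
    · exact absurd (r.cz.symm.trans k1) r.az
    · exact absurd (mul_eq_left.1 (r.ca.symm.trans k1)) r.z1
    · exact absurd (right_eq_mul.1 (r.caz.symm.trans k1)) r.a1
  · rintro _ ⟨v, hv, rfl⟩ k
    rcases r.mem_E.1 hv with e | e | e | e
    · exact absurd ((hq.ker v).1 e) k
    · exact .inl (mem_prm.2 (e ▸ hz))
    · refine .inr (.inr ((mem_prm (m := y⁻¹ * v * y)).2 ?_))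
      rw [map_mul, map_mul, map_inv, e, ← r.cz]
      simpa [mul_assoc] using hz
    · refine .inr (.inl ((mem_prm (m := y * v * y⁻¹)).2 ?_))
      rwa [map_mul, map_mul, map_inv, e, r.caz]
  · obtain ⟨Y, rfl⟩ := exists_prm hq h1 (h2.trans prm_le)
    have k1 : Y ≤ closure {z, a} := fun x hx => by
      obtain ⟨m, rfl⟩ := hq.surj x
      exact mem_prm.1 (h2 (mem_prm.2 hx))
    have k2 : ∀ x ∈ Y, b * x * b⁻¹ ∈ Y := fun x hx => by
      obtain ⟨m, rfl⟩ := hq.surj x
      obtain ⟨t, rfl⟩ := hq.surj b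
      have := (mem_prm (m := t * m * t⁻¹)).1 (conj_mem (h3 (mem_prm.2 hb)) (mem_prm.2 hx))
      rwa [map_mul, map_mul, map_inv] at this
    by_cases k3 : a ∈ Y
    · refine .inr (.inr (congrArg _ (le_antisymm k1 ((closure_le _).2 ?_))))
      rintro _ (rfl | rfl)
      exacts [(mul_mem_cancel_left k3).1 (r.ba ▸ k2 a k3), k3]
    have k4 : ∀ x ∈ Y, x = 1 ∨ x = z := fun x hx => by
      rcases r.mem_E.1 (k1 hx) with e | e | e | e
      exacts [.inl e, .inr e, absurd (e ▸ hx) k3, absurd (r.baz ▸ k2 _ (e ▸ hx)) k3]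
    by_cases k5 : z ∈ Y
    · exact .inr (.inl (congrArg _ (le_antisymm (fun x hx => (mem_Z r.zz).2 (k4 x hx))
        ((closure_le _).2 (by rintro _ rfl; exact k5)))))
    · refine .inl (.trans (congrArg _ ((eq_bot_iff_forall _).2 fun x hx => ?_)) (prm_bot hq lc.le))
      exact (k4 x hx).resolve_right fun e => k5 (e ▸ hx)
  · obtain ⟨e, he⟩ := e5 e
    obtain ⟨f, rfl⟩ := hq.surj e
    obtain ⟨s, hs, k⟩ := h9 G h Q y f lc.two oy (lc.nQ y.2) (lc.nQ f.2)
      ((hq.ker (f ^ 3)).1 (by rw [map_pow, ← he.of, pow_orderOf_eq_one]))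
      ((hq.ker ⁅f, y⁆).1 (by rw [map_commutatorElement]; exact he.comm.symm.commutator_eq))
      fun k => he.nm (mem_prm.1 ((sup_le (zpowers_le.2 (mem_prm.2 (mem_zpowers _)))
        ((prm_bot hq lc.le).ge.trans (prm_mono bot_le)) : _ ≤ prm π (zpowers (π y))) k))
    exact ⟨_, mul_mem f.2 (lc.le hs), k⟩
  · obtain ⟨x, ox, k⟩ := f7 e
    obtain ⟨m, rfl, om⟩ := hq.lift_odd lc.two (x := x) (by rw [ox]; decide)
    refine h73 G h Q D m y lc.two hD (lc.nQ m.2) (lc.nQ y.2) (lc.le.trans hn) (hn m.2) (hn y.2) (om.trans ox) oy ?_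
    exact k.imp (fun k => hq.eq_iff (a := y * m * y⁻¹) (b := m ^ 2).1 (by simpa using k))
      fun k => hq.eq_iff (a := y * m * y⁻¹) (b := m ^ 4).1 (by simpa using k)

end SD

theorem sdThm (h9 : L9Thm.{u}) (h73 : F73Thm.{u}) : SDThm.{u} := by
  rintro G _ _ h p M Q X _ π z a b _ _ y1 y2 lc hq d rfl rfl o1 o2
  refine ⟨SD.side h9 h73 h lc hq ⟨d.z1, d.zz, d.aa, d.bb, d.ab, d.za, d.zb, d.cz, d.ca, d.bc⟩ o1
    (fun e => (d.e5 e).1) fun e => (d.f7 e).1, ?_⟩
  rw [Set.pair_comm a b]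
  exact SD.side h9 h73 h lc hq ⟨d.z1, d.zz, d.bb, d.aa, d.ba, d.zb, d.za, d.dz, d.db, d.ad⟩ o2
    (fun e => (d.e5 e).2) fun e => (d.f7 e).2

end CL.O8
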